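import Cfsg.Agent.GeomClasses.OrthEven.Rational
import Cfsg.Agent.GeomClasses.Aschbacher.Rel.Pair
import Cfsg.Agent.GeomClasses.Aschbacher.Rel.Wreath
import Cfsg.Agent.Forms.Discr

/-! # Configurations that force plus type -/

set_option autoImplicit false
set_option maxHeartbeats 600000

namespace Cfsg.Agent.GeomClasses.OrthEven

open Matrix Cfsg.Geo Module
open scoped Kronecker commutatorElement
open Cfsg.Agent.GeomClasses.AschRel
open Cfsg.Agent.GeomClasses.Asch (Irr conjHom)

variable {F : Type*} [Field F] [Fintype F] {ι : Type} [Fintype ι] [DecidableEq ι] (Q : QuadraticForm F (ι → F))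

local notation "fQ" => matForm (RingEquiv.refl F) (polarGram Q)

/-- No totally singular subspace of dimension `m`. -/
def NoSingular (m : ℕ) : Prop := ∀ U : Submodule F (ι → F), IsTotallySingularQuad (⇑Q) U → finrank F U ≠ m

variable {Q} (hQ : (QuadraticMap.polarBilin Q).Nondegenerate) {m : ℕ} (hm : Fintype.card ι = 2 * m) (hmev : Even m)
  (hm1 : 1 ≤ m) (hno : NoSingular Q m)

omit [Fintype F] in
include hno in
theorem no_singular_family {κ : Type*} [Fintype κ] {w : κ → ι → F} (hcard : Fintype.card κ = m)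
    (hli : LinearIndependent F w) (hQw : ∀ i, Q (w i) = 0) (hpw : ∀ i j, QuadraticMap.polar (⇑Q) (w i) (w j) = 0) :
    False := by
  obtain ⟨U, hU, hUd⟩ := singular_span Q hli hQw hpw
  exact hno U hU (hUd.trans hcard)

include hQ hm hmev hm1 hno in
/-- The discriminant is not a square. -/
theorem det_not_square (h2 : (2 : F) ≠ 0) {κ : Type*} [Fintype κ] [DecidableEq κ] (b : Basis κ F (ι → F)) :
    ¬ IsSquare (Matrix.of fun x y => fQ (b x) (b y)).det := by
  intro hsq
  have hM : (Matrix.of fun x y => fQ (b x) (b y)) = LinearMap.BilinForm.toMatrix b (QuadraticMap.polarBilin Q) := by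
    ext x y
    rw [Matrix.of_apply, LinearMap.BilinForm.toMatrix_apply, QuadraticMap.polarBilin_apply_apply, polar_eq_form]
  obtain ⟨X, hX, hiso⟩ := (Forms.isotropic_iff (B := QuadraticMap.polarBilin Q) h2
    ⟨fun x y => QuadraticMap.polar_comm (⇑Q) x y⟩ hQ hm1 (by rw [finrank_pi]; exact hm) b).mpr
    (by rw [hmev.neg_one_pow, one_mul, ← hM]; exact hsq)
  refine hno X (fun x hx => ?_) hX
  have h0 : QuadraticMap.polar (⇑Q) x x = 0 := hiso x hx x hx
  rw [Forms.polar_self_two_mul] at h0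
  exact (mul_eq_zero.mp h0).resolve_left h2

include hQ hm hmev hm1 hno in
/-- An even number of isometric orthogonal blocks. -/
theorem blocks_false {H : Subgroup (GL ι F)} (hI : ∀ g ∈ H, ∀ v, Q ((g : Matrix ι ι F) *ᵥ v) = Q v) {t k : ℕ}
    {D : Fin t → Submodule F (ι → F)} (hD : IsNondegenerateMDecomposition fQ k D)
    (htr : ∀ i j, ∃ g ∈ H ⊔ scalars ι F, ∀ v ∈ D i, (g : Matrix ι ι F) *ᵥ v ∈ D j) (ht : Even t) : False := by
  classical
  have htr' : ∀ i j, ∃ g ∈ H, ∀ v ∈ D i, (g : Matrix ι ι F) *ᵥ v ∈ D j := by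
    intro i j
    obtain ⟨g, hg, hgij⟩ := htr i j
    rw [← SetLike.mem_coe, Subgroup.mul_normal] at hg
    obtain ⟨a, ha, z, hz, rfl⟩ := hg
    refine ⟨a, ha, fun v hv => ?_⟩
    obtain ⟨c, hc⟩ := (mem_scalars_iff z).mp hz
    have := hgij v hv
    rw [Units.val_mul, ← Matrix.mulVec_mulVec, hc, Matrix.smul_mulVec, Matrix.one_mulVec, Matrix.mulVec_smul] at this
    have h' := (D j).smul_mem (c : F)⁻¹ this
    rwa [smul_smul, inv_mul_cancel₀ c.ne_zero, one_smul] at h'
  have hd := hD.decomp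
  let i₀ : Fin t := ⟨0, by have := hd.two_le; omega⟩
  choose g hgH hgD using fun i => htr' i₀ i
  let b₀ := Module.finBasisOfFinrankEq F (D i₀) (hd.finrank_eq i₀)
  have hinj : ∀ i, Function.Injective fun v : ι → F => (g i : Matrix ι ι F) *ᵥ v := fun i a c hac => by
    have := congrArg ((g i)⁻¹.val *ᵥ ·) hac
    simpa [Matrix.mulVec_mulVec] using this
  let L : ∀ i, D i₀ →ₗ[F] D i := fun i =>
    { toFun := fun v => ⟨(g i : Matrix ι ι F) *ᵥ (v : ι → F), hgD i v v.2⟩
      map_add' := fun a c => Subtype.ext (by simp [Matrix.mulVec_add])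
      map_smul' := fun c a => Subtype.ext (by simp [Matrix.mulVec_smul]) }
  have hLinj : ∀ i, Function.Injective (L i) := fun i a c hac =>
    Subtype.ext (hinj i (congrArg Subtype.val hac))
  let bi : ∀ i, Basis (Fin k) F (D i) := fun i => basisOfLinearIndependentOfCardEqFinrank'
    (fun j => L i (b₀ j)) (b₀.linearIndependent.map' (L i) (LinearMap.ker_eq_bot.mpr (hLinj i)))
    (by rw [Fintype.card_fin, hd.finrank_eq i])
  have hint := DirectSum.isInternal_submodule_of_iSupIndep_of_iSup_eq_top hd.indep hd.iSup_eq_top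
  let b : Basis (Fin t × Fin k) F (ι → F) := (hint.collectedBasis bi).reindex (Equiv.sigmaEquivProd _ _)
  have hb : ∀ i j, b (i, j) = (g i : Matrix ι ι F) *ᵥ (b₀ j : ι → F) := fun i j => by
    simp [b, bi, L, DirectSum.IsInternal.collectedBasis_coe]
  let G : Matrix (Fin k) (Fin k) F := Matrix.of fun j l => fQ (b₀ j : ι → F) (b₀ l : ι → F)
  have hbf : ∀ x y : Fin t × Fin k, fQ (b x) (b y) = if x.1 = y.1 then G x.2 y.2 else 0 := by
    rintro ⟨i, j⟩ ⟨i', l⟩
    rw [hb, hb]
    dsimp only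
    split_ifs with h
    · subst h; exact form_iso Q (hI _ (hgH i)) _ _
    · exact hD.orthogonal i i' h _ (hgD i _ (b₀ j).2) _ (hgD i' _ (b₀ l).2)
  by_cases h2 : (2 : F) = 0
  swap
  · refine det_not_square hQ hm hmev hm1 hno h2 b ?_
    have e : (Matrix.of fun x y => fQ (b x) (b y)) = (1 : Matrix (Fin t) (Fin t) F) ⊗ₖ G := by
      ext x y
      rw [Matrix.of_apply, hbf, Matrix.kroneckerMap_apply, Matrix.one_apply]
      split_ifs <;> simp
    rw [e, Matrix.det_kronecker, Matrix.det_one, one_pow, one_mul, Fintype.card_fin]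
    obtain ⟨s, rfl⟩ := ht
    exact ⟨G.det ^ s, by rw [← pow_add]⟩
  obtain ⟨s, rfl⟩ := ht
  let E : Fin s × Fin 2 ≃ Fin (s + s) := finProdFinEquiv.trans (finCongr (by ring))
  have hts : (s + s) * k = 2 * m := by
    rw [← hm, ← Module.finrank_fintype_fun_eq_card F (η := ι), Module.finrank_eq_card_basis b]
    simp
  refine no_singular_family hno (κ := Fin s × Fin k) (w := fun p => b (E (p.1, 0), p.2) + b (E (p.1, 1), p.2))
    (by simp only [Fintype.card_prod, Fintype.card_fin]; rw [show (s + s) * k = 2 * (s * k) by ring] at hts; omega)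
    ?_ ?_ ?_
  · rw [Fintype.linearIndependent_iff]
    intro cc hcc p
    have := congrArg (fun v => b.repr v (E (p.1, 0), p.2)) hcc
    simp only [map_sum, map_smul, map_add, map_zero, Finsupp.finset_sum_apply, Finsupp.smul_apply, Finsupp.add_apply,
      Finsupp.zero_apply, Module.Basis.repr_self, Finsupp.single_apply, Prod.mk.injEq, E.injective.eq_iff] at this
    rw [Finset.sum_eq_single p (fun q _ hq => ?_) (by simp)] at this
    · simpa using this
    · have : ¬ (q.1 = p.1 ∧ q.2 = p.2) := fun h => hq (Prod.ext h.1 h.2)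
      simp [this]
  · intro p
    have hQb : ∀ i, Q (b (i, p.2)) = Q (b₀ p.2 : ι → F) := fun i => by rw [hb]; exact hI _ (hgH i) _
    rw [QuadraticMap.map_add Q, hQb, hQb, polar_eq_form, hbf,
      if_neg (fun h => by simpa using E.injective h), add_zero, ← two_mul, h2, zero_mul]
  · intro p q
    rw [polar_eq_form, mf_add_left, mf_add_right, mf_add_right, hbf, hbf, hbf, hbf]
    simp only [E.injective.eq_iff, Prod.mk.injEq]
    by_cases h : p.1 = q.1
    · simp only [h, and_self, zero_ne_one, one_ne_zero, and_false, if_true, if_false, add_zero, zero_add]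
      rw [← two_mul, h2, zero_mul]
    · simp [h]

include hm hm1 hno in
/-- A pair of totally isotropic halves. -/
theorem halves_false (hm2 : 2 ≤ m) {H : Subgroup (GL ι F)} [Nontrivial ι]
    (hI : ∀ g ∈ H, ∀ v, Q ((g : Matrix ι ι F) *ᵥ v) = Q v)
    (hirr : ∀ W : Submodule F (ι → F), (∀ g ∈ H, ∀ w ∈ W, (g : Matrix ι ι F) *ᵥ w ∈ W) → W = ⊥ ∨ W = ⊤) {k : ℕ}
    {D : Fin 2 → Submodule F (ι → F)} (hk : 2 * k = Fintype.card ι) (hD : IsMDecomposition k D)
    (hts : ∀ i, IsTotallySingularFor fQ (D i)) (hK : H ⊔ scalars ι F ≤ decompositionStabilizer D) : False := by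
  classical
  have hk' : k = m := by omega
  suffices hs : ∀ w ∈ D 0, Q w = 0 from hno (D 0) hs ((hD.finrank_eq 0).trans hk')
  by_cases h2 : (2 : F) = 0
  swap
  · intro w hw
    have := hts 0 w hw w hw
    rw [← polar_eq_form, Forms.polar_self_two_mul] at this
    exact (mul_eq_zero.mp this).resolve_left h2
  let U : Fin 2 → Submodule F (ι → F) := fun i =>
    { carrier := {w | w ∈ D i ∧ Q w = 0}
      add_mem' := fun {a c} ha hc => ⟨add_mem ha.1 hc.1, by
        rw [QuadraticMap.map_add Q a c, ha.2, hc.2, polar_eq_form, hts i a ha.1 c hc.1, add_zero, add_zero]⟩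
      zero_mem' := ⟨zero_mem _, QuadraticMap.map_zero Q⟩
      smul_mem' := fun a w hw => ⟨Submodule.smul_mem _ a hw.1, by rw [QuadraticMap.map_smul, hw.2, smul_zero]⟩ }
  rcases hirr (⨆ i, U i) (fun g hg w hw => by
    obtain ⟨π, hπ⟩ := hK (Subgroup.mem_sup_left hg)
    refine Submodule.iSup_induction U (motive := fun w => (g : Matrix ι ι F) *ᵥ w ∈ ⨆ i, U i) hw
      (fun i x hx => Submodule.mem_iSup_of_mem (π i) ⟨?_, ?_⟩) (by simp) fun a c ha hc => by
        rw [Matrix.mulVec_add]; exact add_mem ha hc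
    · rw [← hπ i]; exact ⟨x, hx.1, Matrix.toLin'_apply _ _⟩
    · rw [hI g hg]; exact hx.2) with h | h
  · -- one half already has a singular vector
    exfalso
    have hfr := hD.finrank_eq 0
    have hk2 : 2 ≤ k := by omega
    let bb := Module.finBasisOfFinrankEq F (D 0) hfr
    have hc2 : ringChar F = 2 := by
      haveI : CharP F 2 := (CharP.charP_iff_prime_eq_zero Nat.prime_two).mpr (by exact_mod_cast h2)
      exact ringChar.eq F 2
    set u := (bb ⟨0, by omega⟩ : ι → F)
    set w := (bb ⟨1, by omega⟩ : ι → F)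
    have hbot : ∀ z, z ∈ D 0 → Q z = 0 → z = 0 := fun z hz hQz => by
      have : z ∈ ⨆ i, U i := Submodule.mem_iSup_of_mem 0 ⟨hz, hQz⟩
      rw [h, Submodule.mem_bot] at this
      exact this
    have hu : Q u ≠ 0 := fun h0 => bb.ne_zero _ (Subtype.ext (hbot u (bb _).2 h0))
    obtain ⟨s, hs⟩ := FiniteField.isSquare_of_char_two hc2 (Q w / Q u)
    have hz := hbot (s • u + w) (add_mem (Submodule.smul_mem _ _ (bb _).2) (bb _).2) (by
      rw [QuadraticMap.map_add Q, QuadraticMap.map_smul, QuadraticMap.polar_smul_left, polar_eq_form,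
        hts 0 u (bb _).2 w (bb _).2, smul_zero, add_zero, smul_eq_mul, ← hs, div_mul_cancel₀ _ hu,
        ← two_mul, h2, zero_mul])
    have e : s • bb ⟨0, by omega⟩ + bb ⟨1, by omega⟩ = 0 := Subtype.ext hz
    have := congrArg (fun z => bb.repr z ⟨1, by omega⟩) e
    simp [Finsupp.single_apply] at this
  · intro w hw
    have hle : iSup U ≤ ⨆ i, D i := iSup_mono fun i x hx => hx.1
    have hsum : finrank F (U 0) + finrank F (U 1) ≥ Fintype.card ι := by
      have h1 := Submodule.finrank_add_le_finrank_add_finrank (U 0) (U 1)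
      have h3 : U 0 ⊔ U 1 = ⊤ := by
        rw [← h]
        refine le_antisymm (sup_le (le_iSup U 0) (le_iSup U 1)) (iSup_le ?_)
        rw [Fin.forall_fin_two]
        exact ⟨le_sup_left, le_sup_right⟩
      rw [h3, finrank_top, finrank_pi] at h1
      exact h1
    have h4 := Submodule.finrank_mono (show U 1 ≤ D 1 from fun x hx => hx.1)
    rw [hD.finrank_eq 1] at h4
    have h5 : U 0 = D 0 := Submodule.eq_of_le_of_finrank_le (fun x hx => hx.1) (by rw [hD.finrank_eq 0]; omega)
    rw [← h5] at hw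
    exact hw.2

include hQ hm hmev hm1 hno in
/-- Two tensor factors of even sizes. -/
theorem tensor_false {H : Subgroup (GL ι F)} [Nontrivial ι]
    (hI : ∀ g ∈ H, ∀ v, Q ((g : Matrix ι ι F) *ᵥ v) = Q v)
    (hirrK : Irr ((fun u : (Module.End F (ι → F))ˣ => (u : Module.End F (ι → F))) ''
      (gu '' (↑(H ⊔ scalars ι F) : Set _))))
    {d e : ℕ} (hd : 2 ≤ d) (he : 2 ≤ e) (hdev : Even d) (heev : Even e) (hsize : d = m ∨ e = m)
    (φA : Matrix (Fin d) (Fin d) F →ₐ[F] Module.End F (ι → F)) (φC : Matrix (Fin e) (Fin e) F →ₐ[F] Module.End F (ι → F))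
    (hAC : ∀ X Y, Commute (φA X) (φC Y)) (hirr2 : Irr (Set.range φA ∪ Set.range φC))
    (hA : ∀ g ∈ H ⊔ scalars ι F, ∀ X, (gu g : Module.End F (ι → F)) * φA X * ((gu g)⁻¹).val ∈ Set.range φA)
    (hC : ∀ g ∈ H ⊔ scalars ι F, ∀ X, (gu g : Module.End F (ι → F)) * φC X * ((gu g)⁻¹).val ∈ Set.range φC)
    (hclA : ∀ X, st (RingEquiv.refl F) (polarGram Q) (φA X) ∈ Set.range φA)
    (hclC : ∀ X, st (RingEquiv.refl F) (polarGram Q) (φC X) ∈ Set.range φC) : False := by
  classical
  have hB := formData Q hQ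
  haveI : Nonempty (Fin d) := ⟨⟨0, by omega⟩⟩
  haveI : Nonempty (Fin e) := ⟨⟨0, by omega⟩⟩
  have hinjA : Function.Injective φA := RingHom.injective φA.toRingHom
  have hinjC : Function.Injective φC := RingHom.injective φC.toRingHom
  obtain ⟨GA, νA, -, hGA, hνA⟩ := exists_factor_gram hB (by omega) φA hinjA hclA
  obtain ⟨GC, νC, -, hGC, hνC⟩ := exists_factor_gram hB (by omega) φC hinjC hclC
  obtain ⟨b, c, hc, hf, hcoord⟩ := pair_frame hB (by omega) (by omega) φA φC hAC hirr2 hA hC GA GC hGA hGC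
  set A := (GA : Matrix (Fin d) (Fin d) F) with hAdef
  set C := (GC : Matrix (Fin e) (Fin e) F) with hCdef
  by_cases h2 : (2 : F) = 0
  swap
  · refine det_not_square hQ hm hmev hm1 hno h2 b ?_
    have e1 : (Matrix.of fun x y => fQ (b x) (b y)) = c • (A ⊗ₖ C) := by
      ext x y
      rw [Matrix.of_apply, hf, Matrix.smul_apply, Matrix.kroneckerMap_apply, smul_eq_mul]
    rw [e1, Matrix.det_smul, Matrix.det_kronecker, Fintype.card_fin, Fintype.card_fin]
    obtain ⟨u, rfl⟩ := hdev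
    obtain ⟨v, rfl⟩ := heev
    refine ⟨c ^ (u * (v + v)) * (A.det ^ v * C.det ^ u), ?_⟩
    rw [Fintype.card_prod, Fintype.card_fin, Fintype.card_fin]
    ring
  have hpm : ∀ {n : ℕ} (_ : 0 < n) (G : GL (Fin n) F) {ν : F},
      ((G : Matrix (Fin n) (Fin n) F)ᵀ).map (RingEquiv.refl F) = ν • (G : Matrix (Fin n) (Fin n) F) →
      (∀ i j, (G : Matrix (Fin n) (Fin n) F) i j = (G : Matrix (Fin n) (Fin n) F) j i) ∧
        ∃ i j, (G : Matrix (Fin n) (Fin n) F) i j ≠ 0 := by
    intro n hn G ν hν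
    haveI : Nonempty (Fin n) := ⟨⟨0, hn⟩⟩
    have e' : ∀ i j, (G : Matrix (Fin n) (Fin n) F) j i = ν * (G : Matrix (Fin n) (Fin n) F) i j := fun i j =>
      congrFun (congrFun hν i) j
    obtain ⟨i, j, hij⟩ : ∃ i j, (G : Matrix (Fin n) (Fin n) F) i j ≠ 0 := by
      by_contra h
      push Not at h
      exact G.ne_zero (Matrix.ext h)
    have h1 : (ν * ν - 1) * (G : Matrix (Fin n) (Fin n) F) i j = 0 := by
      have h := e' j i
      rw [e' i j] at h
      linear_combination -h
    have hν1 : ν = 1 := by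
      rcases mul_self_eq_one_iff.mp (sub_eq_zero.mp ((mul_eq_zero.mp h1).resolve_right hij)) with h | h
      · exact h
      · rw [h]; linear_combination (-1 : F) * h2
    exact ⟨fun i j => by rw [e' j i, hν1, one_mul], i, j, hij⟩
  obtain ⟨hAs, hA0⟩ := hpm (by omega) GA hνA
  obtain ⟨hCs, hC0⟩ := hpm (by omega) GC hνC
  have hdiag : ∀ i k, A i i * C k k = 0 := by
    intro i k
    have h1 := hf (i, k) (i, k)
    rw [← polar_eq_form, Forms.polar_self_two_mul, h2, zero_mul] at h1
    exact (mul_eq_zero.mp h1.symm).resolve_left hc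
  have hsim := sim_of_iso Q hI
  have hCd : ∀ k, C k k = 0 := by
    by_contra h
    push Not at h
    exact factor_hyperplane hsim hirrK h2 he b hc A GC hA0 hCs h hf hcoord
  have hAd : ∀ i, A i i = 0 := by
    by_contra h
    push Not at h
    obtain ⟨b', c', hc', hf', hcoord'⟩ := pair_frame hB (by omega) (by omega) φC φA (fun X Y => (hAC Y X).symm)
      (by rwa [Set.union_comm]) hC hA GC GA hGC hGA
    exact factor_hyperplane hsim hirrK h2 hd b' hc' C GA hC0 hAs h hf' hcoord'
  have hQb := pure_singular Q h2 hI (fun W hW => irred_of_irr hirrK hW) b (c := c) (T := A) (S := C) hAs hAd hCs hCd hf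
    fun g hg y => by
      obtain ⟨c', a, a', -, ha⟩ := hcoord g (Subgroup.mem_sup_left hg)
      refine ⟨fun i => c' * (a : Matrix (Fin d) (Fin d) F) i y.1, fun k => (a' : Matrix (Fin e) (Fin e) F) k y.2,
        fun x => ?_⟩
      rw [ha, Matrix.smul_apply, Matrix.kroneckerMap_apply, smul_eq_mul, mul_assoc]
  rcases hsize with hs | hs
  · exact no_singular_family hno (κ := Fin d) (w := fun i => b (i, ⟨0, by omega⟩)) (by simpa using hs)
      (b.linearIndependent.comp _ fun i j h => congrArg Prod.fst h) (fun i => hQb _)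
      fun i j => by rw [polar_eq_form, hf, hCd, mul_zero, mul_zero]
  · exact no_singular_family hno (κ := Fin e) (w := fun k => b (⟨0, by omega⟩, k)) (by simpa using hs)
      (b.linearIndependent.comp _ fun i j h => congrArg Prod.snd h) (fun i => hQb _)
      fun i j => by rw [polar_eq_form, hf, hAd, zero_mul, mul_zero]

include hQ hm hmev hm1 hno in
/-- Permuted tensor factors of equal even size. -/
theorem power_false {H : Subgroup (GL ι F)} [Nontrivial ι]
    (hI : ∀ g ∈ H, ∀ v, Q ((g : Matrix ι ι F) *ᵥ v) = Q v)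
    (hirr : ∀ W : Submodule F (ι → F), (∀ g ∈ H, ∀ w ∈ W, (g : Matrix ι ι F) *ᵥ w ∈ W) → W = ⊥ ∨ W = ⊤)
    {d t : ℕ} (hd : 2 ≤ d) (hdev : Even d) (ht : 2 ≤ t) (hdt : d ^ (t - 1) = m)
    (φ : Fin t → (Matrix (Fin d) (Fin d) F →ₐ[F] Module.End F (ι → F)))
    (hcom : Pairwise fun i j => ∀ X Y, Commute (φ i X) (φ j Y)) (hirr2 : Irr (⋃ i, Set.range (φ i)))
    (hperm : ∀ g ∈ H, ∃ σ : Equiv.Perm (Fin t), ∀ i X,
      (gu g : Module.End F (ι → F)) * φ i X * ((gu g)⁻¹).val ∈ Set.range (φ (σ i)))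
    (G : GL (Fin d) F) {ν : F}
    (hν : ∀ i j, (G : Matrix (Fin d) (Fin d) F) j i = ν * (G : Matrix (Fin d) (Fin d) F) i j)
    (hG : ∀ i X, st (RingEquiv.refl F) (polarGram Q) (φ i X) =
      φ i (stG (RingEquiv.refl F) (G : Matrix (Fin d) (Fin d) F) X)) : False := by
  classical
  have hB := formData Q hQ
  have hdpos : ∀ _ : Fin t, 0 < d := fun _ => by omega
  obtain ⟨b, c, hc, hb, hBf⟩ := gram_tensor φ hcom hB hdpos hirr2 (fun _ => G) hG
  obtain ⟨t', rfl⟩ : ∃ t', t = t' + 1 := ⟨t - 1, by omega⟩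
  rw [Nat.add_sub_cancel] at hdt
  set A := (G : Matrix (Fin d) (Fin d) F)
  let ee : Fin d × (Fin t' → Fin d) ≃ (Fin (t' + 1) → Fin d) := Fin.consEquiv fun _ => Fin d
  let S : Matrix (Fin t' → Fin d) (Fin t' → Fin d) F := Matrix.of fun a a' => ∏ j, A (a j) (a' j)
  have hf : ∀ x y, fQ (b.reindex ee.symm x) (b.reindex ee.symm y) = c * (A x.1 y.1 * S x.2 y.2) := fun x y => by
    rw [Module.Basis.reindex_apply, Module.Basis.reindex_apply, hBf, Fin.prod_univ_succ]
    rfl
  by_cases h2 : (2 : F) = 0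
  swap
  · refine det_not_square hQ hm hmev hm1 hno h2 (b.reindex ee.symm) ?_
    have e1 : (Matrix.of fun x y => fQ (b.reindex ee.symm x) (b.reindex ee.symm y)) = c • (A ⊗ₖ S) := by
      ext x y
      rw [Matrix.of_apply, hf, Matrix.smul_apply, Matrix.kroneckerMap_apply, smul_eq_mul]
    have hcard : Fintype.card (Fin t' → Fin d) = m := by simpa using hdt
    rw [e1, Matrix.det_smul, Matrix.det_kronecker, Fintype.card_prod, hcard, Fintype.card_fin]
    obtain ⟨u, hu⟩ := hmev
    obtain ⟨v, hv⟩ := hdev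
    refine ⟨c ^ (v * m) * (A.det ^ u * S.det ^ v), ?_⟩
    subst hu hv
    ring
  obtain ⟨i₀, j₀, hij⟩ : ∃ i j, A i j ≠ 0 := by
    by_contra h
    push Not at h
    haveI : Nonempty (Fin d) := ⟨⟨0, by omega⟩⟩
    exact G.ne_zero (Matrix.ext h)
  have hν1 : ν = 1 := by
    have h1 : (ν * ν - 1) * A i₀ j₀ = 0 := by
      have h := hν j₀ i₀
      rw [hν i₀ j₀] at h
      linear_combination -h
    rcases mul_self_eq_one_iff.mp (sub_eq_zero.mp ((mul_eq_zero.mp h1).resolve_right hij)) with h | h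
    · exact h
    · rw [h]; linear_combination (-1 : F) * h2
  have hsymm : ∀ i j, A i j = A j i := fun i j => by rw [hν j i, hν1, one_mul]
  have hdiag : ∀ i, A i i = 0 := by
    intro i
    have h1 := hBf (fun _ => i) (fun _ => i)
    rw [← polar_eq_form, Forms.polar_self_two_mul, h2, zero_mul] at h1
    simp only [Finset.prod_const, Finset.card_univ, Fintype.card_fin] at h1
    exact (pow_eq_zero_iff (by omega)).mp ((mul_eq_zero.mp h1.symm).resolve_left hc)
  have hQb := pure_singular Q h2 hI hirr (b.reindex ee.symm) (c := c) (T := A) (S := S) hsymm hdiag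
    (fun a a' => show ∏ j, A (a j) (a' j) = ∏ j, A (a' j) (a j) from Finset.prod_congr rfl fun j _ => hsymm _ _)
    (fun a => show ∏ j, A (a j) (a j) = 0 from Finset.prod_eq_zero (Finset.mem_univ (⟨0, by omega⟩ : Fin t')) (hdiag _)) hf fun g hg y => by
      obtain ⟨π, c', a, -, ha⟩ := coord_wreath φ hcom (by omega) hirr2 (hperm g hg) b hb
      refine ⟨fun i => c' * (a (π.symm 0) : Matrix (Fin d) (Fin d) F) i (ee y (π.symm 0)),
        fun z => ∏ j, (a (π.symm j.succ) : Matrix (Fin d) (Fin d) F) (z j) (ee y (π.symm j.succ)), fun x => ?_⟩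
      rw [coordGL_apply, Module.Basis.reindex_apply, Module.Basis.repr_reindex_apply, ← coordGL_apply, Equiv.symm_symm,
        ha, mul_assoc]
      congr 1
      rw [← π.symm.prod_comp, Fin.prod_univ_succ, Equiv.apply_symm_apply]
      simp only [Equiv.apply_symm_apply]
      rfl
  exact no_singular_family hno (κ := Fin t' → Fin d) (w := fun z => b.reindex ee.symm (⟨0, by omega⟩, z))
    (by simpa using hdt) ((b.reindex ee.symm).linearIndependent.comp _ fun i j h => congrArg Prod.snd h)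
    (fun i => hQb _) fun i j => by rw [polar_eq_form, hf, hdiag, zero_mul, mul_zero]

include hQ hm hmev hm1 hno in
/-- A spanning group of similarities that is commutative modulo scalars. -/
theorem abelian_false {H M : Subgroup (GL ι F)} [Nontrivial ι]
    (hI : ∀ g ∈ H, ∀ v, Q ((g : Matrix ι ι F) *ᵥ v) = Q v) (hMK : M ≤ H ⊔ scalars ι F) (hM : AschRel.Full M)
    (hab : ⁅M, M⁆ ≤ scalars ι F) : False := by
  classical
  have hB := formData Q hQ
  have hKH : ⁅H ⊔ scalars ι F, H ⊔ scalars ι F⁆ ≤ H :=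
    (commutator_sup_scalars H H).trans (Subgroup.commutator_le_self H)
  have hone : ∀ x ∈ M, ∀ y ∈ M, ∃ ε : F, ε * ε = 1 ∧
      (x : Matrix ι ι F) * (y : Matrix ι ι F) = ε • ((y : Matrix ι ι F) * (x : Matrix ι ι F)) := by
    intro x hx y hy
    obtain ⟨c, hc⟩ := (mem_scalars_iff _).mp (hab (Subgroup.commutator_mem_commutator hx hy))
    refine ⟨c, ?_, ?_⟩
    · obtain ⟨v, hv⟩ := exists_ne (0 : ι → F)
      obtain ⟨⟨u, hu⟩, -⟩ := nondeg_matForm (σ := RingEquiv.refl F) hB.unit v hv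
      have e := form_iso Q (hI _ (hKH (Subgroup.commutator_mem_commutator (hMK hx) (hMK hy)))) u v
      rw [hc, Matrix.smul_mulVec, Matrix.one_mulVec, Matrix.smul_mulVec, Matrix.one_mulVec, mf_smul_left,
        mf_smul_right, ← mul_assoc] at e
      exact mul_right_cancel₀ hu (by rw [one_mul]; exact e)
    · have e : x * y = ⁅x, y⁆ * (y * x) := by rw [commutatorElement_def]; group
      have := congrArg Units.val e
      rw [Units.val_mul, Units.val_mul, Units.val_mul, hc, Matrix.smul_mul, one_mul] at this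
      exact this
  obtain ⟨a, ha, b, hb, hne⟩ : ∃ a ∈ M, ∃ b ∈ M,
      (a : Matrix ι ι F) * (b : Matrix ι ι F) ≠ (b : Matrix ι ι F) * (a : Matrix ι ι F) := by
    by_contra h
    push Not at h
    exact exists_two_commute_false hM fun x hx y hy => Units.ext (h x hx y hy)
  obtain ⟨ε, hε, hab'⟩ := hone a ha b hb
  have hanti : (a : Matrix ι ι F) * (b : Matrix ι ι F) = -((b : Matrix ι ι F) * (a : Matrix ι ι F)) := by
    rcases mul_self_eq_one_iff.mp hε with h | h
    · rw [h, one_smul] at hab'; exact absurd hab' hne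
    · rw [h, neg_smul, one_smul] at hab'; exact hab'
  have h2 : (2 : F) ≠ 0 := fun h0 => by
    apply hne
    rw [hanti]
    ext i j
    rw [Matrix.neg_apply]
    linear_combination (-((b : Matrix ι ι F) * (a : Matrix ι ι F)) i j) * h0
  have hsq : ∀ x ∈ M, ∃ α : F, α ≠ 0 ∧ (x : Matrix ι ι F) * (x : Matrix ι ι F) = α • 1 := by
    intro x hx
    obtain ⟨α, hα⟩ := hM.comm_scalar (M := (x : Matrix ι ι F) * (x : Matrix ι ι F)) fun y hy => by
      obtain ⟨e, he, hxy⟩ := hone x hx y hy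
      rw [mul_assoc, hxy, Matrix.mul_smul, ← mul_assoc, hxy, Matrix.smul_mul, smul_smul, he, one_smul, mul_assoc]
    refine ⟨α, fun h0 => ?_, hα⟩
    rw [h0, zero_smul, ← Units.val_mul] at hα
    exact (x * x).ne_zero hα
  have hadj : ∀ x ∈ M, ∃ s : F, s * s = 1 ∧ ∀ u v, fQ ((x : Matrix ι ι F) *ᵥ u) v = s * fQ u ((x : Matrix ι ι F) *ᵥ v) := by
    intro x hx
    obtain ⟨α, hα0, hα⟩ := hsq x hx
    obtain ⟨μ, hμ0, hμ⟩ := sim_of_iso Q hI x (hMK hx)
    have h1 : ∀ u v, α * fQ ((x : Matrix ι ι F) *ᵥ u) v = μ * fQ u ((x : Matrix ι ι F) *ᵥ v) := by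
      intro u v
      rw [← hμ, Matrix.mulVec_mulVec, hα, Matrix.smul_mulVec, Matrix.one_mulVec, mf_smul_right]
      rfl
    have h2' : ∀ u v, fQ ((x : Matrix ι ι F) *ᵥ u) v = μ / α * fQ u ((x : Matrix ι ι F) *ᵥ v) := fun u v => by
      rw [div_mul_eq_mul_div, eq_div_iff hα0, mul_comm]; exact h1 u v
    refine ⟨μ / α, ?_, h2'⟩
    obtain ⟨v, hv⟩ : ∃ v, (x : Matrix ι ι F) *ᵥ v ≠ 0 := by
      by_contra h
      push Not at h
      exact x.ne_zero (Matrix.ext_of_mulVec_single fun i => by rw [h, Matrix.zero_mulVec])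
    obtain ⟨⟨u, hu⟩, -⟩ := nondeg_matForm (σ := RingEquiv.refl F) hB.unit _ hv
    have e : fQ u ((x : Matrix ι ι F) *ᵥ v) = μ / α * (μ / α * fQ u ((x : Matrix ι ι F) *ᵥ v)) := by
      rw [← h2', hB.swap, one_mul, RingEquiv.refl_apply, h2', hB.swap ((x : Matrix ι ι F) *ᵥ u) v, one_mul,
        RingEquiv.refl_apply]
    exact mul_right_cancel₀ hu (by rw [one_mul, mul_assoc]; exact e.symm)
  obtain ⟨x, hx, y, hy, hxy, s, hs, hsx, hsy⟩ : ∃ x ∈ M, ∃ y ∈ M,
      (x : Matrix ι ι F) * (y : Matrix ι ι F) = -((y : Matrix ι ι F) * (x : Matrix ι ι F)) ∧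
      ∃ s : F, s * s = 1 ∧ (∀ u v, fQ ((x : Matrix ι ι F) *ᵥ u) v = s * fQ u ((x : Matrix ι ι F) *ᵥ v)) ∧
        ∀ u v, fQ ((y : Matrix ι ι F) *ᵥ u) v = s * fQ u ((y : Matrix ι ι F) *ᵥ v) := by
    obtain ⟨sa, hsa, hA⟩ := hadj a ha
    obtain ⟨sb, hsb, hB'⟩ := hadj b hb
    by_cases hsab : sa = sb
    · exact ⟨a, ha, b, hb, hanti, sa, hsa, hA, hsab ▸ hB'⟩
    have hsum : sb = -sa := by
      rcases mul_self_eq_one_iff.mp hsa with h | h <;> rcases mul_self_eq_one_iff.mp hsb with h' | h'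
      · exact absurd (h.trans h'.symm) hsab
      · rw [h, h']
      · rw [h, h', neg_neg]
      · exact absurd (h.trans h'.symm) hsab
    have hprod : ∀ u v, fQ ((↑(a * b) : Matrix ι ι F) *ᵥ u) v = fQ u ((↑(a * b) : Matrix ι ι F) *ᵥ v) := by
      intro u v
      rw [Units.val_mul, ← Matrix.mulVec_mulVec, hA, hB', Matrix.mulVec_mulVec, hanti, Matrix.neg_mulVec,
        ← neg_one_smul F ((_ : Matrix ι ι F) *ᵥ v), mf_smul_right, RingEquiv.refl_apply, hsum]
      linear_combination (-(fQ u (((b : Matrix ι ι F) * (a : Matrix ι ι F)) *ᵥ v))) * hsa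
    rcases mul_self_eq_one_iff.mp hsa with h | h
    · refine ⟨a, ha, a * b, mul_mem ha hb, ?_, sa, hsa, hA, fun u v => by rw [h, one_mul]; exact hprod u v⟩
      rw [Units.val_mul, mul_assoc (a : Matrix ι ι F) (b : Matrix ι ι F), ← mul_assoc (a : Matrix ι ι F) (a : Matrix ι ι F)]
      obtain ⟨α, -, hα⟩ := hsq a ha
      rw [hα, Matrix.smul_mul, one_mul, show (b : Matrix ι ι F) * (a : Matrix ι ι F) = -((a : Matrix ι ι F) * (b : Matrix ι ι F))
        by rw [hanti, neg_neg], Matrix.mul_neg, neg_neg, ← mul_assoc, hα, Matrix.smul_mul, one_mul]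
    · refine ⟨b, hb, a * b, mul_mem ha hb, ?_, sb, hsb, hB', fun u v => by rw [hsum, h, neg_neg, one_mul]; exact hprod u v⟩
      rw [Units.val_mul, ← mul_assoc (b : Matrix ι ι F),
        show (b : Matrix ι ι F) * (a : Matrix ι ι F) = -((a : Matrix ι ι F) * (b : Matrix ι ι F))
          by rw [hanti, neg_neg], Matrix.neg_mul]
  obtain ⟨α, hα0, hα⟩ := hsq x hx
  obtain ⟨β, hβ0, hβ⟩ := hsq y hy
  obtain ⟨l, n, hln⟩ : ∃ l n : F, α * (l * l) + β * (n * n) = 1 := by
    have hodd : Fintype.card F % 2 = 1 := by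
      refine FiniteField.odd_card_of_char_ne_two fun h => h2 ?_
      haveI : CharP F 2 := ringChar.of_eq h
      exact CharTwo.two_eq_zero
    obtain ⟨l, n, h⟩ := FiniteField.exists_root_sum_quadratic (R := F)
      (f := Polynomial.C α * Polynomial.X ^ 2) (g := Polynomial.C β * Polynomial.X ^ 2 - 1)
      (Polynomial.degree_C_mul_X_pow 2 hα0) (by compute_degree!) hodd
    refine ⟨l, n, ?_⟩
    simp at h
    linear_combination h
  set u := l • (x : Matrix ι ι F) + n • (y : Matrix ι ι F) with hu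
  have huu : u * u = 1 := by
    simp only [hu, Matrix.add_mul, Matrix.mul_add, Matrix.smul_mul, Matrix.mul_smul, smul_smul, hα, hβ, hxy, smul_neg]
    calc _ = (α * (l * l) + β * (n * n)) • (1 : Matrix ι ι F) := by module
      _ = 1 := by rw [hln, one_smul]
  have husim : ∀ v w, fQ (u *ᵥ v) w = s * fQ v (u *ᵥ w) := fun v w => by
    simp only [hu, Matrix.add_mulVec, Matrix.smul_mulVec, mf_add_left, mf_add_right, mf_smul_left, mf_smul_right,
      RingEquiv.refl_apply, hsx, hsy]
    ring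
  set w := (x : Matrix ι ι F) * (y : Matrix ι ι F) with hw
  have hwu : w * u = -(u * w) := by
    have e1 : (y : Matrix ι ι F) * (x : Matrix ι ι F) = -w := by rw [hxy, neg_neg]
    simp only [hu, hw, Matrix.add_mul, Matrix.mul_add, Matrix.smul_mul, Matrix.mul_smul]
    have k1 : (x : Matrix ι ι F) * (y : Matrix ι ι F) * (x : Matrix ι ι F) =
        -((x : Matrix ι ι F) * ((x : Matrix ι ι F) * (y : Matrix ι ι F))) := by
      rw [mul_assoc, e1, Matrix.mul_neg]
    have k2 : (y : Matrix ι ι F) * ((x : Matrix ι ι F) * (y : Matrix ι ι F)) =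
        -((x : Matrix ι ι F) * (y : Matrix ι ι F) * (y : Matrix ι ι F)) := by
      rw [← mul_assoc, e1, Matrix.neg_mul]
    rw [k1, k2]
    module
  obtain ⟨μ, hμ0, hμ⟩ := sim_of_iso Q hI (x * y) (hMK (mul_mem hx hy))
  rw [Units.val_mul, ← hw] at hμ
  have hwinj : ∀ v, w *ᵥ v = 0 → v = 0 := fun v hv => by
    have := congrArg (((x * y)⁻¹ : GL ι F).val *ᵥ ·) hv
    rw [hw, ← Units.val_mul] at this
    rwa [Matrix.mulVec_mulVec, Units.inv_mul, Matrix.one_mulVec, Matrix.mulVec_zero] at this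
  let E : F → Submodule F (ι → F) := fun δ => LinearMap.ker (Matrix.toLin' u - δ • LinearMap.id)
  have hE : ∀ δ v, v ∈ E δ ↔ u *ᵥ v = δ • v := fun δ v => by
    rw [LinearMap.mem_ker, LinearMap.sub_apply, LinearMap.smul_apply, LinearMap.id_apply, Matrix.toLin'_apply,
      sub_eq_zero]
  have hswap : ∀ δ v, v ∈ E δ → w *ᵥ v ∈ E (-δ) := fun δ v hv => by
    rw [hE] at hv ⊢
    have : u * w = -(w * u) := by rw [hwu, neg_neg]
    rw [Matrix.mulVec_mulVec, this, Matrix.neg_mulVec, ← Matrix.mulVec_mulVec, hv, Matrix.mulVec_smul, neg_smul]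
  have hcompl : IsCompl (E 1) (E (-1)) := by
    refine IsCompl.of_eq ((Submodule.eq_bot_iff _).mpr fun v hv => ?_) (eq_top_iff.mpr fun v _ => ?_)
    · have h1 := (hE _ _).mp hv.1
      have h3 := (hE _ _).mp hv.2
      rw [h1, one_smul, neg_one_smul, eq_neg_iff_add_eq_zero] at h3
      have : (2 : F) • v = 0 := by rw [two_smul]; exact h3
      exact (smul_eq_zero.mp this).resolve_left h2
    · have h4 : v = (2 : F)⁻¹ • (v + u *ᵥ v) + (2 : F)⁻¹ • (v - u *ᵥ v) := by
        rw [← smul_add, add_add_sub_cancel, ← two_smul F v, smul_smul, inv_mul_cancel₀ h2, one_smul]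
      rw [h4]
      refine add_mem (Submodule.mem_sup_left (Submodule.smul_mem _ _ ?_))
        (Submodule.mem_sup_right (Submodule.smul_mem _ _ ?_))
      · rw [hE, Matrix.mulVec_add, Matrix.mulVec_mulVec, huu, Matrix.one_mulVec, one_smul, add_comm]
      · rw [hE, Matrix.mulVec_sub, Matrix.mulVec_mulVec, huu, Matrix.one_mulVec, neg_one_smul, neg_sub]
  have hle : ∀ δ, finrank F (E δ) ≤ finrank F (E (-δ)) := fun δ => by
    let L : E δ →ₗ[F] E (-δ) :=
      { toFun := fun v => ⟨w *ᵥ (v : ι → F), hswap δ v v.2⟩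
        map_add' := fun p q => Subtype.ext (by simp [Matrix.mulVec_add])
        map_smul' := fun p q => Subtype.ext (by simp [Matrix.mulVec_smul]) }
    refine LinearMap.finrank_le_finrank_of_injective (f := L) ((injective_iff_map_eq_zero L).mpr fun v hv => ?_)
    exact Subtype.ext (hwinj _ (congrArg Subtype.val hv))
  have hdim : finrank F (E 1) = m ∧ finrank F (E (-1)) = m := by
    have h1 := Submodule.finrank_add_eq_of_isCompl hcompl
    rw [finrank_pi] at h1
    have h3 := hle 1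
    have h4 := hle (-1)
    rw [neg_neg] at h4
    omega
  rcases mul_self_eq_one_iff.mp hs with h | h
  swap
  · refine hno (E 1) (fun v hv => ?_) hdim.1
    have h1 := (hE _ _).mp hv
    have h3 := husim v v
    rw [h1, one_smul, h] at h3
    have h4 : (2 : F) * fQ v v = 0 := by linear_combination h3
    rw [← polar_eq_form, Forms.polar_self_two_mul, ← mul_assoc] at h4
    exact (mul_eq_zero.mp h4).resolve_left (mul_ne_zero h2 h2)
  -- the eigenspaces are orthogonal and similar
  have horth : ∀ v ∈ E 1, ∀ v' ∈ E (-1), fQ v v' = 0 := by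
    intro v hv v' hv'
    have h3 := husim v v'
    rw [(hE _ _).mp hv, one_smul, (hE _ _).mp hv', h, one_mul, neg_one_smul, ← neg_one_smul F v', mf_smul_right,
      RingEquiv.refl_apply] at h3
    have h4 : (2 : F) * fQ v v' = 0 := by linear_combination h3
    exact (mul_eq_zero.mp h4).resolve_left h2
  let b₁ := Module.finBasisOfFinrankEq F (E 1) hdim.1
  let L : E 1 →ₗ[F] E (-1) :=
    { toFun := fun v => ⟨w *ᵥ (v : ι → F), hswap 1 v v.2⟩
      map_add' := fun p q => Subtype.ext (by simp [Matrix.mulVec_add])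
      map_smul' := fun p q => Subtype.ext (by simp [Matrix.mulVec_smul]) }
  have hLinj : Function.Injective L := (injective_iff_map_eq_zero L).mpr fun v hv =>
    Subtype.ext (hwinj _ (congrArg Subtype.val hv))
  let b₂ := basisOfLinearIndependentOfCardEqFinrank' (fun j => L (b₁ j))
    (b₁.linearIndependent.map' L (LinearMap.ker_eq_bot.mpr hLinj)) (by rw [Fintype.card_fin, hdim.2])
  let bb : Basis (Fin m ⊕ Fin m) F (ι → F) := (b₁.prod b₂).map (Submodule.prodEquivOfIsCompl _ _ hcompl)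
  refine det_not_square hQ hm hmev hm1 hno h2 bb ?_
  let G : Matrix (Fin m) (Fin m) F := Matrix.of fun i j => fQ (b₁ i : ι → F) (b₁ j : ι → F)
  have hl : ∀ i, bb (Sum.inl i) = (b₁ i : ι → F) := fun i => by simp [bb]
  have hr : ∀ i, bb (Sum.inr i) = w *ᵥ (b₁ i : ι → F) := fun i => by simp [bb, b₂, L]
  have e : (Matrix.of fun p q => fQ (bb p) (bb q)) = Matrix.fromBlocks G 0 0 (μ • G) := by
    ext (i | i) (j | j)
    · simp [G, hl]
    · simp only [Matrix.of_apply, hl, hr, Matrix.fromBlocks_apply₁₂, Matrix.zero_apply]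
      exact horth _ (b₁ i).2 _ (hswap 1 _ (b₁ j).2)
    · simp only [Matrix.of_apply, hl, hr, Matrix.fromBlocks_apply₂₁, Matrix.zero_apply]
      rw [hB.swap, horth _ (b₁ j).2 _ (hswap 1 _ (b₁ i).2)]
      simp
    · simp only [Matrix.of_apply, hr, Matrix.fromBlocks_apply₂₂, Matrix.smul_apply, smul_eq_mul]
      exact hμ _ _
  rw [e, Matrix.det_fromBlocks_zero₂₁, Matrix.det_smul, Fintype.card_fin]
  obtain ⟨k, rfl⟩ := hmev
  exact ⟨μ ^ k * G.det, by ring⟩

end Cfsg.Agent.GeomClasses.OrthEven
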