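import Cfsg.Agent.GeomClasses.OmegaBridge
import Cfsg.Agent.GeomClasses.Aschbacher.Rel.Tools
import Cfsg.Agent.GeomClasses.Aschbacher.Rel.FieldAdjoint
import Cfsg.Agent.Forms.OrthSimple

/-! # Orthogonal groups in even dimension: forms, Siegel elements, proper overgroups -/

set_option autoImplicit false
set_option maxHeartbeats 400000

namespace Cfsg.Agent.GeomClasses.OrthEven

open Matrix Cfsg.Geo Module
open scoped Kronecker
open Cfsg.Agent.GeomClasses.AschRel
open Cfsg.Agent.GeomClasses.Asch (Irr)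

variable {F : Type*} [Field F] [Fintype F] {ι : Type} [Fintype ι] [DecidableEq ι] (Q : QuadraticForm F (ι → F))

/-- The polar Gram matrix. -/
def polarGram : Matrix ι ι F := gram (QuadraticMap.polar ⇑Q)

local notation "fQ" => matForm (RingEquiv.refl F) (polarGram Q)

omit [Fintype F] in
theorem polar_eq_form (u v : ι → F) : QuadraticMap.polar (⇑Q) u v = fQ u v :=
  eq_matForm (σ := RingEquiv.refl F) (fun x y v => QuadraticMap.polar_add_left Q x y v)
    (fun c x v => by rw [QuadraticMap.polar_smul_left, smul_eq_mul])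
    (fun v x y => QuadraticMap.polar_add_right Q v x y)
    (fun c v x => by rw [QuadraticMap.polar_smul_right, smul_eq_mul]; rfl) u v

omit [Fintype F] in
theorem formData (hQ : (QuadraticMap.polarBilin Q).Nondegenerate) :
    FormData (RingEquiv.refl F) (polarGram Q) 1 := by
  refine ⟨fun a => rfl, isUnit_of_nondeg (σ := RingEquiv.refl F) fun v hv => ?_, one_ne_zero, fun u v => ?_⟩
  · have h : ∃ x, QuadraticMap.polar (⇑Q) v x ≠ 0 := by
      by_contra h
      push Not at h
      exact hv (hQ.1 v fun x => by rw [QuadraticMap.polarBilin_apply_apply]; exact h x)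
    obtain ⟨x, hx⟩ := h
    exact ⟨⟨x, by rw [← polar_eq_form, QuadraticMap.polar_comm]; exact hx⟩, ⟨x, by rw [← polar_eq_form]; exact hx⟩⟩
  · rw [one_mul, ← polar_eq_form, ← polar_eq_form]
    exact QuadraticMap.polar_comm _ v u

omit [Fintype F] in
theorem form_iso {g : Matrix ι ι F} (hg : ∀ v, Q (g *ᵥ v) = Q v) (u v : ι → F) :
    fQ (g *ᵥ u) (g *ᵥ v) = fQ u v := by
  rw [← polar_eq_form, ← polar_eq_form]
  simp only [QuadraticMap.polar, ← Matrix.mulVec_add, hg]

omit [Fintype F] in
theorem sim_of_iso {H : Subgroup (GL ι F)} (hI : ∀ g ∈ H, ∀ v, Q ((g : Matrix ι ι F) *ᵥ v) = Q v) :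
    ∀ g ∈ H ⊔ scalars ι F, IsSim (RingEquiv.refl F) (polarGram Q) g := by
  intro g hg
  rw [← SetLike.mem_coe, Subgroup.mul_normal] at hg
  obtain ⟨a, ha, z, hz, rfl⟩ := hg
  obtain ⟨c, hc⟩ := (mem_scalars_iff z).mp hz
  refine ⟨(c : F) * c, mul_ne_zero c.ne_zero c.ne_zero, fun u v => ?_⟩
  rw [Units.val_mul, ← Matrix.mulVec_mulVec, ← Matrix.mulVec_mulVec, form_iso Q (hI a ha), hc, Matrix.smul_mulVec,
    Matrix.smul_mulVec, Matrix.one_mulVec, Matrix.one_mulVec, mf_smul_left, mf_smul_right]
  show (c : F) * ((c : F) * _) = _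
  ring

omit [Fintype F] in
theorem pred_le_finrank_perp (hQ : (QuadraticMap.polarBilin Q).Nondegenerate) (u : ι → F) :
    Fintype.card ι ≤ finrank F (Forms.perp (QuadraticMap.polarBilin Q) (Submodule.span F {u})) + 1 := by
  have h1 := (Forms.isForm_quadratic Q hQ).finrank_perp (Submodule.span F {u})
  rw [finrank_pi] at h1
  have h2 : finrank F (Submodule.span F {u}) ≤ 1 := (finrank_span_le_card {u}).trans (by simp)
  omega

section Proper

variable {Q} (hQ : (QuadraticMap.polarBilin Q).Nondegenerate) (hn : 7 ≤ Fintype.card ι)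
include hQ hn

theorem eichler_mem_omega {u w : ι → F} (hu : Q u = 0) (hw : QuadraticMap.polar Q u w = 0) :
    orthToGL Q (Forms.eichler Q u w hu hw) ∈ omegaGL ⇑Q := by
  rw [omegaGL_eq_map]
  exact Subgroup.mem_map_of_mem _ (eichler_mem_comm hQ (by rw [finrank_pi]; exact hn) hu hw)

omit [Fintype F] hQ hn in
theorem eichler_mulVec {u w : ι → F} (hu : Q u = 0) (hw : QuadraticMap.polar Q u w = 0) (y : ι → F) :
    (orthToGL Q (Forms.eichler Q u w hu hw) : Matrix ι ι F) *ᵥ y =
      y + QuadraticMap.polar Q u y • w - (QuadraticMap.polar Q w y + Q w * QuadraticMap.polar Q u y) • u := by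
  rw [orthToGL_mulVec, Forms.eichler_apply, Forms.eichlerMap_apply]

theorem exists_pair_top : ∃ u v, IsPair Q u v := by
  obtain ⟨u, hu0, hQu⟩ := Forms.exists_singular_of_three_le Q (by rw [finrank_pi]; omega)
  obtain ⟨x, hx⟩ : ∃ x, QuadraticMap.polar (⇑Q) u x ≠ 0 := by
    by_contra h
    push Not at h
    exact hu0 (hQ.1 u fun x => by rw [QuadraticMap.polarBilin_apply_apply]; exact h x)
  obtain ⟨v, -, hp⟩ := exists_pair Q (W := ⊤) trivial hQu trivial hx
  exact ⟨u, v, hp⟩

theorem exists_singular_not_perp {x : ι → F} (hx : x ≠ 0) : ∃ u, Q u = 0 ∧ QuadraticMap.polar Q u x ≠ 0 := by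
  obtain ⟨u, v, hp⟩ := exists_pair_top hQ hn
  by_contra hno
  push Not at hno
  obtain ⟨z, hz⟩ : ∃ z, QuadraticMap.polar (⇑Q) z x ≠ 0 := by
    by_contra h
    push Not at h
    exact hx (hQ.1 x fun z => by rw [QuadraticMap.polarBilin_apply_apply, QuadraticMap.polar_comm]; exact h z)
  set z' := z - QuadraticMap.polar Q v z • u - QuadraticMap.polar Q u z • v with hz'
  have huu : QuadraticMap.polar Q u u = 0 := by rw [Forms.polar_self_two_mul, hp.qe, mul_zero]
  have hvv : QuadraticMap.polar Q v v = 0 := by rw [Forms.polar_self_two_mul, hp.qf, mul_zero]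
  have hvu : QuadraticMap.polar Q v u = 1 := by rw [QuadraticMap.polar_comm]; exact hp.ef
  have e1 : QuadraticMap.polar Q u z' = 0 := by
    simp [hz', QuadraticMap.polar_sub_right, QuadraticMap.polar_smul_right, huu, hp.ef]
  have e2 : QuadraticMap.polar Q v z' = 0 := by
    simp [hz', QuadraticMap.polar_sub_right, QuadraticMap.polar_smul_right, hvv, hvu]
  have hs : Q (z' + (-(Q z')) • u + v) = 0 := by
    rw [QuadraticMap.map_add Q, QuadraticMap.map_add Q, QuadraticMap.map_smul, hp.qe, hp.qf,
      QuadraticMap.polar_smul_right, QuadraticMap.polar_comm (⇑Q) z' u, e1, QuadraticMap.polar_add_left,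
      QuadraticMap.polar_smul_left, QuadraticMap.polar_comm (⇑Q) z' v, e2, hp.ef]
    simp
  have h1 := hno _ hs
  simp [hz', QuadraticMap.polar_add_left, QuadraticMap.polar_sub_left, QuadraticMap.polar_smul_left,
    hno u hp.qe, hno v hp.qf] at h1
  exact hz h1

/-- A subspace invariant under every Siegel element is everything. -/
theorem eichler_top {W : Submodule F (ι → F)} (hW0 : W ≠ ⊥)
    (hst : ∀ (u w : ι → F) (hu : Q u = 0) (hw : QuadraticMap.polar Q u w = 0), ∀ x ∈ W,
      (orthToGL Q (Forms.eichler Q u w hu hw) : Matrix ι ι F) *ᵥ x ∈ W) : W = ⊤ := by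
  obtain ⟨x, hx, hx0⟩ := (Submodule.ne_bot_iff W).mp hW0
  obtain ⟨u, hQu, hux⟩ := exists_singular_not_perp hQ hn hx0
  set U := Forms.perp (QuadraticMap.polarBilin Q) (Submodule.span F {u})
  have hUmem : ∀ w, w ∈ U ↔ QuadraticMap.polar Q u w = 0 := fun w => Forms.mem_perp_span_singleton
  have hN : ∀ w, QuadraticMap.polar Q u w = 0 →
      QuadraticMap.polar Q u x • w - (QuadraticMap.polar Q w x + Q w * QuadraticMap.polar Q u x) • u ∈ W := by
    intro w hw
    have h1 := hst u w hQu hw x hx
    rw [eichler_mulVec hQu hw] at h1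
    have h2 := W.sub_mem h1 hx
    convert h2 using 1
    abel
  obtain ⟨w, hw, w', hw', hne⟩ : ∃ w, QuadraticMap.polar Q u w = 0 ∧
      ∃ w', QuadraticMap.polar Q u w' = 0 ∧ QuadraticMap.polar Q w w' ≠ 0 := by
    by_contra h
    push Not at h
    have hUU : U ≤ Forms.perp (QuadraticMap.polarBilin Q) U := fun a ha b hb =>
      h b ((hUmem b).mp hb) a ((hUmem a).mp ha)
    have h1 := (Forms.isForm_quadratic Q hQ).finrank_perp U
    rw [finrank_pi] at h1
    have h2 := Submodule.finrank_mono hUU
    have h3 := pred_le_finrank_perp Q hQ u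
    simp only [U] at *
    omega
  have hu : u ∈ W := by
    have h1 := hN (w + w') (by rw [QuadraticMap.polar_add_right, hw, hw', add_zero])
    have h2 := W.sub_mem (W.sub_mem h1 (hN w hw)) (hN w' hw')
    rw [QuadraticMap.map_add Q w w', QuadraticMap.polar_add_left] at h2
    have h3 : (QuadraticMap.polar Q w w' * QuadraticMap.polar Q u x) • u ∈ W := by
      have h4 := W.neg_mem h2
      convert h4 using 1
      simp only [smul_add, add_smul, add_mul]
      abel
    have h5 := W.smul_mem (QuadraticMap.polar Q w w' * QuadraticMap.polar Q u x)⁻¹ h3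
    rwa [smul_smul, inv_mul_cancel₀ (mul_ne_zero hne hux), one_smul] at h5
  have hUW : ∀ z, QuadraticMap.polar Q u z = 0 → z ∈ W := by
    intro z hz
    have h1 := W.add_mem (hN z hz) (W.smul_mem (QuadraticMap.polar Q z x + Q z * QuadraticMap.polar Q u x) hu)
    rw [sub_add_cancel] at h1
    have h2 := W.smul_mem (QuadraticMap.polar Q u x)⁻¹ h1
    rwa [smul_smul, inv_mul_cancel₀ hux, one_smul] at h2
  refine eq_top_iff.mpr fun y _ => ?_
  have h1 : y - (QuadraticMap.polar Q u y * (QuadraticMap.polar Q u x)⁻¹) • x ∈ W := hUW _ (by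
    rw [QuadraticMap.polar_sub_right, QuadraticMap.polar_smul_right, smul_eq_mul, mul_assoc,
      inv_mul_cancel₀ hux, mul_one, sub_self])
  have h2 := W.add_mem h1 (W.smul_mem (QuadraticMap.polar Q u y * (QuadraticMap.polar Q u x)⁻¹) hx)
  rwa [sub_add_cancel] at h2

/-- The derived orthogonal group fixes no proper subspace. -/
theorem not_le_subspace {W : Submodule F (ι → F)} (hW0 : W ≠ ⊥) (hW1 : W ≠ ⊤) :
    ¬ omegaGL ⇑Q ≤ subspaceStabilizer W := fun hle =>
  hW1 (eichler_top hQ hn hW0 fun u w hu hw x hx =>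
    mem_subspaceStabilizer_iff.mp (hle (eichler_mem_omega hQ hn hu hw)) x hx)

/-- The derived orthogonal group preserves no decomposition into blocks of dimension at least three. -/
theorem not_le_decomp {t k : ℕ} {D : Fin t → Submodule F (ι → F)} (hD : IsMDecomposition k D) (hk : 3 ≤ k) :
    ¬ omegaGL ⇑Q ≤ decompositionStabilizer D := by
  intro hle
  let i : Fin t := ⟨0, by have := hD.two_le; omega⟩
  have hD0 : D i ≠ ⊥ := fun h => by
    have := hD.finrank_eq i
    rw [h, finrank_bot] at this
    omega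
  have htop : D i = ⊤ := eichler_top hQ hn hD0 fun u w hu hw x hx => by
    obtain ⟨π, hπ⟩ := hle (eichler_mem_omega hQ hn hu hw)
    let φ : D i →ₗ[F] (Fin 2 → F) :=
      (LinearMap.pi ![QuadraticMap.polarBilin Q u, QuadraticMap.polarBilin Q w]).comp (D i).subtype
    have hker : 0 < finrank F (LinearMap.ker φ) := by
      have h1 := LinearMap.finrank_range_add_finrank_ker φ
      have h2 := Submodule.finrank_le (LinearMap.range φ)
      rw [finrank_fin_fun] at h2
      rw [hD.finrank_eq i] at h1
      omega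
    obtain ⟨z, hz, hz0⟩ := Submodule.exists_mem_ne_zero_of_ne_bot (p := LinearMap.ker φ) fun h0 => by
      rw [h0, finrank_bot] at hker; omega
    have hz' := fun j => congrFun (LinearMap.mem_ker.mp hz) j
    have hzu : QuadraticMap.polar Q u (z : ι → F) = 0 := hz' 0
    have hzw : QuadraticMap.polar Q w (z : ι → F) = 0 := hz' 1
    have hπi : π i = i := by
      by_contra hne
      have hzi : (z : ι → F) ∈ D (π i) := by
        rw [← hπ i]
        exact ⟨z, z.2, by rw [Matrix.toLin'_apply, eichler_mulVec hu hw, hzu, hzw]; simp⟩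
      have := Submodule.disjoint_def.mp (hD.indep.pairwiseDisjoint (Ne.symm hne)) _ z.2 hzi
      exact hz0 (Subtype.ext this)
    have e := hπ i
    rw [hπi] at e
    rw [← e]
    exact ⟨x, hx, Matrix.toLin'_apply _ _⟩
  have := hD.finrank_eq i
  rw [htop, finrank_top, finrank_pi] at this
  have h2 := hD.two_le
  let j : Fin t := ⟨1, by omega⟩
  have hij : i ≠ j := by simp [i, j, Fin.ext_iff]
  have hj : D j = ⊥ := by
    have := (hD.indep.pairwiseDisjoint hij).eq_bot
    rwa [htop, top_inf_eq] at this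
  have := hD.finrank_eq j
  rw [hj, finrank_bot] at this
  omega

/-- The derived orthogonal group preserves no decomposition into two tensor factors of size at least three. -/
theorem not_le_tensor {d e : ℕ} (hd : 3 ≤ d) (he : 3 ≤ e) (E : ι ≃ Fin d × Fin e) (P : GL ι F) :
    ¬ omegaGL ⇑Q ≤ tensorProductSubgroup d e E P := by
  intro hle
  obtain ⟨u, v, hp⟩ := exists_pair_top hQ hn
  have hu0 : u ≠ 0 := fun h => by
    have := hp.ef
    simp [h] at this
  obtain ⟨w, hwU, hwu⟩ : ∃ w ∈ Forms.perp (QuadraticMap.polarBilin Q) (Submodule.span F {u}),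
      w ∉ Submodule.span F {u} := SetLike.not_le_iff_exists.mp fun hle' => by
    have h1 := Submodule.finrank_mono hle'
    have h2 := pred_le_finrank_perp Q hQ u
    rw [finrank_span_singleton hu0] at h1
    omega
  have hw : QuadraticMap.polar Q u w = 0 := Forms.mem_perp_span_singleton.mp hwU
  obtain ⟨y', ⟨y, ⟨a, b, hab⟩, rfl⟩, hy⟩ := hle (eichler_mem_omega hQ hn hp.qe hw)
  set A := (a : Matrix (Fin d) (Fin d) F)
  set B := (b : Matrix (Fin e) (Fin e) F)
  set g := orthToGL Q (Forms.eichler Q u w hp.qe hw)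
  set S := Submodule.span F {u} ⊔ Submodule.span F {w}
  have hS : finrank F S ≤ 2 := by
    have h1 := Submodule.finrank_add_le_finrank_add_finrank (Submodule.span F {u}) (Submodule.span F {w})
    have h2 : finrank F (Submodule.span F {w}) ≤ 1 := (finrank_span_le_card {w}).trans (by simp)
    rw [finrank_span_singleton hu0] at h1
    exact h1.trans (by omega)
  have himg : ∀ z, (g : Matrix ι ι F) *ᵥ z - z ∈ S := fun z => by
    rw [eichler_mulVec hp.qe hw, add_sub_assoc, add_sub_cancel_left]
    exact sub_mem (Submodule.mem_sup_right (Submodule.smul_mem _ _ (Submodule.mem_span_singleton_self w)))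
      (Submodule.mem_sup_left (Submodule.smul_mem _ _ (Submodule.mem_span_singleton_self u)))
  let T : (Fin d × Fin e → F) →ₗ[F] (ι → F) :=
    (Matrix.mulVecLin (P : Matrix ι ι F)).comp (LinearMap.funLeft F F E)
  have hTinj : Function.Injective T := by
    intro z z' h
    have h1 := congrArg ((P⁻¹ : GL ι F).val *ᵥ ·) h
    simp only [T, LinearMap.comp_apply, Matrix.mulVecLin_apply, Matrix.mulVec_mulVec, Units.inv_mul,
      Matrix.one_mulVec] at h1
    exact LinearMap.funLeft_injective_of_surjective F F E E.surjective h1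
  have hTg : ∀ z, T ((A ⊗ₖ B) *ᵥ z - z) ∈ S := by
    intro z
    have e1 : (g : Matrix ι ι F) *ᵥ T z = T ((A ⊗ₖ B) *ᵥ z) := by
      rw [← hy, ← hab]
      simp only [T, LinearMap.comp_apply, Matrix.mulVecLin_apply, MulEquiv.coe_toMonoidHom, MulAut.conj_apply,
        Units.val_mul, ← Matrix.mulVec_mulVec]
      congr 1
      rw [Matrix.mulVec_mulVec _ (P⁻¹ : GL ι F).val, Units.inv_mul, Matrix.one_mulVec]
      show ((y : Matrix (Fin d × Fin e) (Fin d × Fin e) F).submatrix E E) *ᵥ (z ∘ E) = _
      rw [Matrix.submatrix_mulVec_equiv, Function.comp_assoc, Equiv.self_comp_symm, Function.comp_id]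
      rfl
    rw [map_sub, ← e1]
    exact himg _
  have small : ∀ {n : ℕ} (L : (Fin n → F) →ₗ[F] (Fin d × Fin e → F)), 3 ≤ n →
      (∀ z, T (L z) ∈ S) → Function.Injective L → False := fun {n} L hn' hL hinj => by
    have := LinearMap.finrank_le_finrank_of_injective (f := (T.comp L).codRestrict S hL)
      (fun z z' h => hinj (hTinj (congrArg Subtype.val h)))
    rw [finrank_fin_fun] at this
    omega
  have hAd : IsUnit A.det := (Matrix.isUnit_iff_isUnit_det _).mp a.isUnit
  have hten : ∀ (x : Fin d → F) (z : Fin e → F),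
      (A ⊗ₖ B) *ᵥ (fun p => x p.1 * z p.2) = fun p => (A *ᵥ x) p.1 * (B *ᵥ z) p.2 := fun x z => by
    funext p
    simp only [Matrix.mulVec, dotProduct, Fintype.sum_prod_type, Matrix.kroneckerMap_apply, Finset.sum_mul,
      Finset.mul_sum]
    rw [Finset.sum_comm]
    exact Finset.sum_congr rfl fun i _ => Finset.sum_congr rfl fun j _ => by ring
  obtain ⟨β, hβ⟩ : ∃ β : F, B = β • 1 := by
    by_contra hns
    obtain ⟨z, hz⟩ : ∃ z, ∀ c : F, B *ᵥ z ≠ c • z := by
      by_contra h
      push Not at h
      choose c hc using h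
      apply hns
      let i₀ : Fin e := ⟨0, by omega⟩
      have hsame : ∀ i, c (Pi.single i 1) = c (Pi.single i₀ 1) := by
        intro i
        by_cases hi : i = i₀
        · rw [hi]
        have h1 := hc (Pi.single i 1 + Pi.single i₀ 1)
        rw [Matrix.mulVec_add, hc, hc] at h1
        have h2 := congrFun h1 i
        have h3 := congrFun h1 i₀
        simp [hi, Ne.symm hi] at h2 h3
        exact h2.trans h3.symm
      refine ⟨c (Pi.single i₀ 1), Matrix.ext fun i j => ?_⟩
      have h1 := congrFun (hc (Pi.single j 1)) i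
      rw [hsame, Matrix.mulVec_single_one] at h1
      simpa [Matrix.one_apply, Pi.single_apply] using h1
    obtain ⟨j, hj⟩ : ∃ j, z j ≠ 0 := Function.ne_iff.mp fun h => hz 0 (by subst h; funext k; simp [Matrix.mulVec, dotProduct])
    let L : (Fin d → F) →ₗ[F] (Fin d × Fin e → F) :=
      { toFun := fun x p => (A *ᵥ x) p.1 * (B *ᵥ z) p.2 - x p.1 * z p.2
        map_add' := fun x x' => by funext p; simp only [Matrix.mulVec_add, Pi.add_apply]; ring
        map_smul' := fun c x => by funext p; simp only [Matrix.mulVec_smul, Pi.smul_apply, smul_eq_mul, RingHom.id_apply]; ring }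
    refine small L hd (fun x => ?_) ((injective_iff_map_eq_zero L).mpr fun x hx => ?_)
    · have := hTg fun p => x p.1 * z p.2
      rwa [hten] at this
    · funext i
      by_contra hxi
      refine hz (((A *ᵥ x) i)⁻¹ * x i) ?_
      have hAi : (A *ᵥ x) i ≠ 0 := fun h0 => by
        have := congrFun hx (i, j)
        simp [L, h0] at this
        rcases this with h | h
        · exact hxi h
        · exact hj h
      funext k
      have := congrFun hx (i, k)
      simp only [L, LinearMap.coe_mk, AddHom.coe_mk, Pi.zero_apply, sub_eq_zero] at this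
      rw [Pi.smul_apply, smul_eq_mul, mul_assoc, ← this, ← mul_assoc, inv_mul_cancel₀ hAi, one_mul]
  obtain ⟨x, hx⟩ : ∃ x, (β • A) *ᵥ x ≠ x := by
    by_contra h
    push Not at h
    have hgid : ∀ z, (g : Matrix ι ι F) *ᵥ z = z := by
      have hAB : A ⊗ₖ B = 1 := by
        rw [hβ, Matrix.kronecker_smul, ← Matrix.smul_kronecker,
          show β • A = 1 from Matrix.ext_of_mulVec_single fun i => by rw [h, Matrix.one_mulVec],
          Matrix.one_kronecker_one]
      intro z
      rw [← hy]
      have : y = 1 := Units.ext (hab.trans hAB)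
      simp [this]
    obtain ⟨z, hz1, hz2⟩ := (Forms.isForm_quadratic Q hQ).exists_perp_pairing (y := w) hwu (1 : F)
    have hz1' : QuadraticMap.polar Q u z = 0 := hz1 u (Submodule.mem_span_singleton_self u)
    have hz2' : QuadraticMap.polar Q w z = 1 := hz2
    have := hgid z
    rw [eichler_mulVec hp.qe hw, hz1', hz2'] at this
    simp at this
    exact hu0 this
  obtain ⟨i, hi⟩ := Function.ne_iff.mp hx
  let L : (Fin e → F) →ₗ[F] (Fin d × Fin e → F) :=
    { toFun := fun z p => ((β • A) *ᵥ x - x) p.1 * z p.2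
      map_add' := fun z z' => by funext p; simp only [Pi.add_apply]; ring
      map_smul' := fun c z => by funext p; simp only [Pi.smul_apply, smul_eq_mul, RingHom.id_apply]; ring }
  refine small L he (fun z => ?_) ((injective_iff_map_eq_zero L).mpr fun z hz => funext fun k => ?_)
  · have := hTg fun p => x p.1 * z p.2
    rw [hten, hβ] at this
    have e1 : L z = (fun p : Fin d × Fin e => (A *ᵥ x) p.1 * ((β • (1 : Matrix (Fin e) (Fin e) F)) *ᵥ z) p.2) -
        fun p => x p.1 * z p.2 := by
      funext p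
      simp only [L, LinearMap.coe_mk, AddHom.coe_mk, Pi.sub_apply, Matrix.smul_mulVec, Matrix.one_mulVec, Pi.smul_apply,
        smul_eq_mul]
      ring
    rwa [e1]
  · have := congrFun hz (i, k)
    exact (mul_eq_zero.mp this).resolve_left (sub_ne_zero.mpr hi)

/-- The derived orthogonal group normalises no field of matrices beyond the scalars. -/
theorem not_le_field {r : ℕ} (hr : 2 ≤ r) {K : Subalgebra F (Matrix ι ι F)} (hK : IsFieldSubalgebra r K) :
    ¬ omegaGL ⇑Q ≤ subalgebraNormalizer K := by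
  intro hle
  haveI : Nonempty ι := Fintype.card_pos_iff.mp (by omega)
  suffices hscal : ∀ k ∈ K, k ∈ (⊥ : Subalgebra F (Matrix ι ι F)) by
    have hb : K = ⊥ := le_bot_iff.mp hscal
    have := hK.finrank_eq
    rw [hb, Subalgebra.finrank_bot] at this
    omega
  intro k hk
  have hcomm : ∀ (u w : ι → F) (hu : Q u = 0) (hw : QuadraticMap.polar Q u w = 0),
      (orthToGL Q (Forms.eichler Q u w hu hw) : Matrix ι ι F) * k =
        k * (orthToGL Q (Forms.eichler Q u w hu hw) : Matrix ι ι F) := by
    intro u w hu hw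
    set t := orthToGL Q (Forms.eichler Q u w hu hw) with ht
    have hmem := (hle (eichler_mem_omega hQ hn hu hw) k).mp hk
    set d := (t : Matrix ι ι F) * k * ((t⁻¹ : GL ι F) : Matrix ι ι F) - k with hd
    let φ : (ι → F) →ₗ[F] (Fin 4 → F) :=
      LinearMap.pi ![QuadraticMap.polarBilin Q u, QuadraticMap.polarBilin Q w,
        (QuadraticMap.polarBilin Q u).comp (Matrix.mulVecLin k), (QuadraticMap.polarBilin Q w).comp (Matrix.mulVecLin k)]
    have hker : 0 < finrank F (LinearMap.ker φ) := by
      have h1 := LinearMap.finrank_range_add_finrank_ker φ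
      have h2 := Submodule.finrank_le (LinearMap.range φ)
      rw [finrank_fin_fun] at h2
      rw [finrank_pi] at h1
      omega
    obtain ⟨⟨x, hx⟩, hx0⟩ := Module.finrank_pos_iff_exists_ne_zero.mp hker
    have hx' := fun i => congrFun (LinearMap.mem_ker.mp hx) i
    have hux : QuadraticMap.polar Q u x = 0 := hx' 0
    have hwx : QuadraticMap.polar Q w x = 0 := hx' 1
    have hukx : QuadraticMap.polar Q u (k *ᵥ x) = 0 := hx' 2
    have hwkx : QuadraticMap.polar Q w (k *ᵥ x) = 0 := hx' 3
    have htx : (t : Matrix ι ι F) *ᵥ x = x := by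
      rw [ht, eichler_mulVec hu hw, hux, hwx]; simp
    have htkx : (t : Matrix ι ι F) *ᵥ (k *ᵥ x) = k *ᵥ x := by
      rw [ht, eichler_mulVec hu hw, hukx, hwkx]; simp
    have htix : ((t⁻¹ : GL ι F) : Matrix ι ι F) *ᵥ x = x := by
      conv_lhs => rw [← htx, Matrix.mulVec_mulVec, Units.inv_mul, Matrix.one_mulVec]
    have hdx : d *ᵥ x = 0 := by
      rw [hd, Matrix.sub_mulVec, ← Matrix.mulVec_mulVec, htix, ← Matrix.mulVec_mulVec, htkx, sub_self]
    by_cases hd0 : d = 0
    · have h3 := congrArg (· * (t : Matrix ι ι F)) (sub_eq_zero.mp hd0)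
      simp only [Units.inv_mul_cancel_right] at h3
      exact h3
    · obtain ⟨y, hy, hdy⟩ := hK.inv d (sub_mem hmem hk) hd0
      refine absurd (Subtype.ext ?_ : (⟨x, hx⟩ : LinearMap.ker φ) = 0) hx0
      have h4 := hK.comm d (sub_mem hmem hk) y hy
      rw [hdy] at h4
      show x = 0
      rw [← Matrix.one_mulVec x, h4, ← Matrix.mulVec_mulVec, hdx, Matrix.mulVec_zero]
  obtain ⟨u, v, hp⟩ := exists_pair_top hQ hn
  have hu0 : u ≠ 0 := fun h => by
    have := hp.ef
    simp [h] at this
  have himg : ∀ w, QuadraticMap.polar Q u w = 0 → w ∉ Submodule.span F {u} →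
      k *ᵥ u ∈ Submodule.span F {u} ⊔ Submodule.span F {w} := by
    intro w hw hwu
    obtain ⟨y, hy1, hy2⟩ := (Forms.isForm_quadratic Q hQ).exists_perp_pairing (y := w) hwu (1 : F)
    have hy1' : QuadraticMap.polar Q u y = 0 := hy1 u (Submodule.mem_span_singleton_self u)
    have hy2' : QuadraticMap.polar Q w y = 1 := hy2
    have e := congrArg (· *ᵥ y) (hcomm u w hp.qe hw)
    simp only [← Matrix.mulVec_mulVec] at e
    rw [eichler_mulVec hp.qe hw, eichler_mulVec hp.qe hw y, hy1', hy2'] at e
    simp only [zero_smul, add_zero, mul_zero, one_smul, Matrix.mulVec_sub] at e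
    have e' : k *ᵥ u = (QuadraticMap.polar Q w (k *ᵥ y) + Q w * QuadraticMap.polar Q u (k *ᵥ y)) • u -
        QuadraticMap.polar Q u (k *ᵥ y) • w := by
      have h1 : k *ᵥ u = k *ᵥ y - (k *ᵥ y + QuadraticMap.polar Q u (k *ᵥ y) • w -
          (QuadraticMap.polar Q w (k *ᵥ y) + Q w * QuadraticMap.polar Q u (k *ᵥ y)) • u) := by
        rw [e]; abel
      rw [h1]; abel
    rw [e']
    exact sub_mem (Submodule.mem_sup_left (Submodule.smul_mem _ _ (Submodule.mem_span_singleton_self u)))
      (Submodule.mem_sup_right (Submodule.smul_mem _ _ (Submodule.mem_span_singleton_self w)))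
  set U := Forms.perp (QuadraticMap.polarBilin Q) (Submodule.span F {u})
  have hUdim := pred_le_finrank_perp Q hQ u
  obtain ⟨w, hwU, hw⟩ : ∃ w ∈ U, w ∉ Submodule.span F {u} := SetLike.not_le_iff_exists.mp fun hle' => by
    have h1 := Submodule.finrank_mono hle'
    rw [finrank_span_singleton hu0] at h1
    simp only [U] at h1
    omega
  obtain ⟨w', hw'U, hw'⟩ : ∃ w' ∈ U, w' ∉ Submodule.span F {u} ⊔ Submodule.span F {w} :=
    SetLike.not_le_iff_exists.mp fun hle' => by
      have h1 := Submodule.finrank_mono hle'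
      have h2 := Submodule.finrank_add_le_finrank_add_finrank (Submodule.span F {u}) (Submodule.span F {w})
      have h3 : finrank F (Submodule.span F {w}) ≤ 1 := (finrank_span_le_card {w}).trans (by simp)
      rw [finrank_span_singleton hu0] at h2
      simp only [U] at h1
      omega
  have hk1 := himg w (Forms.mem_perp_span_singleton.mp hwU) hw
  have hk2 := himg w' (Forms.mem_perp_span_singleton.mp hw'U) fun h => hw' (Submodule.mem_sup_left h)
  obtain ⟨p, hp', p', hp'', hpp⟩ := Submodule.mem_sup.mp hk2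
  obtain ⟨a, rfl⟩ := Submodule.mem_span_singleton.mp hp'
  obtain ⟨b, rfl⟩ := Submodule.mem_span_singleton.mp hp''
  have hb : b = 0 := by
    by_contra hb
    apply hw'
    have : b • w' ∈ Submodule.span F {u} ⊔ Submodule.span F {w} := by
      rw [eq_sub_of_add_eq' hpp]
      exact sub_mem hk1 (Submodule.mem_sup_left hp')
    have := Submodule.smul_mem _ b⁻¹ this
    rwa [smul_smul, inv_mul_cancel₀ hb, one_smul] at this
  have hku : k *ᵥ u = a • u := by rw [← hpp, hb, zero_smul, add_zero]
  refine Algebra.mem_bot.mpr ⟨a, ?_⟩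
  by_contra hne
  have hd0 : k - algebraMap F _ a ≠ 0 := fun h => hne (sub_eq_zero.mp h).symm
  have hdm : k - algebraMap F _ a ∈ K := sub_mem hk (K.algebraMap_mem a)
  obtain ⟨y, hy, hdy⟩ := hK.inv _ hdm hd0
  have h4 := hK.comm _ hdm y hy
  rw [hdy] at h4
  apply hu0
  have hkill : (k - algebraMap F (Matrix ι ι F) a) *ᵥ u = 0 := by
    rw [Matrix.sub_mulVec, hku, Algebra.algebraMap_eq_smul_one, Matrix.smul_mulVec, Matrix.one_mulVec, sub_self]
  rw [← Matrix.one_mulVec u, h4, ← Matrix.mulVec_mulVec, hkill, Matrix.mulVec_zero]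

end Proper

/-- Membership in a subfield is being fixed by the power of its order. -/
theorem mem_subfield_iff_pow (F₁ : Subfield F) {a : F} : a ∈ F₁ ↔ a ^ Nat.card F₁ = a := by
  classical
  haveI := Fintype.ofFinite F₁
  rw [Nat.card_eq_fintype_card]
  constructor
  · intro ha
    simpa using congrArg Subtype.val (FiniteField.pow_card (⟨a, ha⟩ : F₁))
  · intro ha
    have := mem_of_pow_eq (S := Finset.univ.image (Subtype.val : F₁ → F)) (Fintype.one_lt_card : 1 < Fintype.card F₁)
      (by rw [Finset.card_image_of_injective _ Subtype.val_injective]; rfl) (fun x hx => by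
        obtain ⟨y, -, rfl⟩ := Finset.mem_image.mp hx
        simpa using congrArg Subtype.val (FiniteField.pow_card y)) ha
    obtain ⟨y, -, rfl⟩ := Finset.mem_image.mp this
    exact y.2

theorem mem_of_prime_pow_mem (F₁ : Subfield F) {p : ℕ} [Fact p.Prime] [CharP F p] {c : F} (h : c ^ p ∈ F₁) :
    c ∈ F₁ := by
  rw [mem_subfield_iff_pow] at h ⊢
  rw [← pow_mul, mul_comm, pow_mul] at h
  exact frobenius_inj F p h

/-- The derived orthogonal group lies in no subfield group. -/
theorem not_le_subfield {Q : QuadraticForm F (ι → F)} (hQ : (QuadraticMap.polarBilin Q).Nondegenerate) (hn : 7 ≤ Fintype.card ι)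
    {F₀ : Subfield F} {r : ℕ} (hr : r.Prime) (hcard : Fintype.card F = Nat.card F₀ ^ r) (P : GL ι F) :
    ¬ omegaGL ⇑Q ≤ subfieldSubgroup F₀ P := by
  intro hle
  have hn' : 7 ≤ finrank F (ι → F) := by rw [finrank_pi]; exact hn
  obtain ⟨u, v, hp⟩ := exists_pair_top hQ hn
  obtain ⟨w, hQw, huw, -, hwS⟩ := Forms.exists_singular_perp_notMem hQ hn' u u
  suffices htop : F₀ = ⊤ by
    subst htop
    rw [Nat.card_congr Subfield.topEquiv.toEquiv, Nat.card_eq_fintype_card] at hcard
    exact absurd hcard (Nat.ne_of_lt (by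
      calc Fintype.card F = Fintype.card F ^ 1 := (pow_one _).symm
        _ < Fintype.card F ^ r := Nat.pow_lt_pow_right Fintype.one_lt_card hr.one_lt))
  obtain ⟨p, hp'⟩ := CharP.exists F
  haveI := hp'
  haveI : Fact p.Prime := ⟨CharP.char_is_prime F p⟩
  let L : (ι → F) →ₗ[F] (ι → F) :=
    (QuadraticMap.polarBilin Q u).smulRight w - (QuadraticMap.polarBilin Q w).smulRight u
  set N := LinearMap.toMatrix' L with hN
  have hNv : ∀ y, N *ᵥ y = QuadraticMap.polar Q u y • w - QuadraticMap.polar Q w y • u := fun y => by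
    rw [hN, LinearMap.toMatrix'_mulVec]; rfl
  have hNN : N * N = 0 := by
    apply Matrix.toLin'.injective
    refine LinearMap.ext fun y => ?_
    rw [Matrix.toLin'_apply, map_zero, LinearMap.zero_apply, ← Matrix.mulVec_mulVec, hNv, hNv]
    have h1 : QuadraticMap.polar Q u u = 0 := by rw [Forms.polar_self_two_mul, hp.qe, mul_zero]
    have h2 : QuadraticMap.polar Q w w = 0 := by rw [Forms.polar_self_two_mul, hQw, mul_zero]
    simp [QuadraticMap.polar_sub_right, QuadraticMap.polar_smul_right, h1, h2, huw,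
      QuadraticMap.polar_comm (⇑Q) w u]
  have hwu : w ∉ Submodule.span F {u} := fun h => hwS (by
    refine Submodule.span_mono ?_ h
    exact Set.singleton_subset_iff.mpr ⟨0, rfl⟩)
  have hN0 : N ≠ 0 := by
    intro h0
    obtain ⟨y, hy1, hy2⟩ := (Forms.isForm_quadratic Q hQ).exists_perp_pairing (y := w) hwu (1 : F)
    have hy1' : QuadraticMap.polar Q u y = 0 := hy1 u (Submodule.mem_span_singleton_self u)
    have hy2' : QuadraticMap.polar Q w y = 1 := hy2
    have := hNv y
    rw [h0, Matrix.zero_mulVec, hy1', hy2', zero_smul, one_smul, zero_sub, eq_comm, neg_eq_zero] at this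
    exact hwu (by rw [Submodule.mem_span_singleton]; exact absurd this (fun hu => by
      have := hp.ef; simp [hu] at this))
  set Pm := (P : Matrix ι ι F)
  set Pi' := (P⁻¹ : GL ι F).val
  set N' := Pi' * N * Pm with hN'
  have hN'0 : N' ≠ 0 := fun h0 => hN0 (by
    have : Pm * N' * Pi' = N := by
      simp only [hN', Pm, Pi', mul_assoc, Units.mul_inv, mul_one]
      rw [← mul_assoc, Units.mul_inv, one_mul]
    rw [← this, h0, mul_zero, zero_mul])
  have key : ∀ s : F, ∀ i j, s * N' i j ∈ F₀ := by
    intro s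
    have hsw : QuadraticMap.polar Q u (s • w) = 0 := by rw [QuadraticMap.polar_smul_right, huw, smul_zero]
    set g := orthToGL Q (Forms.eichler Q u (s • w) hp.qe hsw) with hg
    have hgm : (g : Matrix ι ι F) = 1 + s • N := by
      apply Matrix.toLin'.injective
      refine LinearMap.ext fun y => ?_
      rw [Matrix.toLin'_apply, Matrix.toLin'_apply, hg, eichler_mulVec, Matrix.add_mulVec, Matrix.one_mulVec,
        Matrix.smul_mulVec, hNv, QuadraticMap.map_smul, hQw, QuadraticMap.polar_smul_left]
      simp only [smul_eq_mul, mul_zero, zero_mul, add_zero, smul_sub, smul_smul]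
      module
    obtain ⟨y, hy, hy'⟩ := hle (eichler_mem_omega hQ hn hp.qe hsw)
    rw [Subgroup.mul_normal] at hy
    obtain ⟨_, ⟨y₀, rfl⟩, z, hz, rfl⟩ := hy
    obtain ⟨c, hc⟩ := (mem_scalars_iff z).mp hz
    set y1 := ((Matrix.GeneralLinearGroup.map (n := ι) (F₀.subtype : F₀ →+* F) y₀ : GL ι F) : Matrix ι ι F) with hy1
    have hent : ∀ i j, y1 i j ∈ F₀ := fun i j => SetLike.coe_mem _
    have hmat : (c : F) • y1 = 1 + s • N' := by
      have e := congrArg Units.val hy'
      rw [← hg] at e
      simp only [MulEquiv.coe_toMonoidHom, MulAut.conj_apply, Units.val_mul, hc, Matrix.mul_smul, mul_one, hgm] at e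
      have e2 := congrArg (fun M => Pi' * M * Pm) e
      simp only [Pm, Pi', Matrix.mul_add, Matrix.add_mul, Matrix.mul_smul, Matrix.smul_mul, mul_one] at e2
      rw [show Pi' = (P⁻¹ : GL ι F).val from rfl] at *
      simp only [mul_assoc, Units.inv_mul, mul_one] at e2
      rw [← mul_assoc (P⁻¹ : GL ι F).val, Units.inv_mul, one_mul] at e2
      rw [hN', hy1, e2]
      simp only [mul_assoc]
      rfl
    have hNN' : N' * N' = 0 := by
      simp only [hN', mul_assoc]
      rw [← mul_assoc Pm, show Pm * Pi' = 1 from Units.mul_inv P, one_mul, ← mul_assoc N, hNN, zero_mul, mul_zero]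
    have hpow : ∀ k : ℕ, (1 + s • N') ^ k = 1 + ((k : F) * s) • N' := by
      intro k
      induction k with
      | zero => simp
      | succ k ih =>
        rw [pow_succ, ih, add_mul, mul_add, mul_add, one_mul, one_mul, mul_one, Matrix.smul_mul, Matrix.mul_smul,
          hNN', smul_zero, smul_zero, add_zero, add_assoc, ← add_smul]
        congr 2
        push_cast; ring
    have h1 : (c : F) ^ p • y1 ^ p = 1 := by
      rw [← smul_pow, hmat, hpow, CharP.cast_eq_zero, zero_mul, zero_smul, add_zero]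
    have hy1p : ∀ i j, (y1 ^ p) i j ∈ F₀ := fun i j => by
      rw [hy1, ← Units.val_pow_eq_pow_val, ← map_pow]
      exact SetLike.coe_mem _
    have hcp : (c : F) ^ p ∈ F₀ := by
      obtain ⟨i⟩ : Nonempty ι := Fintype.card_pos_iff.mp (by omega)
      have := congrFun (congrFun h1 i) i
      rw [Matrix.smul_apply, Matrix.one_apply_eq, smul_eq_mul] at this
      rw [eq_inv_of_mul_eq_one_left this]
      exact inv_mem (hy1p i i)
    have hc0 : (c : F) ∈ F₀ := mem_of_prime_pow_mem F₀ hcp
    intro i j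
    have := congrFun (congrFun hmat i) j
    rw [Matrix.smul_apply, Matrix.add_apply, Matrix.smul_apply, smul_eq_mul, smul_eq_mul] at this
    rw [eq_sub_of_add_eq' this.symm]
    refine sub_mem (mul_mem hc0 (hent i j)) ?_
    by_cases hij : i = j <;> simp [Matrix.one_apply, hij, one_mem, zero_mem]
  obtain ⟨i, hi⟩ := Function.ne_iff.mp hN'0
  obtain ⟨j, hij⟩ := Function.ne_iff.mp hi
  refine eq_top_iff.mpr fun l _ => ?_
  have := key (l / N' i j) i j
  rwa [div_mul_cancel₀ l (by simpa using hij)] at this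

omit [Fintype F] in
/-- A group fixing no proper subspace. -/
theorem irred_of_irr {H : Subgroup (GL ι F)}
    (hirr : Irr ((fun g : (Module.End F (ι → F))ˣ => (g : Module.End F (ι → F))) '' (gu '' (↑(H ⊔ scalars ι F) : Set _))))
    {W : Submodule F (ι → F)} (hW : ∀ g ∈ H, ∀ w ∈ W, (g : Matrix ι ι F) *ᵥ w ∈ W) : W = ⊥ ∨ W = ⊤ := by
  refine hirr W ?_
  rintro _ ⟨_, ⟨g, hg, rfl⟩, rfl⟩ w hw
  rw [SetLike.mem_coe, ← SetLike.mem_coe, Subgroup.mul_normal] at hg
  obtain ⟨a, ha, z, hz, rfl⟩ := hg
  obtain ⟨c, hc⟩ := (mem_scalars_iff z).mp hz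
  show (gu (a * z) : Module.End F (ι → F)) w ∈ W
  rw [gu_apply, Units.val_mul, ← Matrix.mulVec_mulVec, hc, Matrix.smul_mulVec, Matrix.one_mulVec]
  exact hW a ha _ (W.smul_mem _ hw)

/-- An invariant semilinear square function of an irreducible group vanishes. -/
theorem sq_form_zero {H : Subgroup (GL ι F)} (h20 : (2 : F) = 0) [Nontrivial ι]
    (hirr : ∀ W : Submodule F (ι → F), (∀ g ∈ H, ∀ w ∈ W, (g : Matrix ι ι F) *ᵥ w ∈ W) → W = ⊥ ∨ W = ⊤)
    (D : (ι → F) → F) (hadd : ∀ u v, D (u + v) = D u + D v) (hsm : ∀ (a : F) v, D (a • v) = a ^ 2 * D v)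
    (hinv : ∀ g ∈ H, ∀ v, D ((g : Matrix ι ι F) *ᵥ v) = D v) : ∀ v, D v = 0 := by
  classical
  let W : Submodule F (ι → F) :=
    { carrier := {v | D v = 0}
      add_mem' := fun {u v} hu hv => by
        show D (u + v) = 0
        rw [hadd, show D u = 0 from hu, show D v = 0 from hv, add_zero]
      zero_mem' := by
        show D 0 = 0
        simpa using hsm 0 0
      smul_mem' := fun a v hv => by
        show D (a • v) = 0
        rw [hsm, show D v = 0 from hv, mul_zero] }
  rcases hirr W fun g hg w hw => by show D _ = 0; rw [hinv g hg]; exact hw with h | h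
  · exfalso
    obtain ⟨i, j, hij⟩ := exists_pair_ne ι
    have hne : D (Pi.single i 1) ≠ 0 := fun h0 => by
      have : (Pi.single i 1 : ι → F) ∈ W := h0
      rw [h, Submodule.mem_bot] at this
      simp at this
    have hc2 : ringChar F = 2 := by
      haveI : CharP F 2 := (CharP.charP_iff_prime_eq_zero Nat.prime_two).mpr (by exact_mod_cast h20)
      exact ringChar.eq F 2
    obtain ⟨s, hs⟩ := FiniteField.isSquare_of_char_two hc2 (D (Pi.single j 1) / D (Pi.single i 1))
    have hmem : s • (Pi.single i 1 : ι → F) + Pi.single j 1 ∈ W := by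
      show D _ = 0
      rw [hadd, hsm, pow_two, ← hs, div_mul_cancel₀ _ hne]
      linear_combination (D (Pi.single j 1)) * h20
    rw [h, Submodule.mem_bot] at hmem
    have := congrFun hmem j
    simp [hij.symm] at this
  · exact fun v => (h ▸ trivial : v ∈ W)

end Cfsg.Agent.GeomClasses.OrthEven
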