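import Cfsg.Agent.GeomClasses.OrthEven.TwelvePlusParts
import Cfsg.Agent.GeomClasses.TensorTwoOrth
import Cfsg.Agent.GeomClasses.Aschbacher.Rel.SpMain

/-! # Tensor decompositions for the orthogonal group of plus type in dimension twelve -/

set_option autoImplicit false
set_option maxHeartbeats 800000

namespace Cfsg.Agent.GeomClasses.OrthEven

open Matrix Cfsg.Geo Module
open scoped commutatorElement Kronecker
open Cfsg.Agent.GeomClasses.AschRel
open Cfsg.Agent.GeomClasses.Asch (Irr Normalises conjHom conjHom_apply)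

variable {F : Type*} [Field F]

local notation "I₂" => (Fin 2 × Fin 2)

/-- The alternating Gram matrix of size two. -/
def jTwo (F : Type*) [Field F] : Matrix (Fin 2) (Fin 2) F := !![0, 1; -1, 0]

/-- A similitude of the split four-space with positive determinant is a tensor product. -/
theorem kron_of_similitude (h2 : (2 : F) ≠ 0) {g : Matrix I₂ I₂ F} {β : F} (hβ : β ≠ 0)
    (hg : gᵀ * (jTwo F ⊗ₖ jTwo F) * g = β • (jTwo F ⊗ₖ jTwo F)) (hdet : g.det = β ^ 2) :
    ∃ U V : Matrix (Fin 2) (Fin 2) F, g = U ⊗ₖ V := by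
  classical
  set K := jTwo F ⊗ₖ jTwo F
  have hgu : IsUnit g.det := by rw [hdet]; exact (pow_ne_zero 2 hβ).isUnit
  let N : Fin 2 → Fin 2 → F := fun i j => g (i, j) (0, 0)
  have hform : ∀ (g : Matrix I₂ I₂ F) x y, (gᵀ * K * g) x y =
      g (0, 0) x * g (1, 1) y - g (0, 1) x * g (1, 0) y - g (1, 0) x * g (0, 1) y + g (1, 1) x * g (0, 0) y := by
    intro g x y
    simp [K, jTwo, Matrix.mul_apply, Matrix.kroneckerMap_apply, Fintype.sum_prod_type, Fin.sum_univ_two]
    ring
  have hN : N 0 0 * N 1 1 = N 0 1 * N 1 0 := by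
    have e := congrFun (congrFun hg (0, 0)) (0, 0)
    rw [hform] at e
    simp [K, jTwo] at e
    have : (2 : F) * (N 0 0 * N 1 1 - N 0 1 * N 1 0) = 0 := by linear_combination e
    exact sub_eq_zero.mp ((mul_eq_zero.mp this).resolve_left h2)
  obtain ⟨i₀, j₀, hij⟩ : ∃ i j, N i j ≠ 0 := by
    by_contra h
    push Not at h
    exact hgu.ne_zero (Matrix.det_eq_zero_of_column_eq_zero (0, 0) fun x => h x.1 x.2)
  let u : Fin 2 → F := fun i => N i j₀
  let v : Fin 2 → F := fun j => N i₀ j / N i₀ j₀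
  have huv : ∀ i j, N i j = u i * v j := by
    intro i j
    simp only [u, v]
    rw [mul_div_assoc', eq_div_iff hij]
    have hcross : ∀ i j k l, N i j * N k l = N i l * N k j := by
      simp only [Fin.forall_fin_two]
      refine ⟨⟨?_, ?_⟩, ⟨?_, ?_⟩⟩ <;> refine ⟨⟨?_, ?_⟩, ⟨?_, ?_⟩⟩ <;>
        first | trivial | ring1 | linear_combination hN | linear_combination -hN
    exact hcross i j i₀ j₀
  have ext2 : ∀ w : Fin 2 → F, w ≠ 0 → ∃ U : Matrix (Fin 2) (Fin 2) F, IsUnit U.det ∧ ∀ i, U i 0 = w i := by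
    intro w hw
    by_cases h0 : w 0 = 0
    · have h1 : w 1 ≠ 0 := fun h => hw (funext fun i => by fin_cases i <;> assumption)
      exact ⟨!![w 0, 1; w 1, 0], by simp [Matrix.det_fin_two, h1], fun i => by fin_cases i <;> simp⟩
    · exact ⟨!![w 0, 0; w 1, 1], by simp [Matrix.det_fin_two, h0], fun i => by fin_cases i <;> simp⟩
  obtain ⟨U, hU, hU0⟩ := ext2 u fun h => hij (by rw [huv, h]; simp)
  obtain ⟨V, hV, hV0⟩ := ext2 v fun h => hij (by rw [huv, h]; simp)
  obtain ⟨g', hg'def⟩ : ∃ g', g' = (U⁻¹ ⊗ₖ V⁻¹) * g := ⟨_, rfl⟩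
  have hback : g = (U ⊗ₖ V) * g' := by
    rw [hg'def, ← mul_assoc, ← Matrix.mul_kronecker_mul, Matrix.mul_nonsing_inv _ hU, Matrix.mul_nonsing_inv _ hV,
      Matrix.one_kronecker_one, one_mul]
  set δ := U.det * V.det
  have hδ : δ ≠ 0 := mul_ne_zero hU.ne_zero hV.ne_zero
  have hK : (U ⊗ₖ V)ᵀ * K * (U ⊗ₖ V) = δ • K := by
    have e1 : ∀ U : Matrix (Fin 2) (Fin 2) F, Uᵀ * jTwo F * U = U.det • jTwo F := fun U => by
      ext i j
      fin_cases i <;> fin_cases j <;>
        simp [jTwo, Matrix.mul_apply, Fin.sum_univ_two, Matrix.det_fin_two] <;> ring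
    have e2 : (U ⊗ₖ V)ᵀ = Uᵀ ⊗ₖ Vᵀ := by ext x y; rfl
    rw [e2, ← Matrix.mul_kronecker_mul, ← Matrix.mul_kronecker_mul, e1, e1, Matrix.smul_kronecker, Matrix.kronecker_smul,
      smul_smul]
  set γ := β / δ
  have hγ : γ ≠ 0 := div_ne_zero hβ hδ
  have hg' : g'ᵀ * K * g' = γ • K := by
    have e : δ • (g'ᵀ * K * g') = β • K := by
      rw [← hg, hback, Matrix.transpose_mul]
      calc δ • (g'ᵀ * K * g') = g'ᵀ * (δ • K) * g' := by rw [Matrix.mul_smul, Matrix.smul_mul]
        _ = _ := by rw [← hK]; simp only [mul_assoc]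
    calc g'ᵀ * K * g' = δ⁻¹ • (δ • (g'ᵀ * K * g')) := by rw [smul_smul, inv_mul_cancel₀ hδ, one_smul]
      _ = γ • K := by rw [e, smul_smul, inv_mul_eq_div]
  have hdet' : g'.det = γ ^ 2 := by
    have e := congrArg Matrix.det hback
    rw [hdet, Matrix.det_mul, Matrix.det_kronecker, Fintype.card_fin] at e
    simp only [γ, div_pow, δ]
    rw [eq_div_iff (pow_ne_zero 2 hδ)]
    simp only [δ]
    linear_combination -e
  have h00 : ∀ x : I₂, g' x (0, 0) = if x = (0, 0) then 1 else 0 := by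
    intro x
    have e : (U ⊗ₖ V) *ᵥ (fun x => g' x (0, 0)) = (U ⊗ₖ V) *ᵥ (fun x => if x = (0, 0) then 1 else 0) := by
      funext y
      have e1 := congrFun (congrFun hback y) (0, 0)
      show _ = ∑ z, (U ⊗ₖ V) y z * (if z = (0, 0) then 1 else 0)
      rw [show ((U ⊗ₖ V) *ᵥ fun x => g' x (0, 0)) y = g y (0, 0) from e1.symm]
      simp [hU0, hV0, ← huv]
      rfl
    have hi : IsUnit (U ⊗ₖ V).det := by
      rw [Matrix.det_kronecker]; exact (hU.pow _).mul (hV.pow _)
    exact congrFun ((Matrix.mulVec_injective_iff_isUnit.mpr ((Matrix.isUnit_iff_isUnit_det _).mpr hi)) e) x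
  have hf : ∀ x y, g' (0, 0) x * g' (1, 1) y - g' (0, 1) x * g' (1, 0) y - g' (1, 0) x * g' (0, 1) y +
      g' (1, 1) x * g' (0, 0) y = γ * K x y := fun x y => by
    rw [← hform, hg']; rfl
  have a01 : g' (0, 1) (0, 0) = 0 := by simpa using h00 (0, 1)
  have a10 : g' (1, 0) (0, 0) = 0 := by simpa using h00 (1, 0)
  have a11 : g' (1, 1) (0, 0) = 0 := by simpa using h00 (1, 1)
  have a00 : g' (0, 0) (0, 0) = 1 := by simpa using h00 (0, 0)
  have f1 := hf (0, 0) (0, 1)
  have f2 := hf (0, 0) (1, 0)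
  have f3 := hf (0, 0) (1, 1)
  simp [K, jTwo, a00, a01, a10, a11] at f1 f2 f3
  have f4 := hf (0, 1) (0, 1)
  have f5 := hf (1, 0) (1, 0)
  have f6 := hf (0, 1) (1, 0)
  have f7 := hf (0, 1) (1, 1)
  have f8 := hf (1, 0) (1, 1)
  have f9 := hf (1, 1) (1, 1)
  simp [K, jTwo, f1, f2, f3] at f4 f5 f6 f7 f8 f9
  have p4 : g' (0, 1) (0, 1) * g' (1, 0) (0, 1) = 0 :=
    (mul_eq_zero.mp (show (2 : F) * (g' (0, 1) (0, 1) * g' (1, 0) (0, 1)) = 0 by linear_combination -f4)).resolve_left h2
  have p5 : g' (0, 1) (1, 0) * g' (1, 0) (1, 0) = 0 :=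
    (mul_eq_zero.mp (show (2 : F) * (g' (0, 1) (1, 0) * g' (1, 0) (1, 0)) = 0 by linear_combination -f5)).resolve_left h2
  have p9 : g' (0, 0) (1, 1) * γ = g' (0, 1) (1, 1) * g' (1, 0) (1, 1) :=
    sub_eq_zero.mp ((mul_eq_zero.mp (show (2 : F) * (g' (0, 0) (1, 1) * γ - g' (0, 1) (1, 1) * g' (1, 0) (1, 1)) = 0 by
      linear_combination f9)).resolve_left h2)
  have hd : g'.det = γ * (g' (0, 1) (0, 1) * g' (1, 0) (1, 0) - g' (0, 1) (1, 0) * g' (1, 0) (0, 1)) := by
    let e : Fin 4 ≃ I₂ :=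
      ⟨![(0, 0), (0, 1), (1, 0), (1, 1)], fun x => ![![0, 1], ![2, 3]] x.1 x.2, by decide, by decide⟩
    have hM : g'.submatrix e e = !![1, g' (0, 0) (0, 1), g' (0, 0) (1, 0), g' (0, 0) (1, 1);
        0, g' (0, 1) (0, 1), g' (0, 1) (1, 0), g' (0, 1) (1, 1);
        0, g' (1, 0) (0, 1), g' (1, 0) (1, 0), g' (1, 0) (1, 1); 0, 0, 0, γ] := by
      ext i j
      fin_cases i <;> fin_cases j <;> simp [e, a00, a01, a10, a11, f1, f2, f3]
    rw [← Matrix.det_submatrix_equiv_self e g', hM]
    simp [Matrix.det_succ_row_zero, Fin.sum_univ_succ, Fin.succAbove]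
    ring
  by_cases hy : g' (0, 1) (0, 1) = 0
  · exfalso
    rw [hy] at f6 hd
    rw [hdet'] at hd
    exact pow_ne_zero 2 hγ ((mul_eq_zero.mp (show (2 : F) * γ ^ 2 = 0 by linear_combination hd + γ * f6)).resolve_left h2)
  have z10 : g' (1, 0) (0, 1) = 0 := (mul_eq_zero.mp p4).resolve_left hy
  rw [z10] at f6 f7
  have hz : g' (0, 1) (0, 1) * g' (1, 0) (1, 0) = γ := by linear_combination -f6
  have z01 : g' (0, 1) (1, 0) = 0 := (mul_eq_zero.mp p5).resolve_right fun h => hγ (by rw [← hz, h, mul_zero])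
  rw [z01] at f8
  set x := g' (0, 0) (0, 1)
  set y := g' (0, 1) (0, 1)
  set x' := g' (0, 0) (1, 0)
  set z := g' (1, 0) (1, 0)
  have hr : g' (1, 0) (1, 1) = x * z := mul_left_cancel₀ hy (by linear_combination -f7 - x * hz)
  have hq : g' (0, 1) (1, 1) = x' * y := mul_left_cancel₀ (show z ≠ 0 from fun h => hγ (by rw [← hz, h, mul_zero]))
    (by linear_combination -f8 - x' * hz)
  have hp : g' (0, 0) (1, 1) = x * x' := mul_right_cancel₀ hγ (by rw [p9, hr, hq, ← hz]; ring)
  have hform' : g' = !![1, x'; 0, z] ⊗ₖ !![1, x; 0, y] := by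
    ext ⟨a, b⟩ ⟨c, d⟩
    fin_cases a <;> fin_cases b <;> fin_cases c <;> fin_cases d <;>
      simp [a00, a01, a10, a11, f1, f2, f3, z10, z01, hr, hq, hp, x, x', y, z] <;>
      first | ring1 | linear_combination -hz | linear_combination hz
  exact ⟨U * !![1, x'; 0, z], V * !![1, x; 0, y], by rw [hback, hform', ← Matrix.mul_kronecker_mul]⟩

section

variable [Fintype F] {ι : Type} [Fintype ι] [DecidableEq ι] {Q : QuadraticForm F (ι → F)}

local notation "fQ" => matForm (RingEquiv.refl F) (polarGram Q)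

omit [Fintype F] in
/-- Elements of `Ω` have determinant one. -/
theorem det_omega {g : GL ι F} (hg : g ∈ omegaGL ⇑Q) : (g : Matrix ι ι F).det = 1 := by
  obtain ⟨x, hx, rfl⟩ := Subgroup.mem_map.mp hg
  have := Abelianization.commutator_subset_ker
    (Matrix.GeneralLinearGroup.det.comp (Cfsg.isometryGroup F ⇑Q).subtype) hx
  exact congrArg Units.val this

/-- An alternating Gram matrix gives a symplectic form. -/
theorem symplectic_of_alt {d : ℕ} {G : Matrix (Fin d) (Fin d) F} (hG : IsUnit G.det) (hs : ∀ i j, G i j = -G j i)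
    (hd : ∀ i, G i i = 0) : IsSymplecticForm (matForm (RingEquiv.refl F) G) := by
  by_cases h2 : (2 : F) = 0
  swap
  · exact symplectic_mf h2 hG hs
  have hs' : ∀ i j, G i j = G j i := fun i j => by rw [hs]; linear_combination (-(G j i)) * h2
  have h1 := symmetric_mf hG hs'
  have h0 : ∀ v, matForm (RingEquiv.refl F) G v v = 0 := fun v => by
    simp only [matForm, dotProduct, Matrix.mulVec, Finset.mul_sum, RingEquiv.refl_apply]
    exact sum_symm_zero h2 (fun a b => by rw [hs' a b]; ring) (fun a => by rw [hd]; ring)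
  refine ⟨h1.bilinear, fun u v => ?_, h0, h1.nondegenerate⟩
  have e := h0 (u + v)
  rw [mf_add_left, mf_add_right, mf_add_right, h0, h0] at e
  linear_combination e

/-- `Ω` preserves no tensor product with a plane factor on which `Q` vanishes at pure tensors. -/
theorem not_le_tensor_two (hQ : (QuadraticMap.polarBilin Q).Nondegenerate) (hn : 7 ≤ Fintype.card ι) {e : ℕ}
    (he : 3 ≤ e) (E : ι ≃ Fin 2 × Fin e) (P : GL ι F)
    (hpure : ∀ (x₁ : Fin 2 → F) (x₂ : Fin e → F),
      Q ((P : Matrix ι ι F) *ᵥ ((fun a : Fin 2 × Fin e => x₁ a.1 * x₂ a.2) ∘ E)) = 0) :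
    ¬ omegaGL ⇑Q ≤ tensorProductSubgroup 2 e E P := by
  classical
  intro hle
  obtain ⟨u, v, hp⟩ := exists_pair_top hQ hn
  have hu0 : u ≠ 0 := fun h => by
    have := hp.ef
    simp [h] at this
  set X := Forms.perp (QuadraticMap.polarBilin Q) (Submodule.span F {u})
  obtain ⟨w, hwX, hQw⟩ : ∃ w ∈ X, Q w ≠ 0 := by
    have hX1 : Fintype.card ι ≤ finrank F X + 1 := pred_le_finrank_perp Q hQ u
    by_contra h
    push Not at h
    have h1 := Submodule.finrank_mono (show X ≤ Forms.perp (QuadraticMap.polarBilin Q) X from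
      fun a ha b hb => GeomClasses.polar_ts h hb ha)
    have h2 := pred_le_finrank_perp Q hQ u
    have h3 := (Forms.isForm_quadratic Q hQ).finrank_perp X
    rw [finrank_pi] at h3
    omega
  have hw : QuadraticMap.polar Q u w = 0 := Forms.mem_perp_span_singleton.mp hwX
  obtain ⟨y', ⟨y, ⟨a, b, hab⟩, rfl⟩, hy⟩ := hle (eichler_mem_omega hQ hn hp.qe hw)
  set A := (a : Matrix (Fin 2) (Fin 2) F)
  set B := (b : Matrix (Fin e) (Fin e) F)
  set g := orthToGL Q (Forms.eichler Q u w hp.qe hw)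
  set S := Submodule.span F {u} ⊔ Submodule.span F {w}
  have hS : finrank F S ≤ 2 := by
    have h1 := Submodule.finrank_add_le_finrank_add_finrank (Submodule.span F {u}) (Submodule.span F {w})
    have h2 : finrank F (Submodule.span F {w}) ≤ 1 := (finrank_span_le_card {w}).trans (by simp)
    rw [finrank_span_singleton hu0] at h1
    exact h1.trans (by omega)
  have himg : ∀ z, (g : Matrix ι ι F) *ᵥ z - z ∈ S := fun z => by
    rw [eichler_mulVec hp.qe hw, add_sub_assoc, add_sub_cancel_left]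
    exact sub_mem (Submodule.mem_sup_right (Submodule.smul_mem _ _ (Submodule.mem_span_singleton_self w)))
      (Submodule.mem_sup_left (Submodule.smul_mem _ _ (Submodule.mem_span_singleton_self u)))
  let T : (Fin 2 × Fin e → F) →ₗ[F] (ι → F) :=
    (Matrix.mulVecLin (P : Matrix ι ι F)).comp (LinearMap.funLeft F F E)
  have hTinj : Function.Injective T := by
    intro z z' h
    have h1 := congrArg ((P⁻¹ : GL ι F).val *ᵥ ·) h
    simp only [T, LinearMap.comp_apply, Matrix.mulVecLin_apply, Matrix.mulVec_mulVec, Units.inv_mul,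
      Matrix.one_mulVec] at h1
    exact LinearMap.funLeft_injective_of_surjective F F E E.surjective h1
  have e1 : ∀ z, (g : Matrix ι ι F) *ᵥ T z = T ((A ⊗ₖ B) *ᵥ z) := by
    intro z
    rw [← hy, ← hab]
    simp only [T, LinearMap.comp_apply, Matrix.mulVecLin_apply, MulEquiv.coe_toMonoidHom, MulAut.conj_apply,
      Units.val_mul, ← Matrix.mulVec_mulVec]
    congr 1
    rw [Matrix.mulVec_mulVec _ (P⁻¹ : GL ι F).val, Units.inv_mul, Matrix.one_mulVec]
    show ((y : Matrix (Fin 2 × Fin e) (Fin 2 × Fin e) F).submatrix E E) *ᵥ (z ∘ E) = _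
    rw [Matrix.submatrix_mulVec_equiv, Function.comp_assoc, Equiv.self_comp_symm, Function.comp_id]
    rfl
  have hTg : ∀ z, T ((A ⊗ₖ B) *ᵥ z - z) ∈ S := fun z => by rw [map_sub, ← e1]; exact himg _
  have small : ∀ {n : ℕ} (L : (Fin n → F) →ₗ[F] (Fin 2 × Fin e → F)), 3 ≤ n →
      (∀ z, T (L z) ∈ S) → Function.Injective L → False := fun {n} L hn' hL hinj => by
    have := LinearMap.finrank_le_finrank_of_injective (f := (T.comp L).codRestrict S hL)
      (fun z z' h => hinj (hTinj (congrArg Subtype.val h)))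
    rw [finrank_fin_fun] at this
    omega
  have hten : ∀ (x : Fin 2 → F) (z : Fin e → F),
      (A ⊗ₖ B) *ᵥ (fun p => x p.1 * z p.2) = fun p => (A *ᵥ x) p.1 * (B *ᵥ z) p.2 := fun x z => by
    funext p
    simp only [Matrix.mulVec, dotProduct, Fintype.sum_prod_type, Matrix.kroneckerMap_apply, Finset.sum_mul,
      Finset.mul_sum]
    rw [Finset.sum_comm]
    exact Finset.sum_congr rfl fun i _ => Finset.sum_congr rfl fun j _ => by ring
  obtain ⟨α, hα⟩ : ∃ α : F, A = α • 1 := by
    by_contra hns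
    obtain ⟨x, hx⟩ : ∃ x, ∀ c : F, A *ᵥ x ≠ c • x := by
      by_contra h
      push Not at h
      choose c hc using h
      have h0 := hc (Pi.single 0 1); have h1 := hc (Pi.single 1 1); have h01 := hc (fun _ => 1)
      have e00 := congrFun h0 0; have e10 := congrFun h0 1; have e01 := congrFun h1 0; have e11 := congrFun h1 1
      have s0 := congrFun h01 0; have s1 := congrFun h01 1
      simp [Matrix.mulVec, dotProduct, Fin.sum_univ_two] at e00 e10 e01 e11 s0 s1
      refine hns ⟨A 0 0, Matrix.ext fun i j => ?_⟩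
      fin_cases i <;> fin_cases j <;> simp [e10, e01]
      linear_combination s1 - s0 + e01 - e10
    let L : (Fin e → F) →ₗ[F] (Fin 2 × Fin e → F) :=
      { toFun := fun z p => (A *ᵥ x) p.1 * (B *ᵥ z) p.2 - x p.1 * z p.2
        map_add' := fun z z' => by funext p; simp only [Matrix.mulVec_add, Pi.add_apply]; ring
        map_smul' := fun c z => by funext p; simp only [Matrix.mulVec_smul, Pi.smul_apply, smul_eq_mul, RingHom.id_apply]; ring }
    refine small L he (fun z => ?_) ((injective_iff_map_eq_zero L).mpr fun z hz => funext fun k => ?_)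
    · have := hTg fun p => x p.1 * z p.2
      rwa [hten] at this
    · by_contra hzk
      have hk : ∀ i, (A *ᵥ x) i * (B *ᵥ z) k = x i * z k := fun i => by
        have := congrFun hz (i, k)
        simpa [L, sub_eq_zero] using this
      by_cases hBk : (B *ᵥ z) k = 0
      · have hx0 : x = 0 := funext fun i => by
          have := hk i
          rw [hBk, mul_zero] at this
          exact (mul_eq_zero.mp this.symm).resolve_right hzk
        exact hx 0 (by rw [hx0]; simp)
      · refine hx (z k / (B *ᵥ z) k) (funext fun i => ?_)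
        rw [Pi.smul_apply, smul_eq_mul, div_mul_eq_mul_div, eq_div_iff hBk, hk i, mul_comm]
  set D := α • B - 1
  have hD : ∀ (x : Fin 2 → F) (z : Fin e → F),
      (A ⊗ₖ B) *ᵥ (fun p => x p.1 * z p.2) - (fun p => x p.1 * z p.2) = fun p => x p.1 * (D *ᵥ z) p.2 := by
    intro x z
    rw [hten, hα]
    funext p
    simp only [D, Matrix.sub_mulVec, Matrix.smul_mulVec, Matrix.one_mulVec, Pi.sub_apply, Pi.smul_apply, smul_eq_mul]
    ring
  -- the image of `D` is at most a line
  obtain ⟨d₀, hd₀⟩ : ∃ d₀, ∀ z, ∃ c : F, D *ᵥ z = c • d₀ := by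
    by_cases h0 : ∀ z, D *ᵥ z = 0
    · exact ⟨0, fun z => ⟨0, by rw [h0]; simp⟩⟩
    push Not at h0
    obtain ⟨z₁, hz₁⟩ := h0
    refine ⟨D *ᵥ z₁, fun z₂ => ?_⟩
    by_contra hno
    push Not at hno
    let L : (Fin 3 → F) →ₗ[F] (Fin 2 × Fin e → F) :=
      { toFun := fun c p => (Pi.single 0 1 : Fin 2 → F) p.1 * (D *ᵥ (c 0 • z₁ + c 1 • z₂)) p.2 +
          (Pi.single 1 1 : Fin 2 → F) p.1 * (D *ᵥ (c 2 • z₁)) p.2
        map_add' := fun c c' => by
          funext p
          simp only [Matrix.mulVec_add, Matrix.mulVec_smul, Pi.add_apply, Pi.smul_apply, smul_eq_mul]; ring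
        map_smul' := fun s c => by
          funext p
          simp only [Matrix.mulVec_add, Matrix.mulVec_smul, Pi.add_apply, Pi.smul_apply, smul_eq_mul, RingHom.id_apply]; ring }
    refine small L le_rfl (fun c => ?_) ((injective_iff_map_eq_zero L).mpr fun c hc => ?_)
    · have e2 := hTg ((fun p => (Pi.single 0 1 : Fin 2 → F) p.1 * (c 0 • z₁ + c 1 • z₂) p.2) +
        fun p => (Pi.single 1 1 : Fin 2 → F) p.1 * (c 2 • z₁) p.2)
      rw [Matrix.mulVec_add, add_sub_add_comm, hD, hD] at e2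
      exact e2
    · have r0 : D *ᵥ (c 0 • z₁ + c 1 • z₂) = 0 := funext fun k => by
        have := congrFun hc (0, k); simpa [L] using this
      have r1 : D *ᵥ (c 2 • z₁) = 0 := funext fun k => by
        have := congrFun hc (1, k); simpa [L] using this
      rw [Matrix.mulVec_smul, smul_eq_zero] at r1
      rw [Matrix.mulVec_add, Matrix.mulVec_smul, Matrix.mulVec_smul] at r0
      have c1 : c 1 = 0 := by
        by_contra h1
        refine hno (-(c 1)⁻¹ * c 0) ?_
        rw [mul_smul, eq_neg_of_add_eq_zero_left r0, smul_neg, neg_smul, neg_neg, smul_smul, inv_mul_cancel₀ h1, one_smul]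
      rw [c1, zero_smul, add_zero, smul_eq_zero] at r0
      funext i
      fin_cases i
      · exact r0.resolve_right hz₁
      · exact c1
      · exact r1.resolve_right hz₁
  obtain ⟨r, hr⟩ : ∃ r, T r = v := by
    refine ⟨((P⁻¹ : GL ι F).val *ᵥ v) ∘ E.symm, ?_⟩
    show (P : Matrix ι ι F) *ᵥ ((((P⁻¹ : GL ι F).val *ᵥ v) ∘ E.symm) ∘ E) = v
    rw [Function.comp_assoc, Equiv.symm_comp_self, Function.comp_id, Matrix.mulVec_mulVec, Units.mul_inv, Matrix.one_mulVec]
  choose cf hcf using hd₀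
  have hrs : r = (fun p => (Pi.single 0 1 : Fin 2 → F) p.1 * r (0, p.2)) + fun p => (Pi.single 1 1 : Fin 2 → F) p.1 * r (1, p.2) := by
    funext ⟨i, k⟩; fin_cases i <;> simp
  let x₁ : Fin 2 → F := ![cf fun k => r (0, k), cf fun k => r (1, k)]
  have himage : (g : Matrix ι ι F) *ᵥ v - v = T fun p => x₁ p.1 * d₀ p.2 := by
    rw [← hr, e1, ← map_sub]
    congr 1
    conv_lhs => rw [hrs]
    rw [Matrix.mulVec_add, add_sub_add_comm, hD _ (fun k => r (0, k)), hD _ (fun k => r (1, k)), hcf, hcf]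
    funext ⟨i, k⟩
    fin_cases i <;> simp [x₁]
  have hzero : Q ((g : Matrix ι ι F) *ᵥ v - v) = 0 := by rw [himage]; exact hpure x₁ d₀
  rw [eichler_mulVec hp.qe hw, hp.ef, one_smul, add_sub_assoc, add_sub_cancel_left] at hzero
  refine hQw ?_
  rw [sub_eq_add_neg, QuadraticMap.map_add Q, ← neg_smul, QuadraticMap.map_smul, hp.qe, smul_zero, add_zero,
    QuadraticMap.polar_smul_right, (QuadraticMap.polar_comm (⇑Q) w u).trans hw, smul_zero, add_zero] at hzero
  exact hzero

/-- The tensor case of the list. -/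
def PlusTensor (Q : QuadraticForm F (ι → F)) (H : Subgroup (GL ι F)) : Prop :=
  3 ≤ Fintype.card F ∧ ∃ (e : ι ≃ Fin 2 × Fin 6) (P : GL ι F) (f₁ : (Fin 2 → F) → (Fin 2 → F) → F)
    (f₂ : (Fin 6 → F) → (Fin 6 → F) → F), IsSymplecticForm f₁ ∧ IsSymplecticForm f₂ ∧
    IsTensorFormStructure id (QuadraticMap.polar ⇑Q) f₁ f₂ e P ∧
    (∀ (x₁ : Fin 2 → F) (x₂ : Fin 6 → F),
      Q ((P : Matrix ι ι F) *ᵥ ((fun a : Fin 2 × Fin 6 => x₁ a.1 * x₂ a.2) ∘ e)) = 0) ∧
    H = tensorProductSubgroup 2 6 e P ⊓ omegaGL ⇑Q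

/-- Alternating factors of sizes two and six. -/
theorem tensor_alt (hQ : (QuadraticMap.polarBilin Q).Nondegenerate) (hn : Fintype.card ι = 12)
    {H : Subgroup (GL ι F)} (hH : IsMaximalIn (omegaGL ⇑Q) H)
    (hirr : ∀ W : Submodule F (ι → F), (∀ g ∈ H, ∀ w ∈ W, (g : Matrix ι ι F) *ᵥ w ∈ W) → W = ⊥ ∨ W = ⊤)
    (b : Basis (Fin 2 × Fin 6) F (ι → F)) {c : F} (hc : c ≠ 0) {A : Matrix (Fin 2) (Fin 2) F}
    {C : Matrix (Fin 6) (Fin 6) F} (hA : IsUnit A.det) (hC : IsUnit C.det) (hAs : ∀ i j, A i j = -A j i)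
    (hAd : ∀ i, A i i = 0) (hCs : ∀ i j, C i j = -C j i) (hCd : ∀ i, C i i = 0)
    (hf : ∀ x y, fQ (b x) (b y) = c * (A x.1 y.1 * C x.2 y.2))
    (hcoord : ∀ g ∈ H, ∃ (a : GL (Fin 2) F) (a' : GL (Fin 6) F),
      (coordGL b g : Matrix (Fin 2 × Fin 6) (Fin 2 × Fin 6) F) =
        (a : Matrix (Fin 2) (Fin 2) F) ⊗ₖ (a' : Matrix (Fin 6) (Fin 6) F)) : PlusTensor Q H := by
  classical
  haveI : Nontrivial ι := Fintype.one_lt_card_iff_nontrivial.mp (by omega)
  have hI : ∀ g ∈ H, ∀ v, Q ((g : Matrix ι ι F) *ᵥ v) = Q v := fun g hg v => omegaGL_preserves Q (hH.1.le hg) v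
  obtain ⟨e⟩ := finEquiv b
  have hf₁ := symplectic_of_alt hA hAs hAd
  have hf₂ := symplectic_of_alt hC hCs hCd
  have hQb : ∀ x, Q (b x) = 0 := by
    by_cases h2 : (2 : F) = 0
    · refine pure_singular Q h2 hI hirr b (c := c) (T := A) (S := C) (fun i j => ?_) hAd (fun i j => ?_) hCd hf
        fun g hg y => ?_
      · rw [hAs]; linear_combination (-(A j i)) * h2
      · rw [hCs]; linear_combination (-(C j i)) * h2
      obtain ⟨a, a', ha⟩ := hcoord g hg
      exact ⟨fun i => (a : Matrix (Fin 2) (Fin 2) F) i y.1, fun k => (a' : Matrix (Fin 6) (Fin 6) F) k y.2,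
        fun x => by rw [ha, Matrix.kroneckerMap_apply]⟩
    · intro x
      have := hf x x
      rw [← polar_eq_form, Forms.polar_self_two_mul, hAd, zero_mul, mul_zero] at this
      exact (mul_eq_zero.mp this).resolve_left h2
  have hpure : ∀ (x₁ : Fin 2 → F) (x₂ : Fin 6 → F),
      Q ((frameGL b e : Matrix ι ι F) *ᵥ ((fun a : Fin 2 × Fin 6 => x₁ a.1 * x₂ a.2) ∘ e)) = 0 := by
    intro x₁ x₂
    let u : Fin 2 → ι → F := fun i => ∑ k, x₂ k • b (i, k)
    have hP : (frameGL b e : Matrix ι ι F) *ᵥ ((fun a : Fin 2 × Fin 6 => x₁ a.1 * x₂ a.2) ∘ e) = x₁ 0 • u 0 + x₁ 1 • u 1 := by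
      funext i
      show ∑ j, (Pi.basisFun F ι).toMatrix (b.reindex e.symm) i j * (x₁ (e j).1 * x₂ (e j).2) = _
      rw [← e.symm.sum_comp, Fintype.sum_prod_type, Fin.sum_univ_two]
      simp [u, Module.Basis.toMatrix_apply, Finset.mul_sum, Finset.sum_apply, mul_comm, mul_assoc, mul_left_comm]
    have hu : ∀ i, Q (u i) = 0 := by
      intro i
      obtain ⟨U, hU, -⟩ := singular_span Q
        (b.linearIndependent.comp (fun k : Fin 6 => (i, k)) fun k l h => congrArg Prod.snd h)
        (fun k => hQb _) fun k l => by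
          show QuadraticMap.polar (⇑Q) (b (i, k)) (b (i, l)) = 0
          rw [polar_eq_form, hf, hAd, zero_mul, mul_zero]
      have hz : ∀ S : Finset (Fin 6), Q (∑ k ∈ S, x₂ k • b (i, k)) = 0 := by
        intro S
        induction S using Finset.induction_on with
        | empty => simp
        | insert a S haS ih =>
          rw [Finset.sum_insert haS, QuadraticMap.map_add Q, ih, QuadraticMap.map_smul, hQb, polar_eq_form, mf_sum_right]
          simp [mf_smul_left, mf_smul_right, hf, hAd]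
      exact hz _
    rw [hP, QuadraticMap.map_add Q, QuadraticMap.map_smul, QuadraticMap.map_smul, hu, hu, polar_eq_form, mf_smul_left,
      mf_smul_right, show fQ (u 0) (u 1) = 0 from ?_]
    · simp
    simp only [u, mf_sum_left, mf_sum_right, mf_smul_left, mf_smul_right, hf, RingEquiv.refl_apply]
    have h0 := hf₂.alternating x₂
    simp only [matForm, dotProduct, Matrix.mulVec, Finset.mul_sum, RingEquiv.refl_apply] at h0
    rw [show (0 : F) = c * A 0 1 * 0 by ring, ← h0]
    simp only [Finset.mul_sum]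
    rw [Finset.sum_comm]
    exact Finset.sum_congr rfl fun k _ => Finset.sum_congr rfl fun l _ => by ring
  have hT : IsTensorFormStructure id (QuadraticMap.polar ⇑Q) (matForm (RingEquiv.refl F) A) (matForm (RingEquiv.refl F) C)
      e (frameGL b e) := by
    refine ⟨c, hc, fun x y => ?_⟩
    rw [polar_eq_form, frame_form, formOfGram, Finset.mul_sum, gramMatrix_matForm, gramMatrix_matForm]
    refine Finset.sum_congr rfl fun u _ => ?_
    rw [Finset.mul_sum]
    refine Finset.sum_congr rfl fun v _ => ?_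
    rw [hf, Matrix.kroneckerMap_apply]
    simp only [id]
    show x u * (c * (A u.1 v.1 * C u.2 v.2)) * y v = c * (x u * _ * y v)
    ring
  have hle : H ≤ tensorProductSubgroup 2 6 e (frameGL b e) := le_conj_reindex b e fun g hg => by
    obtain ⟨a, a', ha⟩ := hcoord g hg
    exact ⟨a, a', ha⟩
  have hq : 3 ≤ Fintype.card F := by
    by_contra h3
    have hq2 : Fintype.card F = 2 := by have := Fintype.one_lt_card (α := F); omega
    obtain ⟨K, hK1, hK2⟩ := exists_between_tensor_two_orth hq2 Q e (by norm_num) (frameGL b e) hf₁ hf₂ hT hpure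
    exact no_between hH (le_inf hle hH.1.le) hK1 hK2
  exact ⟨hq, e, frameGL b e, _, _, hf₁, hf₂, hT, hpure,
    subgroup_eq_of_le hH hle (not_le_tensor_two hQ (by omega) (by norm_num) e _ hpure)⟩

/-- Tensor factors of sizes two and six. -/
theorem two_six (hQ : (QuadraticMap.polarBilin Q).Nondegenerate) (hn : Fintype.card ι = 12)
    (hplus : IsPlusTypeOn (⇑Q) ⊤) {H : Subgroup (GL ι F)} (hH : IsMaximalIn (omegaGL ⇑Q) H)
    (hirr : Irr ((fun u : (Module.End F (ι → F))ˣ => (u : Module.End F (ι → F))) ''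
      (gu '' (↑(H ⊔ scalars ι F) : Set _))))
    (φA : Matrix (Fin 2) (Fin 2) F →ₐ[F] Module.End F (ι → F)) (φC : Matrix (Fin 6) (Fin 6) F →ₐ[F] Module.End F (ι → F))
    (hAC : ∀ X Y, Commute (φA X) (φC Y)) (hirr2 : Irr (Set.range φA ∪ Set.range φC))
    (hA : ∀ g ∈ H ⊔ scalars ι F, ∀ X, (gu g : Module.End F (ι → F)) * φA X * ((gu g)⁻¹).val ∈ Set.range φA)
    (hC : ∀ g ∈ H ⊔ scalars ι F, ∀ X, (gu g : Module.End F (ι → F)) * φC X * ((gu g)⁻¹).val ∈ Set.range φC)
    (hclA : ∀ X, st (RingEquiv.refl F) (polarGram Q) (φA X) ∈ Set.range φA)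
    (hclC : ∀ X, st (RingEquiv.refl F) (polarGram Q) (φC X) ∈ Set.range φC) :
    (PlusCases Q H ∨ PlusSubfield Q H) ∨ PlusTensor Q H := by
  classical
  haveI : Nontrivial ι := Fintype.one_lt_card_iff_nontrivial.mp (by omega)
  haveI : Nonempty ι := inferInstance
  have hB := formData Q hQ
  have hI : ∀ g ∈ H, ∀ v, Q ((g : Matrix ι ι F) *ᵥ v) = Q v := fun g hg v => omegaGL_preserves Q (hH.1.le hg) v
  have hsim := sim_of_iso Q hI
  have hinjA : Function.Injective φA := RingHom.injective φA.toRingHom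
  have hinjC : Function.Injective φC := RingHom.injective φC.toRingHom
  obtain ⟨GA, νA, -, hGA, hνA⟩ := exists_factor_gram hB (by norm_num) φA hinjA hclA
  obtain ⟨GC, νC, -, hGC, hνC⟩ := exists_factor_gram hB (by norm_num) φC hinjC hclC
  set A := (GA : Matrix (Fin 2) (Fin 2) F)
  set C := (GC : Matrix (Fin 6) (Fin 6) F)
  have hAu : IsUnit A.det := (Matrix.isUnit_iff_isUnit_det _).mp GA.isUnit
  have hCu : IsUnit C.det := (Matrix.isUnit_iff_isUnit_det _).mp GC.isUnit
  have eA : ∀ i j, A j i = νA * A i j := fun i j => congrFun (congrFun hνA i) j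
  have eC : ∀ i j, C j i = νC * C i j := fun i j => congrFun (congrFun hνC i) j
  obtain ⟨b, c, hc, hf, hcoord⟩ := pair_frame hB (by norm_num) (by norm_num) φA φC hAC hirr2 hA hC GA GC hGA hGC
  obtain ⟨i₀, j₀, hij⟩ := exists_entry (by norm_num : 0 < 2) hAu
  obtain ⟨k₀, l₀, hkl⟩ := exists_entry (by norm_num : 0 < 6) hCu
  have hsq : νA * νA = 1 := by
    have h := eA j₀ i₀
    rw [eA i₀ j₀, ← mul_assoc] at h
    exact mul_right_cancel₀ hij (by rw [one_mul]; exact h.symm)
  have hprod : νA * νC = 1 := by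
    have h1 := hB.swap (b (i₀, k₀)) (b (j₀, l₀))
    rw [one_mul, RingEquiv.refl_apply, hf, hf] at h1
    change c * (A j₀ i₀ * C l₀ k₀) = c * (A i₀ j₀ * C k₀ l₀) at h1
    rw [eA, eC] at h1
    have h2 := mul_left_cancel₀ hc h1
    exact mul_right_cancel₀ (mul_ne_zero hij hkl) (by rw [one_mul]; linear_combination h2)
  have hν : νC = νA := by
    calc νC = νA * νA * νC := by rw [hsq, one_mul]
      _ = νA := by rw [mul_assoc, hprod, mul_one]
  have alt : (∀ i, A i i = 0) → (∀ k, C k k = 0) → νA = -1 → PlusTensor Q H := fun hAd hCd hm => by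
    refine tensor_alt hQ hn hH (fun W hW => irred_of_irr hirr (W := W) hW) b hc hAu hCu
      (fun i j => by rw [eA j i, hm]; ring) hAd (fun i j => by rw [eC j i, hν, hm]; ring) hCd hf fun g hg => ?_
    obtain ⟨c', a, a', hc', ha⟩ := hcoord g (Subgroup.mem_sup_left hg)
    refine ⟨Units.map (algebraMap F (Matrix (Fin 2) (Fin 2) F)).toMonoidHom (Units.mk0 c' hc') * a, a', ?_⟩
    rw [ha, ← Matrix.smul_kronecker]
    congr 1
    show _ = algebraMap F (Matrix (Fin 2) (Fin 2) F) c' * (a : Matrix (Fin 2) (Fin 2) F)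
    rw [← Algebra.smul_def]
  by_cases h2 : (2 : F) = 0
  · have hν1 : νA = 1 := by
      rcases mul_self_eq_one_iff.mp hsq with h | h
      · exact h
      · rw [h]; linear_combination (-1 : F) * h2
    have hm : νA = -1 := by rw [hν1]; linear_combination h2
    have hAs : ∀ i j, A i j = A j i := fun i j => by rw [eA i j, hν1, one_mul]
    have hCs : ∀ i j, C i j = C j i := fun i j => by rw [eC i j, hν, hν1, one_mul]
    refine Or.inr (alt ?_ ?_ hm)
    · by_contra h
      push Not at h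
      obtain ⟨b', c', hc', hf', hcoord'⟩ := pair_frame hB (by norm_num) (by norm_num) φC φA (fun X Y => (hAC Y X).symm)
        (by rwa [Set.union_comm]) hC hA GC GA hGC hGA
      exact factor_hyperplane hsim hirr h2 (by norm_num) b' hc' C GA ⟨k₀, l₀, hkl⟩ hAs h hf' hcoord'
    · by_contra h
      push Not at h
      exact factor_hyperplane hsim hirr h2 (by norm_num) b hc A GC ⟨i₀, j₀, hij⟩ hCs h hf hcoord
  rcases mul_self_eq_one_iff.mp hsq with h1 | hm
  swap
  · refine Or.inr (alt (fun i => ?_) (fun k => ?_) hm)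
    · have := eA i i
      rw [hm] at this
      exact (mul_eq_zero.mp (show (2 : F) * A i i = 0 by linear_combination this)).resolve_left h2
    · have := eC k k
      rw [hν, hm] at this
      exact (mul_eq_zero.mp (show (2 : F) * C k k = 0 by linear_combination this)).resolve_left h2
  -- the similitudes of a symmetric plane form normalise its skew algebra
  refine Or.inl ?_
  set N := A⁻¹ * jTwo F
  set x₀ := φA N
  have hst : st (RingEquiv.refl F) (polarGram Q) x₀ = -x₀ := by
    show st _ _ (φA N) = -φA N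
    rw [hGA, ← map_neg]
    congr 1
    have hAt : Aᵀ = A := Matrix.ext fun i j => by rw [Matrix.transpose_apply, eA i j, h1, one_mul]
    have hmap : ∀ Z : Matrix (Fin 2) (Fin 2) F, Z.map (RingEquiv.refl F) = Z := fun Z => by ext u w; rfl
    have hJ : (jTwo F)ᵀ = -jTwo F := by ext i j; fin_cases i <;> fin_cases j <;> simp [jTwo]
    simp only [stG, hmap, N, Matrix.transpose_mul, Matrix.transpose_nonsing_inv, hAt, hJ]
    rw [Matrix.neg_mul, Matrix.mul_neg, Matrix.neg_mul, mul_assoc, mul_assoc, Matrix.nonsing_inv_mul _ hAu, mul_one]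
  have hskew : ∀ X, st (RingEquiv.refl F) (polarGram Q) (φA X) = -φA X → ∃ t : F, X = t • N := by
    intro X hX
    rw [hGA, ← map_neg] at hX
    have e := hinjA hX
    have hmap : ∀ Z : Matrix (Fin 2) (Fin 2) F, Z.map (RingEquiv.refl F) = Z := fun Z => by ext u w; rfl
    simp only [stG, hmap] at e
    have e2 : Xᵀ * A = -(A * X) := by
      have := congrArg (A * ·) e
      simpa [← mul_assoc, Matrix.mul_nonsing_inv _ hAu] using this
    set M := A * X
    have hM : Mᵀ = -M := by
      rw [show Mᵀ = Xᵀ * Aᵀ from Matrix.transpose_mul _ _,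
        show Aᵀ = A from Matrix.ext fun i j => by rw [Matrix.transpose_apply, eA i j, h1, one_mul], e2]
    refine ⟨M 0 1, ?_⟩
    have hMJ : M = M 0 1 • jTwo F := by
      have z : ∀ i, M i i = 0 := fun i => by
        have := congrFun (congrFun hM i) i
        simp only [Matrix.transpose_apply, Matrix.neg_apply] at this
        exact (mul_eq_zero.mp (show (2 : F) * M i i = 0 by linear_combination this)).resolve_left h2
      have z10 : M 1 0 = -M 0 1 := congrFun (congrFun hM 0) 1
      ext i j; fin_cases i <;> fin_cases j <;> simp [jTwo, z, z10]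
    show X = M 0 1 • (A⁻¹ * jTwo F)
    rw [← Matrix.mul_smul, ← hMJ, ← mul_assoc, Matrix.nonsing_inv_mul _ hAu, one_mul]
  let E : Subalgebra F (Module.End F (ι → F)) := Algebra.adjoin F {x₀}
  have hfwd : ∀ g ∈ H ⊔ scalars ι F, ∀ x ∈ E, conjHom (gu g) x ∈ E := by
    intro g hg x hx
    induction hx using Algebra.adjoin_induction with
    | mem x hx =>
      obtain rfl : x = x₀ := hx
      obtain ⟨X, hX⟩ := hA g hg N
      have hX' : conjHom (gu g) x₀ = φA X := hX.symm
      obtain ⟨t, rfl⟩ := hskew X (by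
        rw [← hX']
        refine (st_conj hB (hsim g hg) x₀).trans ?_
        rw [hst, map_neg])
      rw [hX', map_smul]
      exact E.smul_mem (Algebra.subset_adjoin rfl) t
    | algebraMap r => rw [AlgHom.commutes]; exact E.algebraMap_mem r
    | add x y _ _ hx hy => rw [map_add]; exact E.add_mem hx hy
    | mul x y _ _ hx hy => rw [map_mul]; exact E.mul_mem hx hy
  have hcm : ∀ y ∈ E, Commute x₀ y := fun y hy => by
    induction hy using Algebra.adjoin_induction with
    | mem x hx => rw [Set.mem_singleton_iff.mp hx]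
    | algebraMap r => exact (Algebra.commutes r x₀).symm
    | add x y _ _ hx hy => exact hx.add_right hy
    | mul x y _ _ hx hy => exact hx.mul_right hy
  refine comm_twelve_plus hQ hn hplus hH hirr (E := E) (fun x hx y hy => ?_) (fun g hg X => ⟨fun h => hfwd g hg X h, fun h => ?_⟩)
    (fun x hx => ?_) ⟨x₀, Algebra.subset_adjoin rfl, fun r hr => ?_⟩
  · induction hx using Algebra.adjoin_induction with
    | mem x hx => rw [Set.mem_singleton_iff.mp hx]; exact (hcm y hy).eq
    | algebraMap r => exact Algebra.commutes r y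
    | add a b _ _ ha hb => rw [add_mul, mul_add, ha, hb]
    | mul a b _ _ ha hb => rw [mul_assoc, hb, ← mul_assoc, ha, mul_assoc]
  · have := hfwd g⁻¹ (inv_mem hg) _ h
    simpa [conjHom_apply, mul_assoc] using this
  · induction hx using Algebra.adjoin_induction with
    | mem x hx => rw [Set.mem_singleton_iff.mp hx, hst]; exact neg_mem (Algebra.subset_adjoin rfl)
    | algebraMap r => rw [st_algebraMap hB]; exact E.algebraMap_mem _
    | add a b _ _ ha hb => rw [st_add hB]; exact E.add_mem ha hb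
    | mul a b _ _ ha hb => rw [st_mul hB]; exact E.mul_mem hb ha
  · have e : N = algebraMap F _ r := hinjA (by rw [AlgHom.commutes]; exact hr)
    have e2 := congrArg (A * ·) e
    simp only [N, ← mul_assoc, Matrix.mul_nonsing_inv _ hAu, one_mul, Algebra.algebraMap_eq_smul_one, Matrix.mul_smul,
      mul_one] at e2
    have e01 := congrFun (congrFun e2 0) 1
    have e10 := congrFun (congrFun e2 1) 0
    simp [jTwo] at e01 e10
    rw [eA 0 1, h1, one_mul] at e10
    exact h2 (by linear_combination e01 - e10)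

/-- Tensor factors of sizes three and four. -/
theorem three_four (hQ : (QuadraticMap.polarBilin Q).Nondegenerate) (hn : Fintype.card ι = 12)
    (hplus : IsPlusTypeOn (⇑Q) ⊤) {H : Subgroup (GL ι F)} (hH : IsMaximalIn (omegaGL ⇑Q) H)
    (hirr : Irr ((fun u : (Module.End F (ι → F))ˣ => (u : Module.End F (ι → F))) ''
      (gu '' (↑(H ⊔ scalars ι F) : Set _))))
    (φA : Matrix (Fin 3) (Fin 3) F →ₐ[F] Module.End F (ι → F)) (φC : Matrix (Fin 4) (Fin 4) F →ₐ[F] Module.End F (ι → F))
    (hAC : ∀ X Y, Commute (φA X) (φC Y)) (hirr2 : Irr (Set.range φA ∪ Set.range φC))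
    (hA : ∀ g ∈ H ⊔ scalars ι F, ∀ X, (gu g : Module.End F (ι → F)) * φA X * ((gu g)⁻¹).val ∈ Set.range φA)
    (hC : ∀ g ∈ H ⊔ scalars ι F, ∀ X, (gu g : Module.End F (ι → F)) * φC X * ((gu g)⁻¹).val ∈ Set.range φC)
    (hclA : ∀ X, st (RingEquiv.refl F) (polarGram Q) (φA X) ∈ Set.range φA)
    (hclC : ∀ X, st (RingEquiv.refl F) (polarGram Q) (φC X) ∈ Set.range φC) : PlusTensor Q H := by
  classical
  haveI : Nontrivial ι := Fintype.one_lt_card_iff_nontrivial.mp (by omega)
  haveI : Nonempty ι := inferInstance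
  have hB := formData Q hQ
  have hI : ∀ g ∈ H, ∀ v, Q ((g : Matrix ι ι F) *ᵥ v) = Q v := fun g hg v => omegaGL_preserves Q (hH.1.le hg) v
  have hsim := sim_of_iso Q hI
  obtain ⟨GA, νA, -, hGA, hνA⟩ := exists_factor_gram hB (by norm_num) φA (RingHom.injective φA.toRingHom) hclA
  obtain ⟨GC, νC, -, hGC, hνC⟩ := exists_factor_gram hB (by norm_num) φC (RingHom.injective φC.toRingHom) hclC
  set A := (GA : Matrix (Fin 3) (Fin 3) F)
  set C := (GC : Matrix (Fin 4) (Fin 4) F)
  have hAu : IsUnit A.det := (Matrix.isUnit_iff_isUnit_det _).mp GA.isUnit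
  have hCu : IsUnit C.det := (Matrix.isUnit_iff_isUnit_det _).mp GC.isUnit
  have hAs : Aᵀ = A := gram_symm (by decide) hAu hνA
  obtain ⟨b, c, hc, hf, hcoord⟩ := pair_frame hB (by norm_num) (by norm_num) φA φC hAC hirr2 hA hC GA GC hGA hGC
  obtain ⟨i₀, j₀, hij⟩ := exists_entry (by norm_num : 0 < 3) hAu
  obtain ⟨k₀, l₀, hkl⟩ := exists_entry (by norm_num : 0 < 4) hCu
  have hCs : Cᵀ = C := by
    ext k l
    have h1 := hB.swap (b (i₀, k)) (b (j₀, l))
    rw [one_mul, RingEquiv.refl_apply, hf, hf] at h1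
    have h2 : A j₀ i₀ = A i₀ j₀ := congrFun (congrFun hAs i₀) j₀
    change c * (A j₀ i₀ * C l k) = c * (A i₀ j₀ * C k l) at h1
    rw [h2] at h1
    exact mul_left_cancel₀ hij (mul_left_cancel₀ hc h1)
  by_cases h2 : (2 : F) = 0
  · exfalso
    obtain ⟨b', c', hc', hf', hcoord'⟩ := pair_frame hB (by norm_num) (by norm_num) φC φA (fun X Y => (hAC Y X).symm)
      (by rwa [Set.union_comm]) hC hA GC GA hGC hGA
    refine factor_hyperplane hsim hirr h2 (by norm_num) b' hc' C GA ⟨k₀, l₀, hkl⟩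
      (fun i j => (congrFun (congrFun hAs i) j).symm) ?_ hf' hcoord'
    by_contra h
    push Not at h
    refine hAu.ne_zero ?_
    have s10 : A 1 0 = A 0 1 := congrFun (congrFun hAs 0) 1
    have s20 : A 2 0 = A 0 2 := congrFun (congrFun hAs 0) 2
    have s21 : A 2 1 = A 1 2 := congrFun (congrFun hAs 1) 2
    rw [Matrix.det_fin_three, show A 0 0 = 0 from h 0, show A 1 1 = 0 from h 1, show A 2 2 = 0 from h 2, s10, s20, s21]
    linear_combination (A 0 1 * A 1 2 * A 0 2) * h2
  let e4 : Fin 2 × Fin 2 ≃ Fin 4 := finProdFinEquiv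
  set K := (jTwo F ⊗ₖ jTwo F).submatrix e4.symm e4.symm
  have hKd : K.det = 1 := by
    show ((jTwo F ⊗ₖ jTwo F).submatrix e4.symm e4.symm).det = 1
    rw [Matrix.det_submatrix_equiv_self, Matrix.det_kronecker]
    simp [jTwo, Matrix.det_fin_two]
  have hKs : Kᵀ = K := by
    ext x y
    simp only [K, Matrix.transpose_apply, Matrix.submatrix_apply, Matrix.kroneckerMap_apply]
    generalize e4.symm x = p; generalize e4.symm y = r
    obtain ⟨p1, p2⟩ := p; obtain ⟨r1, r2⟩ := r
    fin_cases p1 <;> fin_cases p2 <;> fin_cases r1 <;> fin_cases r2 <;> simp [jTwo]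
  have hCsq : IsSquare C.det := by
    obtain ⟨U, -, hU, hUd⟩ := hplus
    rw [finrank_top, finrank_pi] at hUd
    set Bf : LinearMap.BilinForm F (ι → F) := QuadraticMap.polarBilin Q
    have hS : Bf.IsSymm := ⟨fun x y => QuadraticMap.polar_comm (⇑Q) x y⟩
    have hsq := (Forms.isotropic_iff (B := Bf) h2 hS hQ (by norm_num : 1 ≤ 6) (by rw [finrank_pi, hn]) b).mp
      ⟨U, by omega, fun x hx y hy => GeomClasses.polar_ts hU hx hy⟩
    have e : LinearMap.BilinForm.toMatrix b Bf = c • (A ⊗ₖ C) := by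
      ext x y
      rw [LinearMap.BilinForm.toMatrix_apply, Matrix.smul_apply, Matrix.kroneckerMap_apply, smul_eq_mul, ← hf,
        ← polar_eq_form]
      rfl
    rw [e, Matrix.det_smul, Matrix.det_kronecker, Fintype.card_prod, Fintype.card_fin, Fintype.card_fin] at hsq
    obtain ⟨s, hs⟩ := hsq
    norm_num at hs
    refine ⟨s / (c ^ 6 * A.det ^ 2 * C.det), ?_⟩
    have h0 := hc; have hA0 := hAu.ne_zero; have hC0 := hCu.ne_zero
    field_simp
    linear_combination hs
  obtain ⟨S, hS⟩ : ∃ S : GL (Fin 4) F,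
      (S : Matrix (Fin 4) (Fin 4) F)ᵀ * C * (S : Matrix (Fin 4) (Fin 4) F) = K := by
    have sym : ∀ M : Matrix (Fin 4) (Fin 4) F, Mᵀ = M → (Matrix.toBilin' M).IsSymm := fun M hM => ⟨fun u v => by
      show Matrix.toBilin' M u v = Matrix.toBilin' M v u
      rw [Matrix.toBilin'_apply', Matrix.toBilin'_apply', Matrix.dotProduct_mulVec u, dotProduct_comm,
        ← Matrix.mulVec_transpose, hM]⟩
    have nd : ∀ M : Matrix (Fin 4) (Fin 4) F, M.det ≠ 0 → (Matrix.toBilin' M).Nondegenerate := fun M hM =>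
      LinearMap.BilinForm.nondegenerate_toBilin'_iff_det_ne_zero.mpr hM
    obtain ⟨T, hT⟩ := Cfsg.Agent.Forms.exists_isometry_of_det (n := 3) h2 (sym K hKs) (nd _ (by rw [hKd]; exact one_ne_zero))
      (sym C hCs) (nd C hCu.ne_zero) (Module.finrank_fin_fun F) (Module.finrank_fin_fun F) (Pi.basisFun F _) (Pi.basisFun F _)
      (by simpa [LinearMap.BilinForm.toMatrix_basisFun, LinearMap.BilinForm.toMatrix'_toBilin', hKd] using hCsq)
    let S : GL (Fin 4) F := Matrix.nonsingInvUnit (LinearMap.toMatrix' T.toLinearMap) (by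
      rw [LinearMap.det_toMatrix']; exact LinearEquiv.isUnit_det' T)
    refine ⟨S, ?_⟩
    ext i j
    have hev := hT (Pi.single i 1) (Pi.single j 1)
    have hmul : ∀ v, (S : Matrix (Fin 4) (Fin 4) F) *ᵥ v = T v := fun v => LinearMap.toMatrix'_mulVec T.toLinearMap v
    rw [Matrix.toBilin'_apply', Matrix.toBilin'_apply', ← hmul, ← hmul] at hev
    rw [Matrix.mulVec_mulVec, ← Matrix.vecMul_transpose, ← Matrix.dotProduct_mulVec, Matrix.mulVec_mulVec, ← mul_assoc] at hev
    simpa using hev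
  set Sm := (S : Matrix (Fin 4) (Fin 4) F)
  set Si := (S⁻¹ : GL (Fin 4) F).val
  have hSS : Si * Sm = 1 := Units.inv_mul S
  have hSS' : Sm * Si = 1 := Units.mul_inv S
  let e6 : Fin 3 × Fin 2 ≃ Fin 6 := finProdFinEquiv
  -- regroup the three factors
  let π : Fin 2 × Fin 6 → Fin 3 × Fin 4 := fun x => ((e6.symm x.2).1, e4 (x.1, (e6.symm x.2).2))
  let w : Fin 2 × Fin 6 → ι → F := fun x => ∑ k, Sm k (π x).2 • b ((π x).1, k)
  have hπ : Function.Bijective π := by
    refine (Fintype.bijective_iff_injective_and_card π).mpr ⟨fun x y h => ?_, by simp⟩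
    have h1 := congrArg Prod.fst h
    have h2 := e4.injective (congrArg Prod.snd h)
    exact Prod.ext (Prod.mk.inj h2).1 (e6.symm.injective (Prod.ext h1 (Prod.mk.inj h2).2))
  have hSinv : ∀ (j k : Fin 4), ∑ l, Si j l * Sm l k = if j = k then 1 else 0 := fun j k => by
    rw [← Matrix.mul_apply, hSS, Matrix.one_apply]
  have hli : LinearIndependent F w := by
    rw [Fintype.linearIndependent_iff]
    intro cc hcc x
    have h1 : ∀ p k, ∑ y, cc y * (if (π y).1 = p then Sm k (π y).2 else 0) = 0 := fun p k => by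
      have := congrArg (fun v => b.repr v (p, k)) hcc
      simp only [w, map_sum, map_smul, map_zero, Finsupp.finset_sum_apply, Finsupp.smul_apply, Finsupp.zero_apply,
        Module.Basis.repr_self, Finsupp.single_apply, smul_eq_mul, Prod.mk.injEq] at this
      refine Eq.trans (Finset.sum_congr rfl fun y _ => ?_) this
      by_cases hp : (π y).1 = p
      · simp [hp]
      · simp [hp]
    have h2 : ∑ k, Si (π x).2 k * ∑ y, cc y * (if (π y).1 = (π x).1 then Sm k (π y).2 else 0) = 0 :=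
      Finset.sum_eq_zero fun k _ => by rw [h1, mul_zero]
    simp only [Finset.mul_sum] at h2
    rw [Finset.sum_comm, Finset.sum_eq_single x (fun y _ hy => ?_) (by simp)] at h2
    · simp only [if_true] at h2
      calc cc x = cc x * ∑ k, Si (π x).2 k * Sm k (π x).2 := by rw [hSinv, if_pos rfl, mul_one]
        _ = 0 := by rw [Finset.mul_sum, ← h2]; exact Finset.sum_congr rfl fun k _ => by ring
    · by_cases hp : (π y).1 = (π x).1
      · simp only [if_pos hp]
        calc _ = cc y * ∑ k, Si (π x).2 k * Sm k (π y).2 := by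
              rw [Finset.mul_sum]; exact Finset.sum_congr rfl fun k _ => by ring
          _ = 0 := by
              rw [hSinv, if_neg fun h => hy (hπ.1 (Prod.ext hp h.symm)), mul_zero]
      · simp [hp]
  haveI : Nonempty (Fin 2 × Fin 6) := inferInstance
  let b2 : Basis (Fin 2 × Fin 6) F (ι → F) := basisOfLinearIndependentOfCardEqFinrank hli (by simp [hn])
  have hb2 : ∀ x, b2 x = w x := fun x => by simp [b2]
  set A2 := jTwo F
  set C2 := (A ⊗ₖ jTwo F).submatrix e6.symm e6.symm
  have hJd : (jTwo F).det = 1 := by simp [jTwo, Matrix.det_fin_two]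
  have hJs : ∀ i j, jTwo F i j = -jTwo F j i := by intro i j; fin_cases i <;> fin_cases j <;> simp [jTwo]
  have hJ0 : ∀ i, jTwo F i i = 0 := by intro i; fin_cases i <;> simp [jTwo]
  refine tensor_alt hQ hn hH (fun W hW => irred_of_irr hirr (W := W) hW) b2 hc (A := A2) (C := C2)
    (by rw [hJd]; exact isUnit_one)
    (by rw [Matrix.det_submatrix_equiv_self, Matrix.det_kronecker, hJd]; simpa using hAu.pow 2)
    hJs hJ0 (fun i j => ?_) (fun i => ?_) (fun x y => ?_) fun g hg => ?_
  · simp only [C2, Matrix.submatrix_apply, Matrix.kroneckerMap_apply]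
    rw [hJs (e6.symm i).2, show A (e6.symm i).1 (e6.symm j).1 = A (e6.symm j).1 (e6.symm i).1 from
      congrFun (congrFun hAs (e6.symm j).1) (e6.symm i).1]
    ring
  · simp only [C2, Matrix.submatrix_apply, Matrix.kroneckerMap_apply, hJ0, mul_zero]
  · rw [hb2, hb2]
    simp only [w, mf_sum_left, mf_sum_right, mf_smul_left, mf_smul_right, hf, RingEquiv.refl_apply]
    calc _ = c * A (π x).1 (π y).1 * (Smᵀ * C * Sm) (π x).2 (π y).2 := by
          simp only [A, C, Matrix.mul_apply, Matrix.transpose_apply, Finset.sum_mul, Finset.mul_sum]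
          exact Finset.sum_congr rfl fun k _ => Finset.sum_congr rfl fun l _ => by ring
      _ = _ := by
          rw [hS]
          simp only [K, π, C2, A2, Matrix.submatrix_apply, Matrix.kroneckerMap_apply, Equiv.symm_apply_apply]
          ring
  obtain ⟨c', a, a', hc', ha⟩ := hcoord g (Subgroup.mem_sup_left hg)
  set Am := (a : Matrix (Fin 3) (Fin 3) F)
  set Cm := (a' : Matrix (Fin 4) (Fin 4) F)
  have himg : ∀ p k, (g : Matrix ι ι F) *ᵥ b (p, k) = ∑ y : Fin 3 × Fin 4, (c' * (Am y.1 p * Cm y.2 k)) • b y := by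
    intro p k
    rw [image_basis b g (p, k), ha]
    rfl
  have hform : ∀ i j k l, c' * c' * ((Amᵀ * A * Am) i j * (Cmᵀ * C * Cm) k l) = A i j * C k l := by
    intro i j k l
    have e := form_iso Q (hI g hg) (b (i, k)) (b (j, l))
    rw [himg, himg, hf] at e
    simp only [mf_sum_left, mf_sum_right, mf_smul_left, mf_smul_right, hf, RingEquiv.refl_apply] at e
    refine mul_left_cancel₀ hc (Eq.trans ?_ e)
    simp only [A, C, Matrix.mul_apply, Matrix.transpose_apply, Fintype.sum_prod_type, Fin.sum_univ_three, Fin.sum_univ_four]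
    ring
  set MA := Amᵀ * A * Am
  set MC := Cmᵀ * C * Cm
  have hcc : c' * c' ≠ 0 := mul_ne_zero hc' hc'
  have hMC0 : MC k₀ l₀ ≠ 0 := fun h => by
    have := hform i₀ j₀ k₀ l₀
    rw [h] at this
    simp at this
    exact hkl (this.resolve_left hij)
  set α := C k₀ l₀ / (c' * c' * MC k₀ l₀) with hα
  have hMA : MA = α • A := by
    ext i j
    rw [Matrix.smul_apply, smul_eq_mul, hα, div_mul_eq_mul_div, eq_div_iff (mul_ne_zero hcc hMC0)]
    linear_combination hform i j k₀ l₀
  have hα0 : α ≠ 0 := div_ne_zero hkl (mul_ne_zero hcc hMC0)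
  set β := 1 / (c' * c' * α) with hβ
  have hβ0 : β ≠ 0 := one_div_ne_zero (mul_ne_zero hcc hα0)
  have hMC : MC = β • C := by
    ext k l
    have h := hform i₀ j₀ k l
    rw [hMA, Matrix.smul_apply, smul_eq_mul] at h
    rw [Matrix.smul_apply, smul_eq_mul, hβ, div_mul_eq_mul_div, one_mul, eq_div_iff (mul_ne_zero hcc hα0)]
    exact mul_left_cancel₀ hij (by linear_combination h)
  set g4 := Si * Cm * Sm
  have hg4 : g4ᵀ * K * g4 = β • K := by
    have hSiT : Siᵀ * Smᵀ = 1 := by rw [← Matrix.transpose_mul, hSS', Matrix.transpose_one]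
    calc g4ᵀ * K * g4 = Smᵀ * Cmᵀ * ((Siᵀ * Smᵀ) * C * (Sm * Si)) * Cm * Sm := by
          rw [← hS]; simp only [g4, Matrix.transpose_mul, mul_assoc]
      _ = Smᵀ * MC * Sm := by rw [hSiT, hSS']; simp only [MC, mul_assoc, one_mul, mul_one]
      _ = β • K := by rw [hMC, Matrix.mul_smul, Matrix.smul_mul, hS]
  have hdetA : Am.det ^ 2 = α ^ 3 := by
    have e := congrArg Matrix.det hMA
    rw [Matrix.det_mul, Matrix.det_mul, Matrix.det_transpose, Matrix.det_smul, Fintype.card_fin] at e
    exact mul_right_cancel₀ hAu.ne_zero (by linear_combination e)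
  have hdetC : Cm.det ^ 2 = β ^ 4 := by
    have e := congrArg Matrix.det hMC
    rw [Matrix.det_mul, Matrix.det_mul, Matrix.det_transpose, Matrix.det_smul, Fintype.card_fin] at e
    exact mul_right_cancel₀ hCu.ne_zero (by linear_combination e)
  have hdg : c' ^ 12 * (Am.det ^ 4 * Cm.det ^ 3) = 1 := by
    have e : (coordGL b g : Matrix (Fin 3 × Fin 4) (Fin 3 × Fin 4) F).det = (g : Matrix ι ι F).det := by
      have h1 : (coordGL b g : Matrix (Fin 3 × Fin 4) (Fin 3 × Fin 4) F) =
          LinearMap.toMatrix b b (gu g : Module.End F (ι → F)) := by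
        ext x y; rw [coordGL_apply, LinearMap.toMatrix_apply]
      rw [h1, LinearMap.det_toMatrix, show (gu g : Module.End F (ι → F)) = Matrix.toLin' (g : Matrix ι ι F) from
        LinearMap.ext fun v => (gu_apply g v).trans (Matrix.toLin'_apply _ _).symm, LinearMap.det_toLin']
    rw [det_omega (hH.1.le hg), ha, Matrix.det_smul, Matrix.det_kronecker, Fintype.card_prod, Fintype.card_fin,
      Fintype.card_fin] at e
    simpa using e
  have hCdet : Cm.det = β ^ 2 := by
    rcases sq_eq_sq_iff_eq_or_eq_neg.mp (show Cm.det ^ 2 = (β ^ 2) ^ 2 by rw [hdetC]; ring) with h | h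
    · exact h
    · exfalso
      refine h2 ?_
      have hcab : c' * c' * α * β = 1 := by rw [hβ]; field_simp
      rw [h, show Am.det ^ 4 = (Am.det ^ 2) ^ 2 by ring, hdetA] at hdg
      have h6 : c' ^ 12 * (α ^ 6 * β ^ 6) = 1 := by
        calc c' ^ 12 * (α ^ 6 * β ^ 6) = (c' * c' * α * β) ^ 6 := by ring
          _ = 1 := by rw [hcab, one_pow]
      linear_combination -hdg - h6
  obtain ⟨U, V, hUV⟩ := kron_of_similitude h2 (g := g4.submatrix e4 e4) hβ0 (by
      have hK' : (jTwo F ⊗ₖ jTwo F) = K.submatrix e4 e4 := by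
        ext x y; simp [K]
      rw [hK', Matrix.transpose_submatrix, Matrix.submatrix_mul_equiv, Matrix.submatrix_mul_equiv, hg4]
      rfl) (by
      rw [Matrix.det_submatrix_equiv_self]
      simp only [g4]
      rw [Matrix.det_mul, Matrix.det_mul, mul_right_comm, ← Matrix.det_mul, hSS, Matrix.det_one, one_mul, hCdet])
  have hg4u : IsUnit (g4.submatrix e4 e4).det := by
    rw [Matrix.det_submatrix_equiv_self]
    simp only [g4]
    rw [Matrix.det_mul, Matrix.det_mul, mul_right_comm, ← Matrix.det_mul, hSS, Matrix.det_one, one_mul, hCdet]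
    exact (pow_ne_zero 2 hβ0).isUnit
  rw [hUV, Matrix.det_kronecker] at hg4u
  have hUu : IsUnit U.det := (isUnit_pow_iff (by simp)).mp (IsUnit.mul_iff.mp hg4u).1
  have hVu : IsUnit V.det := (isUnit_pow_iff (by simp)).mp (IsUnit.mul_iff.mp hg4u).2
  have hM6 : IsUnit ((c' • (Am ⊗ₖ V)).submatrix e6.symm e6.symm).det := by
    rw [Matrix.det_submatrix_equiv_self, Matrix.det_smul, Matrix.det_kronecker]
    exact (hc'.isUnit.pow _).mul ((((Matrix.isUnit_iff_isUnit_det _).mp a.isUnit).pow _).mul (hVu.pow _))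
  refine ⟨Matrix.nonsingInvUnit U hUu, Matrix.nonsingInvUnit _ hM6, ?_⟩
  ext x y
  rw [coordGL_apply, gu_apply, hb2]
  have hy : (g : Matrix ι ι F) *ᵥ w y = ∑ z, (U z.1 y.1 * (c' * (Am (π z).1 (π y).1 * V (e6.symm z.2).2 (e6.symm y.2).2))) • b2 z := by
    have hcol : ∀ j' k, ∑ l, Cm k l * Sm l j' = ∑ j, Sm k j * g4 j j' := fun j' k => by
      rw [← Matrix.mul_apply, ← Matrix.mul_apply]
      congr 1
      simp only [g4, ← mul_assoc, hSS', one_mul]
    apply b.repr.injective
    ext q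
    simp only [hb2, w, Matrix.mulVec_sum, Matrix.mulVec_smul, himg, map_sum, map_smul, Finsupp.finset_sum_apply,
      Finsupp.smul_apply, Module.Basis.repr_self, Finsupp.single_apply, smul_eq_mul]
    obtain ⟨qp, qk⟩ := q
    simp only [Prod.mk.injEq, mul_ite, mul_one, mul_zero]
    calc _ = c' * Am qp (π y).1 * ∑ l, Cm qk l * Sm l (π y).2 := by
          rw [Finset.mul_sum]
          refine Finset.sum_congr rfl fun l _ => ?_
          rw [Finset.sum_eq_single (qp, qk)]
          · simp; ring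
          · intro z _ hz
            rw [if_neg fun h => hz h]
          · simp
      _ = c' * Am qp (π y).1 * ∑ j : Fin 2 × Fin 2, Sm qk (e4 j) * (U j.1 y.1 * V j.2 (e6.symm y.2).2) := by
          rw [hcol, ← e4.sum_comp]
          congr 1
          refine Finset.sum_congr rfl fun j _ => ?_
          have := congrFun (congrFun hUV j) (y.1, (e6.symm y.2).2)
          simp only [Matrix.submatrix_apply, Matrix.kroneckerMap_apply] at this
          rw [← this]
      _ = _ := by
          symm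
          rw [Fintype.sum_prod_type, Finset.mul_sum, Fintype.sum_prod_type]
          refine Finset.sum_congr rfl fun i _ => ?_
          rw [← e6.sum_comp, Fintype.sum_prod_type, Finset.sum_comm]
          refine Finset.sum_congr rfl fun j _ => ?_
          rw [Finset.sum_eq_single qp, Finset.sum_eq_single qk]
          · simp [π]; ring
          · intro k _ hk
            rw [if_neg fun h => hk h.2]
          · simp
          · intro p _ hp
            simp [π, hp]
          · simp
  rw [hy, b2.repr_sum_self]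
  show _ = U x.1 y.1 * ((c' • (Am ⊗ₖ V)).submatrix e6.symm e6.symm) x.2 y.2
  rw [Matrix.submatrix_apply, Matrix.smul_apply, Matrix.kroneckerMap_apply, smul_eq_mul]

end

end Cfsg.Agent.GeomClasses.OrthEven
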