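import Cfsg.Agent.GeomClasses.OrthEven.EightMinus
import Cfsg.Agent.GeomClasses.HalfParity
import Cfsg.Agent.GeomClasses.FrameRefinePlus
import Cfsg.Agent.Linear.OrthTypes

/-! # Tools for orthogonal groups of plus type -/

set_option autoImplicit false
set_option maxHeartbeats 600000

namespace Cfsg.Agent.GeomClasses.OrthEven

open Module Cfsg.Agent.Forms
open Matrix (GeneralLinearGroup)

variable {F : Type*} [Field F] [Fintype F] {ι : Type} [Fintype ι] [DecidableEq ι] {Q : QuadraticForm F (ι → F)}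

local notation "BQ" => QuadraticMap.polarBilin Q

/-- A totally singular half absorbs any totally singular subspace. -/
theorem exists_half_containing (hQ : (BQ).Nondegenerate) {U T : Submodule F (ι → F)}
    (hU : ∀ x ∈ U, Q x = 0) (hUd : 2 * finrank F U = Fintype.card ι) (hT : ∀ x ∈ T, Q x = 0) :
    ∃ R : Submodule F (ι → F), T ≤ R ∧ (∀ x ∈ R, Q x = 0) ∧ finrank F R = finrank F U := by
  have hI := isForm_quadratic Q hQ
  have hUp : perp BQ U = U := half_perp hQ hU (by rw [finrank_pi]; exact hUd)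
  refine ⟨(U ⊓ perp BQ T) ⊔ T, le_sup_right, fun x hx => ?_, ?_⟩
  · obtain ⟨a, ha, b, hb, rfl⟩ := Submodule.mem_sup.mp hx
    rw [QuadraticMap.map_add Q, hU a ha.1, hT b hb, QuadraticMap.polar_comm,
      show QuadraticMap.polar (⇑Q) b a = 0 from ha.2 b hb]
    simp
  · have hTp : T ≤ perp BQ T := fun y hy x hx => polar_ts hT hx hy
    have e1 : (U ⊓ perp BQ T) ⊓ T = U ⊓ T := by rw [inf_assoc, inf_eq_right.mpr hTp]
    have h1 := Submodule.finrank_sup_add_finrank_inf_eq (U ⊓ perp BQ T) T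
    have h2 := hI.finrank_perp (U ⊔ T)
    have h3 : perp BQ (U ⊔ T) = U ⊓ perp BQ T := by
      refine le_antisymm (fun v hv => Submodule.mem_inf.mpr ?_) fun v hv => ?_
      · exact ⟨by rw [← hUp]; exact fun x hx => hv x (Submodule.mem_sup_left hx),
          fun x hx => hv x (Submodule.mem_sup_right hx)⟩
      · intro x hx
        obtain ⟨a, ha, b, hb, rfl⟩ := Submodule.mem_sup.mp hx
        have h1 : QuadraticMap.polar (⇑Q) a v = 0 := polar_ts hU ha hv.1
        have h2 : QuadraticMap.polar (⇑Q) b v = 0 := hv.2 b hb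
        simp [QuadraticMap.polarBilin_apply_apply, QuadraticMap.polar_add_left, h1, h2]
    have h4 := Submodule.finrank_sup_add_finrank_inf_eq U T
    rw [e1] at h1
    rw [h3, finrank_pi] at h2
    omega

/-- The polar complement of a non-degenerate subspace with a singular half has one as well. -/
theorem plus_perp (hQ : (BQ).Nondegenerate) (hplus : Cfsg.Geo.IsPlusTypeOn (⇑Q) ⊤) {W : Submodule F (ι → F)}
    (hW : ∀ u ∈ W, (∀ v ∈ W, BQ u v = 0) → u = 0) (hWp : Cfsg.Geo.IsPlusTypeOn (⇑Q) W) :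
    Cfsg.Geo.IsPlusTypeOn (⇑Q) (perp BQ W) := by
  have hI := isForm_quadratic Q hQ
  obtain ⟨U, -, hU, hUd⟩ := hplus
  obtain ⟨T, hTW, hT, hTd⟩ := hWp
  rw [finrank_top, finrank_pi] at hUd
  obtain ⟨R, hTR, hR, hRd⟩ := exists_half_containing hQ hU hUd hT
  refine ⟨R ⊓ perp BQ W, inf_le_right, fun x hx => hR x hx.1, ?_⟩
  have hRT : R ≤ perp BQ T := fun y hy x hx => polar_ts hR (hTR hx) hy
  have hsum : R = T ⊔ (R ⊓ perp BQ W) := by
    refine le_antisymm (fun r hr => ?_) (sup_le hTR inf_le_left)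
    obtain ⟨a, ha, b, hb, rfl⟩ := Submodule.mem_sup.1
      (show r ∈ W ⊔ perp BQ W by rw [(hI.isCompl_perp hW).sup_eq_top]; trivial)
    -- the component in `W` lies in `T`
    have haT : a ∈ T := by
      have h1 : a ∈ W ⊓ perp BQ T := ⟨ha, fun x hx => by
        have h := hRT hr x hx
        have h' : BQ x b = 0 := hb x (hTW hx)
        rw [map_add, h', add_zero] at h
        exact h⟩
      have hd : finrank F ↥(W ⊓ perp BQ T) = finrank F T := by
        have e1 : W ⊓ perp BQ T = perp BQ (perp BQ W ⊔ T) := by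
          refine le_antisymm (fun v hv x hx => ?_) fun v hv =>
            ⟨by rw [← hI.perp_perp W]; exact fun x hx => hv x (Submodule.mem_sup_left hx),
              fun x hx => hv x (Submodule.mem_sup_right hx)⟩
          obtain ⟨a, ha, c, hc, rfl⟩ := Submodule.mem_sup.mp hx
          have e : BQ a v = 0 := hI.refl _ _ (ha v hv.1)
          rw [map_add, LinearMap.add_apply, e, hv.2 c hc, add_zero]
        have h2 := hI.finrank_perp (perp BQ W ⊔ T)
        have h3 := Submodule.finrank_sup_add_finrank_inf_eq (perp BQ W) T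
        have h4 : perp BQ W ⊓ T = ⊥ := le_bot_iff.mp
          ((inf_le_inf_left _ hTW).trans (by rw [inf_comm]; exact (hI.isCompl_perp hW).inf_eq_bot.le))
        have h5 := hI.finrank_perp W
        rw [h4, finrank_bot] at h3
        rw [e1]
        omega
      have heq : T = W ⊓ perp BQ T :=
        Submodule.eq_of_le_of_finrank_eq (le_inf hTW fun y hy x hx => polar_ts hT hx hy) hd.symm
      rw [heq]; exact h1
    refine Submodule.mem_sup.mpr ⟨a, haT, b, ⟨?_, hb⟩, rfl⟩
    simpa using sub_mem hr (hTR haT)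
  have h1 := Submodule.finrank_sup_add_finrank_inf_eq T (R ⊓ perp BQ W)
  have h2 : T ⊓ (R ⊓ perp BQ W) = ⊥ := le_bot_iff.mp
    ((inf_le_inf hTW inf_le_right).trans (hI.isCompl_perp hW).inf_eq_bot.le)
  have h3 := hI.finrank_perp W
  rw [← hsum, h2, finrank_bot] at h1
  rw [finrank_pi] at h3
  omega

/-- Complementary halves of a space of plus type are isometric. -/
theorem halves_isometric (hQ : (BQ).Nondegenerate) (hplus : Cfsg.Geo.IsPlusTypeOn (⇑Q) ⊤) {w : ℕ}
    (hn : Fintype.card ι = 4 * w) {W : Submodule F (ι → F)} (hWd : finrank F W = 2 * w)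
    (hW : ∀ u ∈ W, (∀ v ∈ W, BQ u v = 0) → u = 0) :
    Cfsg.Geo.AreIsometricFor (⇑Q) W (perp BQ W) := by
  have hI := isForm_quadratic Q hQ
  have hW'd : finrank F (perp BQ W) = 2 * w := by
    have := hI.finrank_perp W
    rw [finrank_pi] at this
    omega
  have hrest : ∀ X : Submodule F (ι → F), (∀ u ∈ X, (∀ v ∈ X, BQ u v = 0) → u = 0) →
      (QuadraticMap.polarBilin (Q.comp X.subtype)).Nondegenerate := fun X hX =>
    ⟨fun u hu => Subtype.ext (hX u u.2 fun v hv => by simpa [QuadraticMap.polar] using hu ⟨v, hv⟩),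
      fun u hu => Subtype.ext (hX u u.2 fun v hv => by
        have h := hu ⟨v, hv⟩
        simp only [QuadraticMap.polarBilin_apply_apply, QuadraticMap.polar, QuadraticMap.comp_apply] at h ⊢
        rw [add_comm] at h
        simp only [Submodule.subtype_apply, Submodule.coe_add] at h
        linear_combination h)⟩
  have hW' := hI.perp_nondeg hW
  have hI1 := hrest W hW
  have hI2 := hrest _ hW'
  have key : ∀ X : Submodule F (ι → F), finrank F X = 2 * w → Linear.OrthTypes.IsPlus (Q.comp X.subtype) w →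
      Cfsg.Geo.IsPlusTypeOn (⇑Q) X := by
    rintro X hX ⟨e, he⟩
    let L : (Fin w → F) →ₗ[F] (ι → F) := X.subtype ∘ₗ e.toLinearMap ∘ₗ
      { toFun := fun x => Sum.elim x 0
        map_add' := fun x y => by funext s; rcases s with s | s <;> simp
        map_smul' := fun c x => by funext s; rcases s with s | s <;> simp }
    refine ⟨LinearMap.range L, ?_, ?_, ?_⟩
    · rintro _ ⟨x, rfl⟩; exact Subtype.coe_prop _
    · rintro _ ⟨x, rfl⟩
      refine (he _).trans ?_
      simp [Cfsg.quadFormPlus]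
    · rw [LinearMap.finrank_range_of_inj, finrank_fin_fun, hX]
      intro x y h
      funext i
      exact congrFun (e.injective (Subtype.ext h)) (Sum.inl i)
  have plus_of : ∀ X : Submodule F (ι → F), finrank F X = 2 * w →
      (QuadraticMap.polarBilin (Q.comp X.subtype)).Nondegenerate → Cfsg.Geo.IsPlusTypeOn (⇑Q) X →
      Linear.OrthTypes.IsPlus (Q.comp X.subtype) w := by
    rintro X hX hnd ⟨T, hTX, hT, hTd⟩
    refine Linear.OrthTypes.isPlus_of_singular hnd hX (W := T.comap X.subtype) ?_ fun x hx => hT _ hx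
    rw [(Submodule.comapSubtypeEquivOfLe hTX).finrank_eq]
    omega
  rcases Linear.OrthTypes.classify hI1 hWd with h1 | ⟨hw, h1⟩
  · obtain ⟨e', he'⟩ := plus_of _ hW'd hI2 (plus_perp hQ hplus hW (key W hWd h1))
    obtain ⟨e, he⟩ := h1
    refine ⟨e.symm.trans e', fun x => ?_⟩
    exact (he' _).trans ((he _).symm.trans (by simp))
  · rcases Linear.OrthTypes.classify hI2 hW'd with h2 | ⟨-, h2⟩
    · exfalso
      have h3 := plus_perp hQ hplus hW' (key _ hW'd h2)
      rw [hI.perp_perp] at h3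
      obtain ⟨k, rfl⟩ : ∃ k, w = k + 1 := ⟨w - 1, by omega⟩
      exact Linear.OrthTypes.not_plus_and_minus rfl (plus_of _ hWd hI1 h3) h1
    · obtain ⟨a, b, hab, e, he⟩ := h1
      obtain ⟨a', b', hab', e', he'⟩ := h2
      obtain ⟨M, hM⟩ := KnownB.Proj.Orth.exists_plane_change (w - 1) hab' hab
      refine ⟨e.symm.trans (M.trans e'), fun x => ?_⟩
      exact (he' _).trans ((hM _).trans ((he _).symm.trans (by simp)))

/-- An element of `Ω` stabilising a singular hyperplane of a singular half stabilises the half. -/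
theorem half_stable (hQ : (BQ).Nondegenerate) (hn : 5 ≤ Fintype.card ι) {W R : Submodule F (ι → F)}
    (hR : ∀ x ∈ R, Q x = 0) (hRd : 2 * finrank F R = Fintype.card ι) (hWR : W ≤ R)
    (hWd : finrank F W + 1 = finrank F R) {g : GL ι F} (hgΩ : g ∈ Cfsg.Geo.omegaGL ⇑Q)
    (hgW : ∀ x ∈ W, (g : Matrix ι ι F).mulVec x ∈ W) : ∀ x ∈ R, (g : Matrix ι ι F).mulVec x ∈ R := by
  rw [omegaGL_eq_map] at hgΩ
  obtain ⟨h, hh, rfl⟩ := Subgroup.mem_map.mp hgΩ
  have hV : 5 ≤ finrank F (ι → F) := by rw [finrank_pi]; exact hn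
  have hRd' : 2 * finrank F R = finrank F (ι → F) := by rw [finrank_pi]; exact hRd
  set R' := R.map ((h : (ι → F) ≃ₗ[F] (ι → F)) : (ι → F) →ₗ[F] (ι → F))
  have hW' : W ≤ R ⊓ R' := by
    have hWmap : W.map ((h : (ι → F) ≃ₗ[F] (ι → F)) : (ι → F) →ₗ[F] (ι → F)) = W := by
      refine Submodule.eq_of_le_of_finrank_eq ?_ (LinearEquiv.finrank_map_eq _ _)
      rintro _ ⟨x, hx, rfl⟩
      have := hgW x hx
      rwa [orthToGL_mulVec] at this
    exact le_inf hWR (hWmap.symm.le.trans (Submodule.map_mono hWR))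
  have h1 := Submodule.finrank_mono hW'
  have h2 := Submodule.finrank_mono (inf_le_left : R ⊓ R' ≤ R)
  obtain ⟨j, hj⟩ : ∃ j, finrank F ↥(R ⊓ R') + j = finrank F R :=
    ⟨finrank F R - finrank F ↥(R ⊓ R'), by omega⟩
  have e := dickson_of_image hQ hV hR hRd' j h R' rfl hj
  rw [dickson_commutator hQ hV hh] at e
  have hj0 : j = 0 := by
    by_contra hne
    obtain rfl : j = 1 := by omega
    exact absurd e (by decide)
  have h3 : R ⊓ R' = R := Submodule.eq_of_le_of_finrank_eq inf_le_left (by omega)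
  have h4 : R = R' := Submodule.eq_of_le_of_finrank_eq (inf_eq_left.mp h3) (LinearEquiv.finrank_map_eq _ _).symm
  intro x hx
  rw [orthToGL_mulVec, h4]
  exact ⟨x, hx, rfl⟩

/-- `Ω` preserves no decomposition into at least four isometric orthogonal blocks. -/
theorem not_le_many (hQ : (BQ).Nondegenerate) (hn : 7 ≤ Fintype.card ι) {t k : ℕ}
    {D : Fin t → Submodule F (ι → F)} (hD : Cfsg.Geo.IsOrthogonalMDecomposition (⇑Q) k D) (ht : 4 ≤ t) :
    ¬ Cfsg.Geo.omegaGL ⇑Q ≤ Cfsg.Geo.decompositionStabilizer D := by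
  intro hle
  let s : Fin 4 → Fin t := fun i => ⟨i.1, by omega⟩
  have hs : ∀ i j, i ≠ j → s i ≠ s j := fun i j hij h => hij (by simpa [s, Fin.ext_iff] using h)
  have hort := fun i j hij => hD.decomp.orthogonal i j hij
  obtain ⟨x, hx, hx0⟩ := (Submodule.ne_bot_iff (D (s 3))).mp fun e => by
    have h1 := hD.decomp.decomp.finrank_eq (s 3)
    have h2 := hD.decomp.decomp.iSup_eq_top
    have hb : ∀ i, D i = ⊥ := fun i => Submodule.finrank_eq_zero.mp (by
      rw [hD.decomp.decomp.finrank_eq i, ← h1, e, finrank_bot])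
    have := congrArg (fun W : Submodule F (ι → F) => finrank F W) h2
    rw [iSup_eq_bot.mpr hb] at this
    simp at this
    omega
  obtain ⟨-, x', hx', hxx'⟩ := hD.decomp.nondegenerate (s 3) x hx hx0
  choose e he using hD.isometric
  -- isometric copies of `x` in the other blocks, with partners pairing with them as `x'` does with `x`
  let c : Fin t → (ι → F) := fun i => ((e (s 3) i ⟨x, hx⟩ : D i) : ι → F)
  let c' : Fin t → (ι → F) := fun i => ((e (s 3) i ⟨x', hx'⟩ : D i) : ι → F)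
  have hc : ∀ i, c i ∈ D i := fun i => Subtype.coe_prop _
  have hc' : ∀ i, c' i ∈ D i := fun i => Subtype.coe_prop _
  have hQc : ∀ i, Q (c i) = Q x := fun i => he _ _ _
  have hcc' : ∀ i, QuadraticMap.polar (⇑Q) (c i) (c' i) = QuadraticMap.polar (⇑Q) x x' := fun i => by
    have e1 : c i + c' i = ((e (s 3) i (⟨x, hx⟩ + ⟨x', hx'⟩) : D i) : ι → F) := by rw [map_add, Submodule.coe_add]
    have e2 := he (s 3) i (⟨x, hx⟩ + ⟨x', hx'⟩)
    have e3 := he (s 3) i ⟨x', hx'⟩
    rw [Submodule.coe_add] at e2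
    unfold QuadraticMap.polar
    rw [e1, hQc]
    show _ - Q x - Q ((e (s 3) i ⟨x', hx'⟩ : D i) : ι → F) = _
    rw [e2, e3]
  obtain ⟨a, b, hab⟩ := exists_sq_add_sq_eq (one_ne_zero (α := F)) one_ne_zero (-1)
  set u := a • c (s 0) + b • c (s 1) + c (s 2)
  have hQu : Q u = 0 := by
    have o01 := hort (s 0) (s 1) (hs 0 1 (by decide)) _ (hc _) _ (hc _)
    have o02 := hort (s 0) (s 2) (hs 0 2 (by decide)) _ (hc _) _ (hc _)
    have o12 := hort (s 1) (s 2) (hs 1 2 (by decide)) _ (hc _) _ (hc _)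
    simp only [u, QuadraticMap.map_add Q, QuadraticMap.map_smul, QuadraticMap.polar_add_left,
      QuadraticMap.polar_smul_left, QuadraticMap.polar_smul_right, o01, o02, o12, hQc, smul_eq_mul]
    linear_combination (Q x) * hab
  have hux : QuadraticMap.polar (⇑Q) u x = 0 := by
    simp [u, QuadraticMap.polar_add_left, QuadraticMap.polar_smul_left,
      hort (s 0) (s 3) (hs 0 3 (by decide)) _ (hc _) _ hx, hort (s 1) (s 3) (hs 1 3 (by decide)) _ (hc _) _ hx,
      hort (s 2) (s 3) (hs 2 3 (by decide)) _ (hc _) _ hx]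
  have hux' : QuadraticMap.polar (⇑Q) u x' = 0 := by
    simp [u, QuadraticMap.polar_add_left, QuadraticMap.polar_smul_left,
      hort (s 0) (s 3) (hs 0 3 (by decide)) _ (hc _) _ hx', hort (s 1) (s 3) (hs 1 3 (by decide)) _ (hc _) _ hx',
      hort (s 2) (s 3) (hs 2 3 (by decide)) _ (hc _) _ hx']
  obtain ⟨g, hg, hgy⟩ : ∃ g ∈ Cfsg.Geo.omegaGL ⇑Q,
      (g : Matrix ι ι F).mulVec x' = x' - QuadraticMap.polar (⇑Q) x x' • u := by
    obtain ⟨g, hg, hgm⟩ := FrameRefinePlus.exists_siegel Q hQ hn hQu hux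
    refine ⟨g, hg, (hgm x').trans ?_⟩
    rw [hux']
    simp
  obtain ⟨π, hπ⟩ := hle hg
  have hmem : x' - QuadraticMap.polar (⇑Q) x x' • u ∈ D (π (s 3)) := by
    rw [← hgy, ← hπ]; exact ⟨x', hx', Matrix.toLin'_apply _ _⟩
  -- pairings with two different blocks
  have hp2 : QuadraticMap.polar (⇑Q) (x' - QuadraticMap.polar (⇑Q) x x' • u) (c' (s 2)) ≠ 0 := by
    simp only [u, sub_eq_add_neg, ← neg_smul, QuadraticMap.polar_add_left, QuadraticMap.polar_smul_left,
      hort (s 3) (s 2) (hs 3 2 (by decide)) _ hx' _ (hc' _), hort (s 0) (s 2) (hs 0 2 (by decide)) _ (hc _) _ (hc' _),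
      hort (s 1) (s 2) (hs 1 2 (by decide)) _ (hc _) _ (hc' _), hcc', smul_eq_mul]
    simp [hxx']
  obtain ⟨i, hi, hpi⟩ : ∃ i, i ≠ (2 : Fin 4) ∧
      QuadraticMap.polar (⇑Q) (x' - QuadraticMap.polar (⇑Q) x x' • u) (c' (s i)) ≠ 0 := by
    by_cases ha : a = 0
    · have hb : b ≠ 0 := fun h => by rw [ha, h] at hab; simp at hab
      refine ⟨1, by decide, ?_⟩
      simp only [u, sub_eq_add_neg, ← neg_smul, QuadraticMap.polar_add_left, QuadraticMap.polar_smul_left,
        hort (s 3) (s 1) (hs 3 1 (by decide)) _ hx' _ (hc' _), hort (s 0) (s 1) (hs 0 1 (by decide)) _ (hc _) _ (hc' _),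
        hort (s 2) (s 1) (hs 2 1 (by decide)) _ (hc _) _ (hc' _), hcc', smul_eq_mul]
      simp [hxx', hb]
    · refine ⟨0, by decide, ?_⟩
      simp only [u, sub_eq_add_neg, ← neg_smul, QuadraticMap.polar_add_left, QuadraticMap.polar_smul_left,
        hort (s 3) (s 0) (hs 3 0 (by decide)) _ hx' _ (hc' _), hort (s 1) (s 0) (hs 1 0 (by decide)) _ (hc _) _ (hc' _),
        hort (s 2) (s 0) (hs 2 0 (by decide)) _ (hc _) _ (hc' _), hcc', smul_eq_mul]
      simp [hxx', ha]
  exact FrameRefinePlus.notMem_block Q hort (hs i 2 hi) (hc' _) (hc' _) hpi hp2 _ hmem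

end Cfsg.Agent.GeomClasses.OrthEven
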