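import Cfsg.Agent.GeomClasses.OrthEven.Tensor
import Cfsg.Agent.GeomClasses.Aschbacher.Rel.Subfield
import Cfsg.Agent.Forms.SympBasis
import Mathlib.FieldTheory.IsAlgClosed.AlgebraicClosure

/-! # Rational structures of quadratic forms -/

set_option autoImplicit false
set_option maxHeartbeats 400000

namespace Cfsg.Agent.GeomClasses.OrthEven

open Matrix Cfsg.Geo Module
open Cfsg.Agent.GeomClasses.AschRel

variable {F : Type*} [Field F] [Fintype F] {ι : Type} [Fintype ι] [DecidableEq ι] (Q : QuadraticForm F (ι → F))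

/-- A spanning group of isometries realised over a subfield gives a rational quadratic structure. -/
theorem quad_rational [Nontrivial ι] (hQ : (QuadraticMap.polarBilin Q).Nondegenerate) {X : Subgroup (GL ι F)}
    (hX : AschRel.Full X) (hfix : ∀ x ∈ X, ∀ v, Q ((x : Matrix ι ι F) *ᵥ v) = Q v) {F₁ : Subfield F} (P : GL ι F)
    (hP : ∀ x ∈ X, ∀ i j, ((P⁻¹ : GL ι F).val * (x : Matrix ι ι F) * (P : Matrix ι ι F)) i j ∈ F₁) :
    ∃ ζ : F, ζ ≠ 0 ∧ IsQuadFormRationalStructure (fun v : ι → F => ζ * Q v) F₁ P := by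
  classical
  haveI : Nonempty ι := inferInstance
  obtain ⟨c, B', hc, hB', -, he⟩ := form_rational hX (formData Q hQ).unit
    (fun x hx => matrix_eq_of_iso (form_iso Q (hfix x hx))) (F₁ := F₁) (fun a ha => ha) P hP
  set Pm := (P : Matrix ι ι F)
  have hpol : ∀ i j, c⁻¹ * QuadraticMap.polar (⇑Q) (Pm *ᵥ Pi.single i 1) (Pm *ᵥ Pi.single j 1) = B' i j := by
    intro i j
    rw [polar_eq_form Q, matForm_apply, he, matForm_single, Matrix.smul_apply, smul_eq_mul, ← mul_assoc,
      inv_mul_cancel₀ hc, one_mul]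
  refine ⟨c⁻¹, inv_ne_zero hc, ?_⟩
  let q : (ι → F) → F := fun u => c⁻¹ * Q (Pm *ᵥ u)
  set d : ι → F := fun i => q (Pi.single i 1) with hd
  have hsum : ∀ (u : ι → F), (∀ i, u i ∈ F₁) → ∀ s : Finset ι,
      q (∑ i ∈ s, u i • Pi.single i 1) - ∑ i ∈ s, u i ^ 2 * d i ∈ F₁ := by
    intro u hu s
    induction s using Finset.induction_on with
    | empty => simp [q, zero_mem]
    | insert a s ha ih =>
      rw [Finset.sum_insert ha, Finset.sum_insert ha]
      have hcross : c⁻¹ * QuadraticMap.polar (⇑Q) (Pm *ᵥ (u a • Pi.single a 1))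
          (Pm *ᵥ ∑ i ∈ s, u i • Pi.single i 1) ∈ F₁ := by
        have e : c⁻¹ * QuadraticMap.polar (⇑Q) (Pm *ᵥ (u a • Pi.single a 1))
            (Pm *ᵥ ∑ i ∈ s, u i • Pi.single i 1) = ∑ i ∈ s, u a * u i * B' a i := by
          rw [Matrix.mulVec_sum, polar_eq_form Q, mf_sum_right, Finset.mul_sum]
          refine Finset.sum_congr rfl fun i _ => ?_
          rw [Matrix.mulVec_smul, Matrix.mulVec_smul, mf_smul_left, mf_smul_right, RingEquiv.refl_apply, ← hpol,
            polar_eq_form Q]
          ring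
        rw [e]
        exact Subfield.sum_mem _ fun i _ => mul_mem (mul_mem (hu a) (hu i)) (hB' a i)
      have e : q (u a • Pi.single a 1 + ∑ i ∈ s, u i • Pi.single i 1) -
          (u a ^ 2 * d a + ∑ i ∈ s, u i ^ 2 * d i) =
          (q (∑ i ∈ s, u i • Pi.single i 1) - ∑ i ∈ s, u i ^ 2 * d i) +
          c⁻¹ * QuadraticMap.polar (⇑Q) (Pm *ᵥ (u a • Pi.single a 1)) (Pm *ᵥ ∑ i ∈ s, u i • Pi.single i 1) := by
        simp only [q, d, Matrix.mulVec_add, Matrix.mulVec_smul, QuadraticMap.map_add Q, QuadraticMap.map_smul,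
          smul_eq_mul]
        ring
      rw [e]
      exact add_mem ih hcross
  have heu : ∀ u : ι → F, ∑ i, u i • (Pi.single i (1 : F) : ι → F) = u := fun u => by
    funext k; simp [Finset.sum_apply, Pi.single_apply]
  suffices hdm : ∀ i, d i ∈ F₁ by
    intro u hu
    have h1 := hsum u hu Finset.univ
    rw [heu] at h1
    have h2 := add_mem h1 (Subfield.sum_mem F₁ (t := Finset.univ)
      fun i _ => mul_mem (pow_mem (hu i) 2) (hdm i))
    rw [sub_add_cancel] at h2
    exact h2
  by_cases h2 : (2 : F) = 0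
  swap
  · intro i
    have e : d i = B' i i * 2⁻¹ := by
      rw [← hpol, Forms.polar_self_two_mul]
      simp only [d, q, Pm]
      field_simp
    rw [e]
    exact mul_mem (hB' i i) (inv_mem (by rw [← one_add_one_eq_two]; exact add_mem (one_mem _) (one_mem _)))
  haveI : CharP F 2 := CharTwo.of_one_ne_zero_of_two_eq_zero one_ne_zero h2
  haveI : CharP F₁ 2 := CharP.subring' F 2 F₁.toSubring
  haveI : Fact (Nat.Prime 2) := ⟨Nat.prime_two⟩
  obtain ⟨k, -, hk⟩ := FiniteField.card F₁ 2
  set τ : F →+* F := iterateFrobenius F 2 k with hτ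
  have hτa : ∀ a : F, τ a = a ↔ a ∈ F₁ := fun a => by
    rw [mem_subfield_iff_pow, hτ, iterateFrobenius_def, Nat.card_eq_fintype_card, hk]
  set e : ι → F := fun i => τ (d i) - d i with hedef
  let D : (ι → F) → F := fun v => ∑ i, e i * ((P⁻¹ : GL ι F).val *ᵥ v) i ^ 2
  have hD := sq_form_zero (ι := ι) h2 (H := X) (fun W hW => hX.absIrred.1 W (by
      rintro _ ⟨x, hx, rfl⟩ _ ⟨w, hw, rfl⟩
      rw [Matrix.toLin'_apply]
      exact hW x hx w hw)) D
    (fun u v => by
      simp only [D, Matrix.mulVec_add, Pi.add_apply, ← Finset.sum_add_distrib]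
      refine Finset.sum_congr rfl fun i _ => ?_
      rw [add_sq]
      linear_combination (e i * (((P⁻¹ : GL ι F).val *ᵥ u) i * ((P⁻¹ : GL ι F).val *ᵥ v) i)) * h2)
    (fun a v => by
      simp only [D, Matrix.mulVec_smul, Pi.smul_apply, smul_eq_mul, Finset.mul_sum]
      exact Finset.sum_congr rfl fun i _ => by ring) ?_
  · intro i
    have h := hD (Pm *ᵥ Pi.single i 1)
    simp only [D, Pm, Matrix.mulVec_mulVec, Units.inv_mul, Matrix.one_mulVec] at h
    rw [Finset.sum_eq_single i (fun j _ hj => by simp [Pi.single_eq_of_ne hj]) (by simp), Pi.single_eq_same,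
      one_pow, mul_one] at h
    exact (hτa _).mp (sub_eq_zero.mp h)
  intro x hx v
  set y := (P⁻¹ : GL ι F).val * (x : Matrix ι ι F) * Pm with hy
  have hye : ∀ i j, y i j ∈ F₁ := hP x hx
  have hcol : ∀ j, ∑ i, e i * y i j ^ 2 = e j := by
    intro j
    have hq : q (fun i => y i j) = d j := by
      simp only [q, d]
      congr 1
      have : Pm *ᵥ (fun i => y i j) = (x : Matrix ι ι F) *ᵥ (Pm *ᵥ Pi.single j 1) := by
        rw [Matrix.mulVec_mulVec, show (fun i => y i j) = y *ᵥ Pi.single j 1 from funext fun i => by simp,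
          Matrix.mulVec_mulVec]
        simp only [hy, Pm, ← mul_assoc, Units.mul_inv, one_mul]
      rw [this, hfix x hx]
    have h1 := hsum (fun i => y i j) (fun i => hye i j) Finset.univ
    rw [heu, hq] at h1
    have h3 := (hτa _).mpr h1
    simp only [map_sub, map_sum, map_mul, map_pow, fun i => (hτa _).mpr (hye i j)] at h3
    simp only [e, sub_mul, Finset.sum_sub_distrib]
    have e4 : ∀ (f : ι → F), ∑ i, f i * y i j ^ 2 = ∑ i, y i j ^ 2 * f i := fun f =>
      Finset.sum_congr rfl fun i _ => mul_comm _ _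
    rw [e4, e4]
    linear_combination -h3
  have hmv : (P⁻¹ : GL ι F).val *ᵥ ((x : Matrix ι ι F) *ᵥ v) = y *ᵥ ((P⁻¹ : GL ι F).val *ᵥ v) := by
    rw [Matrix.mulVec_mulVec, Matrix.mulVec_mulVec]
    simp only [hy, Pm, mul_assoc, Units.mul_inv, mul_one]
  simp only [D, hmv]
  set w := (P⁻¹ : GL ι F).val *ᵥ v
  calc ∑ i, e i * (y *ᵥ w) i ^ 2 = ∑ i, ∑ j, e i * (y i j ^ 2 * w j ^ 2) := by
        refine Finset.sum_congr rfl fun i _ => ?_
        rw [← Finset.mul_sum, Matrix.mulVec, dotProduct, CharTwo.sum_sq]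
        exact congrArg _ (Finset.sum_congr rfl fun j _ => mul_pow _ _ _)
    _ = ∑ j, (∑ i, e i * y i j ^ 2) * w j ^ 2 := by
        rw [Finset.sum_comm]
        exact Finset.sum_congr rfl fun j _ => by
          rw [Finset.sum_mul]; exact Finset.sum_congr rfl fun i _ => by ring
    _ = _ := Finset.sum_congr rfl fun j _ => by rw [hcol]

/-- A quadratic polynomial over a subfield of index two has a root. -/
theorem exists_root_index_two [CharP F 2] {F₁ : Subfield F} (hcard : Fintype.card F = Nat.card F₁ ^ 2) {γ : F}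
    (hγ : γ ∈ F₁) : ∃ y : F, y ^ 2 + y = γ := by
  classical
  haveI : Fact (Nat.Prime 2) := ⟨Nat.prime_two⟩
  haveI := Fintype.ofFinite F₁
  haveI : CharP F₁ 2 := CharP.subring' F 2 F₁.toSubring
  obtain ⟨k, -, hk⟩ := FiniteField.card F₁ 2
  let A := AlgebraicClosure F
  haveI : CharP A 2 := charP_of_injective_algebraMap (algebraMap F A).injective 2
  obtain ⟨y, hy⟩ := IsAlgClosed.exists_root
    (Polynomial.X ^ 2 + Polynomial.X + Polynomial.C (algebraMap F A γ)) (by
      rw [show (Polynomial.X ^ 2 + Polynomial.X + Polynomial.C (algebraMap F A γ) : Polynomial A).degree = 2 by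
        compute_degree!]
      decide)
  have hy' : y ^ 2 + y = algebraMap F A γ := by
    simp only [Polynomial.IsRoot, Polynomial.eval_add, Polynomial.eval_pow, Polynomial.eval_X, Polynomial.eval_C] at hy
    exact (CharTwo.add_eq_zero).mp hy
  set τ : A →+* A := iterateFrobenius A 2 k
  have hτγ : τ (algebraMap F A γ) = algebraMap F A γ := by
    have := (mem_subfield_iff_pow F₁).mp hγ
    rw [Nat.card_eq_fintype_card, hk] at this
    rw [show τ (algebraMap F A γ) = (algebraMap F A γ) ^ (2 ^ (k : ℕ)) from iterateFrobenius_def .., ← map_pow, this]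
  set ε := τ y + y
  have hε : ε ^ 2 + ε = 0 := by
    have e := congrArg τ hy'
    rw [hτγ, map_add, map_pow, ← hy'] at e
    have h20 : (2 : A) = 0 := CharTwo.two_eq_zero
    simp only [ε]
    linear_combination e + (τ y * y + y ^ 2 + y) * h20
  have hτε : τ ε = ε := by
    have : ε * (ε + 1) = 0 := by linear_combination hε
    rcases mul_eq_zero.mp this with h | h
    · rw [h, map_zero]
    · rw [CharTwo.add_eq_zero.mp h, map_one]
  have hττ : τ (τ y) = y := by
    have e1 : τ y = ε + y := by simp only [ε]; rw [CharTwo.add_cancel_right]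
    rw [e1, map_add, hτε, e1, ← add_assoc, CharTwo.add_self_eq_zero, zero_add]
  have hpow : y ^ Fintype.card F = y := by
    rw [hcard, Nat.card_eq_fintype_card, hk, ← pow_mul, mul_two, pow_add, pow_mul]
    rw [← iterateFrobenius_def, ← iterateFrobenius_def]
    exact hττ
  obtain ⟨z, -, rfl⟩ := Finset.mem_image.mp (mem_of_pow_eq (S := Finset.univ.image (algebraMap F A))
    (Fintype.one_lt_card : 1 < Fintype.card F)
    (by rw [Finset.card_image_of_injective _ (algebraMap F A).injective]; rfl) (fun x hx => by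
      obtain ⟨w, -, rfl⟩ := Finset.mem_image.mp hx
      rw [← map_pow, FiniteField.pow_card]) hpow)
  exact ⟨z, (algebraMap F A).injective (by rw [map_add, map_pow, hy'])⟩

/-- In characteristic two a rational structure over a subfield of index two gives plus type. -/
theorem singular_of_index_two [CharP F 2] (hQ : (QuadraticMap.polarBilin Q).Nondegenerate) {m : ℕ}
    (hn : Fintype.card ι = 2 * m) {F₁ : Subfield F} (hcard : Fintype.card F = Nat.card F₁ ^ 2) (P : GL ι F)
    {ζ : F} (hζ : ζ ≠ 0) (hrat : IsQuadFormRationalStructure (fun v : ι → F => ζ * Q v) F₁ P) :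
    ∃ U : Submodule F (ι → F), IsTotallySingularQuad (⇑Q) U ∧ finrank F U = m := by
  classical
  have h20 : (2 : F) = 0 := CharTwo.two_eq_zero
  set Pm := (P : Matrix ι ι F)
  let Q' : QuadraticForm F (ι → F) := (ζ • Q).comp (Matrix.mulVecLin Pm)
  have hQ' : ∀ v, Q' v = ζ * Q (Pm *ᵥ v) := fun v => rfl
  have hratQ : ∀ u : ι → F, (∀ i, u i ∈ F₁) → Q' u ∈ F₁ := fun u hu => hrat u hu
  have hpQ : ∀ u v, QuadraticMap.polar (⇑Q') u v = ζ * QuadraticMap.polar (⇑Q) (Pm *ᵥ u) (Pm *ᵥ v) := fun u v => by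
    simp only [QuadraticMap.polar, hQ', Matrix.mulVec_add]; ring
  let inc : (ι → F₁) → (ι → F) := fun u i => (u i : F)
  have hent : ∀ u v : ι → F₁, QuadraticMap.polar (⇑Q') (inc u) (inc v) ∈ F₁ := fun u v =>
    sub_mem (sub_mem (hratQ _ fun i => add_mem (u i).2 (v i).2) (hratQ _ fun i => (u i).2)) (hratQ _ fun i => (v i).2)
  let B1 : LinearMap.BilinForm F₁ (ι → F₁) := LinearMap.mk₂ F₁ (fun u v => ⟨_, hent u v⟩)
    (fun a b v => Subtype.ext (QuadraticMap.polar_add_left Q' (inc a) (inc b) (inc v)))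
    (fun s a v => Subtype.ext (by
      show QuadraticMap.polar (⇑Q') (inc (s • a)) (inc v) = (s : F) * QuadraticMap.polar (⇑Q') (inc a) (inc v)
      rw [show inc (s • a) = (s : F) • inc a from rfl, QuadraticMap.polar_smul_left, smul_eq_mul]))
    (fun v a b => Subtype.ext (QuadraticMap.polar_add_right Q' (inc v) (inc a) (inc b)))
    (fun s v a => Subtype.ext (by
      show QuadraticMap.polar (⇑Q') (inc v) (inc (s • a)) = (s : F) * QuadraticMap.polar (⇑Q') (inc v) (inc a)
      rw [show inc (s • a) = (s : F) • inc a from rfl, QuadraticMap.polar_smul_right, smul_eq_mul]))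
  have hB1 : ∀ u v, ((B1 u v : F₁) : F) = QuadraticMap.polar (⇑Q') (inc u) (inc v) := fun u v => rfl
  have halt : B1.IsAlt := fun u => Subtype.ext (by
    rw [hB1, Forms.polar_self_two_mul, h20, zero_mul]; rfl)
  have hsingle : ∀ j, inc (Pi.single j 1) = (Pi.single j 1 : ι → F) := fun j => funext fun i => by
    by_cases h : i = j
    · subst h; simp [inc]
    · simp [inc, h]
  have hsep : ∀ u, (∀ v, B1 u v = 0) → u = 0 := by
    intro u hu
    by_contra h0
    have hne : Pm *ᵥ inc u ≠ 0 := fun h => h0 (by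
      have := congrArg ((P⁻¹ : GL ι F).val *ᵥ ·) h
      simp only [Pm, Matrix.mulVec_mulVec, Units.inv_mul, Matrix.one_mulVec, Matrix.mulVec_zero] at this
      funext i
      exact Subtype.ext (congrFun this i))
    apply hne
    refine hQ.1 _ fun z => ?_
    rw [QuadraticMap.polarBilin_apply_apply]
    have hz : z = Pm *ᵥ ∑ j, ((P⁻¹ : GL ι F).val *ᵥ z) j • (Pi.single j 1 : ι → F) := by
      rw [show (∑ j, ((P⁻¹ : GL ι F).val *ᵥ z) j • (Pi.single j 1 : ι → F)) = (P⁻¹ : GL ι F).val *ᵥ z from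
        funext fun k => by simp [Finset.sum_apply, Pi.single_apply]]
      simp only [Pm, Matrix.mulVec_mulVec, Units.mul_inv, Matrix.one_mulVec]
    rw [hz, Matrix.mulVec_sum, polar_eq_form Q, mf_sum_right]
    refine Finset.sum_eq_zero fun j _ => ?_
    rw [Matrix.mulVec_smul, mf_smul_right, ← polar_eq_form Q]
    have := congrArg Subtype.val (hu (Pi.single j 1))
    rw [hB1, hsingle, hpQ] at this
    rw [(mul_eq_zero.mp this).resolve_left hζ, mul_zero]
  have hI := Forms.isForm_alt B1 ⟨fun u hu => hsep u hu, fun u hu => hsep u fun v => by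
    rw [← LinearMap.IsAlt.neg halt, hu v, neg_zero]⟩ halt
  obtain ⟨m', v, hm', hv⟩ := Forms.exists_symp_family hI
  obtain rfl : m = m' := by rw [finrank_pi] at hm'; omega
  have hplane : ∀ i : Fin m, ∃ a b : F, (a ≠ 0 ∨ b ≠ 0) ∧
      Q' (a • inc (v (Sum.inl i)) + b • inc (v (Sum.inr i))) = 0 := by
    intro i
    set u := inc (v (Sum.inl i))
    set w := inc (v (Sum.inr i))
    have huw : QuadraticMap.polar (⇑Q') u w = 1 := by rw [← hB1, hv.lr, if_pos rfl]; rfl
    have hexp : ∀ a b : F, Q' (a • u + b • w) = a * a * Q' u + b * b * Q' w + a * b := fun a b => by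
      rw [QuadraticMap.map_add Q', QuadraticMap.map_smul, QuadraticMap.map_smul, QuadraticMap.polar_smul_left,
        QuadraticMap.polar_smul_right, huw]
      simp [smul_eq_mul]
    by_cases hu : Q' u = 0
    · exact ⟨1, 0, Or.inl one_ne_zero, by rw [hexp, hu]; ring⟩
    obtain ⟨z, hz⟩ := exists_root_index_two hcard
      (mul_mem (hratQ u fun k => (v (Sum.inl i) k).2) (hratQ w fun k => (v (Sum.inr i) k).2))
    refine ⟨z / Q' u, 1, Or.inr one_ne_zero, ?_⟩
    rw [hexp]
    have e : z / Q' u * (z / Q' u) * Q' u + 1 * 1 * Q' w + z / Q' u * 1 = (z ^ 2 + z + Q' u * Q' w) / Q' u := by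
      field_simp
      ring
    rw [e, hz, CharTwo.add_self_eq_zero, zero_div]
  choose a b hab hQab using hplane
  let zv : Fin m → ι → F := fun i => a i • inc (v (Sum.inl i)) + b i • inc (v (Sum.inr i))
  have hll : ∀ i j, QuadraticMap.polar (⇑Q') (inc (v (Sum.inl i))) (inc (v (Sum.inl j))) = 0 := fun i j => by
    rw [← hB1, hv.ll]; rfl
  have hrr : ∀ i j, QuadraticMap.polar (⇑Q') (inc (v (Sum.inr i))) (inc (v (Sum.inr j))) = 0 := fun i j => by
    rw [← hB1, hv.rr]; rfl
  have hlr : ∀ i j, QuadraticMap.polar (⇑Q') (inc (v (Sum.inl i))) (inc (v (Sum.inr j))) = if i = j then 1 else 0 :=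
    fun i j => by rw [← hB1, hv.lr]; split_ifs <;> rfl
  have hrl : ∀ i j, QuadraticMap.polar (⇑Q') (inc (v (Sum.inr i))) (inc (v (Sum.inl j))) = if j = i then 1 else 0 :=
    fun i j => by rw [QuadraticMap.polar_comm, hlr]
  have hpz : ∀ i j, QuadraticMap.polar (⇑Q') (zv i) (zv j) = 0 := by
    intro i j
    simp only [zv, QuadraticMap.polar_add_left, QuadraticMap.polar_add_right, QuadraticMap.polar_smul_left,
      QuadraticMap.polar_smul_right, hll, hrr, hlr, hrl, smul_eq_mul]
    by_cases hij : i = j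
    · subst hij; simp only [if_true, mul_zero, mul_one]; linear_combination (a i * b i) * h20
    · simp [hij, Ne.symm hij]
  have hli : LinearIndependent F zv := by
    rw [Fintype.linearIndependent_iff]
    intro cc hcc j
    rcases hab j with h | h
    · have := congrArg (fun z => QuadraticMap.polarBilin Q' z (inc (v (Sum.inr j)))) hcc
      simp [zv, map_sum, QuadraticMap.polar_add_left, QuadraticMap.polar_smul_left, hlr, hrr] at this
      exact this.resolve_right h
    · have := congrArg (fun z => QuadraticMap.polarBilin Q' z (inc (v (Sum.inl j)))) hcc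
      simp [zv, map_sum, QuadraticMap.polar_add_left, QuadraticMap.polar_smul_left, hrl, hll] at this
      exact this.resolve_right h
  have hli' : LinearIndependent F fun i => Pm *ᵥ zv i := by
    refine hli.map' (Matrix.mulVecLin Pm) (LinearMap.ker_eq_bot.mpr fun x y hxy => ?_)
    have := congrArg ((P⁻¹ : GL ι F).val *ᵥ ·) hxy
    simpa [Pm, Matrix.mulVec_mulVec] using this
  obtain ⟨U, hU, hUd⟩ := singular_span Q hli' (fun i => by
      have := hQab i
      rw [hQ'] at this
      exact (mul_eq_zero.mp this).resolve_left hζ) fun i j => by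
    have := hpz i j
    rw [hpQ] at this
    exact (mul_eq_zero.mp this).resolve_left hζ
  exact ⟨U, hU, by rw [hUd, Fintype.card_fin]⟩

end Cfsg.Agent.GeomClasses.OrthEven
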