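import Cfsg.Agent.GeomClasses.OrthEven.Basic
import Cfsg.Agent.GeomClasses.Aschbacher.Rel.SpTensor

/-! # Tensor factors in characteristic two -/

set_option autoImplicit false
set_option maxHeartbeats 400000

namespace Cfsg.Agent.GeomClasses.OrthEven

open Matrix Cfsg.Geo
open scoped Kronecker
open Cfsg.Agent.GeomClasses.AschRel
open Cfsg.Agent.GeomClasses.Asch (Irr)

variable {F : Type*} [Field F] [Fintype F] {ι : Type} [Fintype ι] [DecidableEq ι] {B : Matrix ι ι F}

local notation "fB" => matForm (RingEquiv.refl F) B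

/-- A factor with a non-alternating symmetric form gives an invariant subspace in characteristic two. -/
theorem factor_hyperplane {K : Subgroup (GL ι F)} (hK : ∀ g ∈ K, IsSim (RingEquiv.refl F) B g)
    (hirr : Irr ((fun g : (Module.End F (ι → F))ˣ => (g : Module.End F (ι → F))) '' (gu '' (K : Set _))))
    (h20 : (2 : F) = 0) {d e : ℕ} (he : 2 ≤ e) (b : Module.Basis (Fin d × Fin e) F (ι → F)) {c : F} (hc : c ≠ 0)
    (GA : Matrix (Fin d) (Fin d) F) (GC : GL (Fin e) F) (hGA : ∃ i j, GA i j ≠ 0)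
    (hsymm : ∀ i j, (GC : Matrix (Fin e) (Fin e) F) i j = (GC : Matrix (Fin e) (Fin e) F) j i)
    (hdiag : ∃ i, (GC : Matrix (Fin e) (Fin e) F) i i ≠ 0)
    (hf : ∀ x y, fB (b x) (b y) = c * (GA x.1 y.1 * (GC : Matrix (Fin e) (Fin e) F) x.2 y.2))
    (hcoord : ∀ g ∈ K, ∃ (c' : F) (a : GL (Fin d) F) (a' : GL (Fin e) F), c' ≠ 0 ∧
      (coordGL b g : Matrix (Fin d × Fin e) (Fin d × Fin e) F) =
        c' • ((a : Matrix (Fin d) (Fin d) F) ⊗ₖ (a' : Matrix (Fin e) (Fin e) F))) : False := by
  classical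
  set G := (GC : Matrix (Fin e) (Fin e) F)
  let q : (Fin e → F) → F := fun v => v ⬝ᵥ (G *ᵥ v)
  have hqadd : ∀ u v, q (u + v) = q u + q v := by
    intro u v
    simp only [q, Matrix.mulVec_add, add_dotProduct, dotProduct_add]
    have : u ⬝ᵥ (G *ᵥ v) = v ⬝ᵥ (G *ᵥ u) := by
      rw [Matrix.dotProduct_mulVec u, dotProduct_comm, ← Matrix.mulVec_transpose, show Gᵀ = G from Matrix.ext fun i j => hsymm j i]
    rw [this]
    linear_combination (v ⬝ᵥ (G *ᵥ u)) * h20
  have hqsm : ∀ (s : F) v, q (s • v) = s * s * q v := fun s v => by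
    simp only [q, Matrix.mulVec_smul, smul_dotProduct, dotProduct_smul, smul_eq_mul]; ring
  let Wc : Submodule F (Fin e → F) :=
    { carrier := {v | q v = 0}
      add_mem' := fun {u v} hu hv => by
        show q (u + v) = 0
        rw [hqadd, show q u = 0 from hu, show q v = 0 from hv, add_zero]
      zero_mem' := by simp [q]
      smul_mem' := fun s v hv => by
        show q (s • v) = 0
        rw [hqsm, show q v = 0 from hv, mul_zero] }
  let col : Fin d → ((ι → F) →ₗ[F] (Fin e → F)) := fun i =>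
    { toFun := fun v k => b.repr v (i, k)
      map_add' := fun u v => by funext k; simp
      map_smul' := fun s v => by funext k; simp }
  let W : Submodule F (ι → F) := ⨅ i, Wc.comap (col i)
  have hinv : ∀ g ∈ K, ∀ w ∈ W, (g : Matrix ι ι F) *ᵥ w ∈ W := by
    intro g hg w hw
    obtain ⟨c', a, a', hc', hga⟩ := hcoord g hg
    obtain ⟨μ, -, hμ⟩ := hK g hg
    set A := (a : Matrix (Fin d) (Fin d) F)
    set A' := (a' : Matrix (Fin e) (Fin e) F)
    have hprod : ∀ (y y' : Fin d × Fin e), c' * c' * ((Aᵀ * GA * A) y.1 y'.1 * (A'ᵀ * G * A') y.2 y'.2) = μ * (GA y.1 y'.1 * G y.2 y'.2) := by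
      intro y y'
      refine mul_left_cancel₀ hc ?_
      have e1 := hμ (b y) (b y')
      rw [image_basis b g y, image_basis b g y', mf_sum_left] at e1
      simp only [mf_smul_left, mf_sum_right, mf_smul_right, hga, hf, RingEquiv.refl_apply, Matrix.smul_apply,
        smul_eq_mul, Finset.mul_sum] at e1
      have ek : (Aᵀ * GA * A) y.1 y'.1 * (A'ᵀ * G * A') y.2 y'.2 =
          ((A ⊗ₖ A')ᵀ * (GA ⊗ₖ G) * (A ⊗ₖ A') : Matrix (Fin d × Fin e) (Fin d × Fin e) F) y y' := by
        rw [← Matrix.kroneckerMap_transpose, ← Matrix.mul_kronecker_mul, ← Matrix.mul_kronecker_mul, Matrix.kroneckerMap_apply]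
      rw [ek]
      refine Eq.trans ?_ (e1.trans (by ring))
      simp only [Matrix.mul_apply, Matrix.transpose_apply, Finset.sum_mul, Finset.mul_sum]
      rw [Finset.sum_comm]
      refine Finset.sum_congr rfl fun x _ => Finset.sum_congr rfl fun x' _ => ?_
      simp only [Matrix.kroneckerMap_apply]
      ring
    obtain ⟨i₀, j₀, hij⟩ := hGA
    obtain ⟨ν, hν⟩ : ∃ ν, A'ᵀ * G * A' = ν • G := by
      by_cases h0 : c' * c' * (Aᵀ * GA * A) i₀ j₀ = 0
      · exfalso
        obtain ⟨k, hk⟩ := hdiag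
        have := hprod (i₀, k) (j₀, k)
        simp only [← mul_assoc] at this
        rw [h0, zero_mul] at this
        rcases mul_eq_zero.mp this.symm with h | h
        · have hμ0 : μ = 0 := by simpa [hij] using h
          obtain ⟨μ', hμ', hg'⟩ := hK g hg
          obtain ⟨u, v, huv⟩ : ∃ u v, fB u v ≠ 0 := ⟨b (i₀, k), b (j₀, k), by rw [hf]; exact mul_ne_zero hc (mul_ne_zero hij hk)⟩
          have h1 := hμ u v
          have h2 := hg' u v
          rw [hμ0, zero_mul, h2] at h1
          exact mul_ne_zero hμ' huv h1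
        · exact hk h
      · refine ⟨μ * GA i₀ j₀ / (c' * c' * (Aᵀ * GA * A) i₀ j₀), Matrix.ext fun k l => ?_⟩
        rw [Matrix.smul_apply, smul_eq_mul, div_mul_eq_mul_div, eq_div_iff h0]
        linear_combination hprod (i₀, k) (j₀, l)
    have hWc : ∀ v ∈ Wc, A' *ᵥ v ∈ Wc := by
      intro v hv
      show q (A' *ᵥ v) = 0
      simp only [q]
      rw [Matrix.mulVec_mulVec, ← Matrix.vecMul_transpose, ← Matrix.dotProduct_mulVec, Matrix.mulVec_mulVec, ← mul_assoc, hν,
        Matrix.smul_mulVec, dotProduct_smul, show v ⬝ᵥ (G *ᵥ v) = 0 from hv, smul_zero]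
    simp only [W, Submodule.mem_iInf, Submodule.mem_comap] at hw ⊢
    intro i
    have e : col i ((g : Matrix ι ι F) *ᵥ w) = ∑ j, (c' * A i j) • (A' *ᵥ col j w) := by
      funext k
      show b.repr ((g : Matrix ι ι F) *ᵥ w) (i, k) = _
      rw [image_coord, hga, Fintype.sum_prod_type, Finset.sum_apply]
      refine Finset.sum_congr rfl fun j _ => ?_
      rw [Pi.smul_apply, smul_eq_mul]
      show _ = c' * A i j * ∑ l, A' k l * b.repr w (j, l)
      rw [Finset.mul_sum]
      refine Finset.sum_congr rfl fun l _ => ?_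
      simp only [Matrix.smul_apply, Matrix.kroneckerMap_apply, smul_eq_mul, A, A']
      ring
    rw [e]
    exact Submodule.sum_mem _ fun j _ => Submodule.smul_mem _ _ (hWc _ (hw j))
  have hq1 : ∀ k, q (Pi.single k 1) = G k k := fun k => by simp [q]
  have hd : 0 < d := by obtain ⟨i, -⟩ := hGA; exact i.pos
  let i₁ : Fin d := ⟨0, hd⟩
  rcases hirr W (by
    rintro _ ⟨_, ⟨g, hg, rfl⟩, rfl⟩ w hw
    show (gu g : Module.End F (ι → F)) w ∈ W
    rw [gu_apply]; exact hinv g hg w hw) with h | h
  · obtain ⟨v, hv, hv0⟩ : ∃ v ∈ Wc, v ≠ 0 := by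
      obtain ⟨k, hk⟩ := hdiag
      obtain ⟨l, hl⟩ : ∃ l : Fin e, l ≠ k := by
        haveI : Nontrivial (Fin e) := Fin.nontrivial_iff_two_le.mpr he
        exact exists_ne k
      have hc2 : ringChar F = 2 := by
        haveI : CharP F 2 := (CharP.charP_iff_prime_eq_zero Nat.prime_two).mpr (by exact_mod_cast h20)
        exact ringChar.eq F 2
      obtain ⟨s, hs⟩ := FiniteField.isSquare_of_char_two hc2 (G l l / G k k)
      refine ⟨s • Pi.single k 1 + Pi.single l 1, ?_, fun h0 => ?_⟩
      · show q _ = 0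
        rw [hqadd, hqsm, hq1, hq1, ← hs, div_mul_cancel₀ _ hk]
        linear_combination (G l l) * h20
      · have := congrFun h0 l
        simp [hl] at this
    let z : ι → F := ∑ k, v k • b (i₁, k)
    have hz : z ∈ W := by
      simp only [W, Submodule.mem_iInf, Submodule.mem_comap]
      intro i
      by_cases hi : i = i₁
      · subst hi
        have : col i₁ z = v := by funext k; simp [col, z, Finsupp.single_apply, Prod.ext_iff]
        rw [this]; exact hv
      · have : col i z = 0 := by funext k; simp [col, z, Finsupp.single_apply, Prod.ext_iff, Ne.symm hi]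
        rw [this]; exact zero_mem _
    rw [h, Submodule.mem_bot] at hz
    apply hv0
    funext k
    have := congrArg (fun y => b.repr y (i₁, k)) hz
    simpa [z, Finsupp.single_apply, Prod.ext_iff] using this
  · obtain ⟨k, hk⟩ := hdiag
    have hb : b (i₁, k) ∈ W := by rw [h]; trivial
    simp only [W, Submodule.mem_iInf, Submodule.mem_comap] at hb
    have hb1 : q (col i₁ (b (i₁, k))) = 0 := hb i₁
    rw [show col i₁ (b (i₁, k)) = Pi.single k 1 by
      funext l; simp [col, Finsupp.single_apply, Prod.ext_iff, Pi.single_apply, eq_comm], hq1] at hb1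
    exact hk hb1

/-- The quadratic form vanishes on a basis of pure tensors. -/
theorem pure_singular (Q : QuadraticForm F (ι → F)) [Nontrivial ι] (h20 : (2 : F) = 0) {H : Subgroup (GL ι F)}
    (hI : ∀ g ∈ H, ∀ v, Q ((g : Matrix ι ι F) *ᵥ v) = Q v)
    (hirr : ∀ W : Submodule F (ι → F), (∀ g ∈ H, ∀ w ∈ W, (g : Matrix ι ι F) *ᵥ w ∈ W) → W = ⊥ ∨ W = ⊤)
    {d : ℕ} {κ : Type} [Fintype κ] [DecidableEq κ] (b : Module.Basis (Fin d × κ) F (ι → F)) {c : F}
    {T : Fin d → Fin d → F} {S : κ → κ → F} (hT : ∀ a a', T a a' = T a' a) (hT0 : ∀ a, T a a = 0)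
    (hS : ∀ a a', S a a' = S a' a) (hS0 : ∀ a, S a a = 0)
    (hf : ∀ x y, matForm (RingEquiv.refl F) (polarGram Q) (b x) (b y) = c * (T x.1 y.1 * S x.2 y.2))
    (hpure : ∀ g ∈ H, ∀ y, ∃ (w₀ : Fin d → F) (w₁ : κ → F), ∀ x,
      (coordGL b g : Matrix (Fin d × κ) (Fin d × κ) F) x y = w₀ x.1 * w₁ x.2) : ∀ x, Q (b x) = 0 := by
  classical
  let W : Fin d × κ → Fin d × κ → F := fun x y =>
    if x.1 < y.1 then matForm (RingEquiv.refl F) (polarGram Q) (b x) (b y) else 0
  let Q₀ : (ι → F) → F := fun v => ∑ x, ∑ y, b.repr v x * b.repr v y * W x y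
  have hQsm : ∀ (a : F) v, Q₀ (a • v) = a ^ 2 * Q₀ v := fun a v => by
    simp only [Q₀, map_smul, Finsupp.smul_apply, smul_eq_mul, Finset.mul_sum]
    exact Finset.sum_congr rfl fun x _ => Finset.sum_congr rfl fun y _ => by ring
  have hpol : ∀ u v, QuadraticMap.polar Q₀ u v = QuadraticMap.polar (⇑Q) u v := by
    intro u v
    rw [polar_eq_form Q u v]
    conv_rhs => rw [← b.sum_repr u, ← b.sum_repr v, mf_sum_left]
    have e1 : QuadraticMap.polar Q₀ u v = (∑ x, ∑ y, b.repr u x * b.repr v y * W x y) +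
        ∑ x, ∑ y, b.repr v x * b.repr u y * W x y := by
      simp only [QuadraticMap.polar, Q₀, map_add, Finsupp.add_apply, ← Finset.sum_sub_distrib, ← Finset.sum_add_distrib]
      exact Finset.sum_congr rfl fun x _ => Finset.sum_congr rfl fun y _ => by ring
    rw [e1, Finset.sum_comm (f := fun x y => b.repr v x * b.repr u y * W x y), ← Finset.sum_add_distrib]
    refine Finset.sum_congr rfl fun x _ => ?_
    rw [← Finset.sum_add_distrib, mf_smul_left, mf_sum_right, Finset.mul_sum]
    refine Finset.sum_congr rfl fun y _ => ?_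
    rw [mf_smul_right, RingEquiv.refl_apply]
    simp only [W]
    rcases lt_trichotomy x.1 y.1 with h | h | h
    · rw [if_pos h, if_neg (not_lt.mpr h.le)]; ring
    · rw [if_neg (not_lt.mpr h.ge), if_neg (not_lt.mpr h.le), hf, h, hT0]; ring
    · rw [if_neg (not_lt.mpr h.le), if_pos h, hf, hf, hT y.1, hS y.2]; ring
  have hQ0 : ∀ y, Q₀ (b y) = 0 := by
    intro y
    refine Finset.sum_eq_zero fun x _ => Finset.sum_eq_zero fun x' _ => ?_
    simp only [W, Module.Basis.repr_self, Finsupp.single_apply]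
    split_ifs with h1 h2 h3 <;> simp
    subst h1 h2
    exact absurd h3 (lt_irrefl _)
  have hinv0 : ∀ g ∈ H, ∀ v, Q₀ ((g : Matrix ι ι F) *ᵥ v) = Q₀ v := by
    intro g hg
    have hQg : ∀ y, Q₀ ((g : Matrix ι ι F) *ᵥ b y) = 0 := by
      intro y
      obtain ⟨w₀, w₁, hw⟩ := hpure g hg y
      have hcoord : ∀ x, b.repr ((g : Matrix ι ι F) *ᵥ b y) x = w₀ x.1 * w₁ x.2 := fun x => by
        rw [← gu_apply, ← coordGL_apply]; exact hw x
      simp only [Q₀, hcoord, W, hf, Fintype.sum_prod_type]
      have hz : ∑ a : κ, ∑ a' : κ, w₁ a * w₁ a' * S a a' = 0 :=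
        sum_symm_zero h20 (fun a a' => by rw [hS]; ring) fun a => by rw [hS0, mul_zero]
      refine Finset.sum_eq_zero fun i _ => ?_
      rw [Finset.sum_comm]
      refine Finset.sum_eq_zero fun j _ => ?_
      by_cases hij : i < j
      · simp only [if_pos hij]
        calc ∑ a, ∑ a', w₀ i * w₁ a * (w₀ j * w₁ a') * (c * (T i j * S a a'))
            = (w₀ i * w₀ j * c * T i j) * ∑ a, ∑ a', w₁ a * w₁ a' * S a a' := by
              rw [Finset.mul_sum]
              refine Finset.sum_congr rfl fun a _ => ?_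
              rw [Finset.mul_sum]
              exact Finset.sum_congr rfl fun a' _ => by ring
          _ = 0 := by rw [hz, mul_zero]
      · simp [if_neg hij]
    intro v
    have hv : v ∈ Submodule.span F (Set.range b) := b.span_eq ▸ trivial
    induction hv using Submodule.span_induction with
    | mem x hx => obtain ⟨y, rfl⟩ := hx; rw [hQg, hQ0]
    | zero => simp
    | add u w _ _ hu hw =>
      have e1 := hpol ((g : Matrix ι ι F) *ᵥ u) ((g : Matrix ι ι F) *ᵥ w)
      have e2 := hpol u w
      rw [polar_eq_form, form_iso Q (hI g hg), ← polar_eq_form] at e1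
      simp only [QuadraticMap.polar, ← Matrix.mulVec_add] at e1 e2
      linear_combination e1 - e2 + hu + hw
    | smul a w _ hw => rw [Matrix.mulVec_smul, hQsm, hQsm, hw]
  have hD : ∀ v, Q v - Q₀ v = 0 := sq_form_zero h20 hirr (fun v => Q v - Q₀ v) (fun u v => by
      have e := hpol u v
      simp only [QuadraticMap.polar] at e
      linear_combination -e) (fun a v => by
      show Q (a • v) - Q₀ (a • v) = a ^ 2 * (Q v - Q₀ v)
      rw [hQsm, QuadraticMap.map_smul, smul_eq_mul]; ring)
    (fun g hg v => by show Q _ - Q₀ _ = Q v - Q₀ v; rw [hI g hg, hinv0 g hg])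
  intro x
  rw [sub_eq_zero.mp (hD (b x)), hQ0]

omit [Fintype F] in
/-- An orthogonal singular family spans a singular subspace. -/
theorem singular_span (Q : QuadraticForm F (ι → F)) {κ : Type*} [Fintype κ] {w : κ → ι → F}
    (hli : LinearIndependent F w) (hQw : ∀ i, Q (w i) = 0) (hpw : ∀ i j, QuadraticMap.polar (⇑Q) (w i) (w j) = 0) :
    ∃ U : Submodule F (ι → F), IsTotallySingularQuad (⇑Q) U ∧ Module.finrank F U = Fintype.card κ := by
  refine ⟨Submodule.span F (Set.range w), fun v hv => ?_, finrank_span_eq_card hli⟩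
  have hp : ∀ v ∈ Submodule.span F (Set.range w), ∀ i, QuadraticMap.polar (⇑Q) (w i) v = 0 := by
    intro v hv i
    induction hv using Submodule.span_induction with
    | mem x hx => obtain ⟨j, rfl⟩ := hx; exact hpw i j
    | zero => simp
    | add a b _ _ ha hb => rw [QuadraticMap.polar_add_right, ha, hb, add_zero]
    | smul a b _ hb => rw [QuadraticMap.polar_smul_right, hb, smul_zero]
  induction hv using Submodule.span_induction with
  | mem x hx => obtain ⟨j, rfl⟩ := hx; exact hQw j
  | zero => simp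
  | add a b ha hb iha ihb =>
    have hab : QuadraticMap.polar (⇑Q) a b = 0 := by
      clear iha
      induction ha using Submodule.span_induction with
      | mem x hx => obtain ⟨j, rfl⟩ := hx; exact hp b hb j
      | zero => simp
      | add x y _ _ hx hy => rw [QuadraticMap.polar_add_left, hx, hy, add_zero]
      | smul s x _ hx => rw [QuadraticMap.polar_smul_left, hx, smul_zero]
    rw [QuadraticMap.map_add Q a b, iha, ihb, hab, add_zero, add_zero]
  | smul a b _ hb => rw [QuadraticMap.map_smul, hb, smul_zero]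

end Cfsg.Agent.GeomClasses.OrthEven
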