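import Cfsg.Agent.GeomClasses.OrthEven.TwelveMinusParts

/-! # Maximal subgroups of the orthogonal group of minus type in dimension twelve -/

set_option autoImplicit false
set_option maxHeartbeats 600000

namespace Cfsg.Agent.GeomClasses.OrthEven

open Matrix Cfsg.Geo Module
open scoped commutatorElement Kronecker
open Cfsg.Agent.GeomClasses.AschRel
open Cfsg.Agent.GeomClasses.Asch (Irr Normalises conjHom conjHom_apply exists_inner)

variable {F : Type*} [Field F] [Fintype F] {ι : Type} [Fintype ι] [DecidableEq ι] {Q : QuadraticForm F (ι → F)}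

local notation "fQ" => matForm (RingEquiv.refl F) (polarGram Q)

/-- The tensor and field cases of the list. -/
def TwelveCases (Q : QuadraticForm F (ι → F)) (H : Subgroup (GL ι F)) : Prop :=
  (∃ D : Fin 3 → Submodule F (ι → F), IsOrthogonalMDecomposition (⇑Q) 4 D ∧
    (∀ i, ¬ IsPlusTypeOn (⇑Q) (D i)) ∧ H = decompositionStabilizer D ⊓ omegaGL ⇑Q) ∨
  (∃ K : Subalgebra F (Matrix ι ι F), IsFieldSubalgebra 2 K ∧ H = subalgebraNormalizer K ⊓ omegaGL ⇑Q) ∨
  (∃ K : Subalgebra F (Matrix ι ι F), IsFieldSubalgebra 3 K ∧ H = subalgebraNormalizer K ⊓ omegaGL ⇑Q) ∨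
  (Odd (Fintype.card F) ∧ 5 ≤ Fintype.card F ∧ ∃ (e : ι ≃ Fin 3 × Fin 4) (P : GL ι F)
    (f₁ : (Fin 3 → F) → (Fin 3 → F) → F) (f₂ : (Fin 4 → F) → (Fin 4 → F) → F),
    IsSymmetricForm f₁ ∧ IsSymmetricForm f₂ ∧ ¬ IsPlusTypeOn (fun v : Fin 4 → F => f₂ v v) ⊤ ∧
    IsTensorFormStructure id (QuadraticMap.polar ⇑Q) f₁ f₂ e P ∧ H = tensorProductSubgroup 3 4 e P ⊓ omegaGL ⇑Q)

/-- A monomial orthogonal factor over three elements gives a normalised commutative algebra. -/
theorem three_comm (h3 : Fintype.card F = 3) {H : Subgroup (GL ι F)} [Nonempty ι]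
    (hB : FormData (RingEquiv.refl F) (polarGram Q) 1)
    (hsim : ∀ g ∈ H ⊔ scalars ι F, IsSim (RingEquiv.refl F) (polarGram Q) g)
    (φ : Matrix (Fin 3) (Fin 3) F →ₐ[F] Module.End F (ι → F))
    (hA : ∀ g ∈ H ⊔ scalars ι F, ∀ X, (gu g : Module.End F (ι → F)) * φ X * ((gu g)⁻¹).val ∈ Set.range φ)
    (hst : ∀ X, st (RingEquiv.refl F) (polarGram Q) (φ X) = φ Xᵀ) :
    ∃ E : Subalgebra F (Module.End F (ι → F)), (∀ x ∈ E, ∀ y ∈ E, x * y = y * x) ∧
      (∀ g ∈ H ⊔ scalars ι F, Normalises E (gu g)) ∧ (∀ x ∈ E, st (RingEquiv.refl F) (polarGram Q) x ∈ E) ∧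
      ∃ x ∈ E, ∀ c : F, x ≠ algebraMap F _ c := by
  classical
  have hinj : Function.Injective φ := RingHom.injective φ.toRingHom
  let E : Subalgebra F (Module.End F (ι → F)) := (φ.comp (Matrix.diagonalAlgHom F)).range
  have hmem : ∀ x, x ∈ E ↔ ∃ d : Fin 3 → F, φ (Matrix.diagonal d) = x := fun x => Iff.rfl
  have hpm : ∀ x : F, x ≠ 0 → x * x = 1 := fun x hx => by
    have := FiniteField.pow_card_sub_one_eq_one x hx
    rw [h3] at this
    rw [← pow_two]; exact this
  have h30 : (3 : F) = 0 := by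
    have := Nat.cast_card_eq_zero F
    rw [h3] at this; exact_mod_cast this
  have hfwd : ∀ g ∈ H ⊔ scalars ι F, ∀ x ∈ E, conjHom (gu g) x ∈ E := by
    intro g hg x hx
    obtain ⟨d, rfl⟩ := (hmem x).mp hx
    choose α hα using fun X => hA g hg X
    let β : Matrix (Fin 3) (Fin 3) F →ₐ[F] Matrix (Fin 3) (Fin 3) F :=
      { toFun := α
        map_one' := hinj (by rw [hα, map_one, mul_one, Units.mul_inv])
        map_mul' := fun X Y => hinj (by
          rw [map_mul, hα, hα, hα, map_mul]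
          simp only [mul_assoc, Units.inv_mul_cancel_left])
        map_zero' := hinj (by rw [hα, map_zero, mul_zero, zero_mul])
        map_add' := fun X Y => hinj (by rw [map_add, hα, hα, hα, map_add, mul_add, add_mul])
        commutes' := fun c => hinj (by
          rw [hα, AlgHom.commutes, ← Algebra.commutes, mul_assoc, Units.mul_inv, mul_one]) }
    have hβ : ∀ X, conjHom (gu g) (φ X) = φ (β X) := fun X => (hα X).symm
    have hβinj : Function.Injective β := RingHom.injective β.toRingHom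
    obtain ⟨a, ha⟩ := exists_inner (AlgEquiv.ofBijective β
      ⟨hβinj, LinearMap.injective_iff_surjective (f := β.toLinearMap) |>.mp hβinj⟩)
    have ha' : ∀ X, β X = (a : Matrix (Fin 3) (Fin 3) F) * X * (a⁻¹ : GL (Fin 3) F).val := fun X => ha X
    set A := (a : Matrix (Fin 3) (Fin 3) F)
    set A' := (a⁻¹ : GL (Fin 3) F).val
    have hAA : A' * A = 1 := Units.inv_mul a
    have hAA' : A * A' = 1 := Units.mul_inv a
    have hT : ∀ X, (A * X * A')ᵀ = A * Xᵀ * A' := fun X => by
      rw [← ha', ← ha']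
      apply hinj
      rw [← hst, ← hβ, ← hβ, ← hst]
      exact st_conj hB (hsim g hg) _
    have hcomm : ∀ X, (Aᵀ * A) * X = X * (Aᵀ * A) := fun X => by
      have e := hT Xᵀ
      rw [Matrix.transpose_transpose, Matrix.transpose_mul, Matrix.transpose_mul, Matrix.transpose_transpose] at e
      have e2 := congrArg (fun M => Aᵀ * M * A) e
      have hTT : Aᵀ * A'ᵀ = 1 := by rw [← Matrix.transpose_mul, hAA, Matrix.transpose_one]
      simp only [mul_assoc, hAA, mul_one] at e2
      rw [← mul_assoc Aᵀ A'ᵀ, hTT, one_mul] at e2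
      simpa [mul_assoc] using e2.symm
    obtain ⟨ν, hν⟩ := Matrix.mem_range_scalar_iff_commute_single'.mpr fun i j =>
      ((hcomm (Matrix.single i j 1)).symm : Commute (Matrix.single i j (1 : F)) (Aᵀ * A))
    rw [Matrix.scalar_apply, ← Matrix.smul_one_eq_diagonal] at hν
    have hν1 : ν = 1 := by
      have hd := congrArg Matrix.det hν
      rw [Matrix.det_smul, Matrix.det_one, mul_one, Fintype.card_fin, Matrix.det_mul, Matrix.det_transpose,
        hpm _ ((Matrix.isUnit_iff_isUnit_det _).mp a.isUnit).ne_zero] at hd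
      have hν0 : ν ≠ 0 := fun h => by rw [h] at hd; simp at hd
      rw [pow_succ, pow_two, hpm _ hν0, one_mul] at hd
      exact hd
    rw [hν1, one_smul] at hν
    have hcol : ∀ v, ∃ u, ∀ u', u' ≠ u → A u' v = 0 := by
      intro v
      have h1 := congrFun (congrFun hν.symm v) v
      simp only [Matrix.mul_apply, Matrix.transpose_apply, Fin.sum_univ_three, Matrix.one_apply_eq] at h1
      have hsq : ∀ u, A u v * A u v = 0 ∨ A u v * A u v = 1 := fun u => by
        by_cases h0 : A u v = 0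
        · exact Or.inl (by rw [h0, zero_mul])
        · exact Or.inr (hpm _ h0)
      have h10 : (1 : F) ≠ 0 := one_ne_zero
      rcases hsq 0 with p0 | p0 <;> rcases hsq 1 with p1 | p1 <;> rcases hsq 2 with p2 | p2 <;> rw [p0, p1, p2] at h1
      · exact absurd (by linear_combination -h1) h10
      · exact ⟨2, fun u' hu' => mul_self_eq_zero.mp (by fin_cases u' <;> first | exact p0 | exact p1 | exact absurd rfl hu')⟩
      · exact ⟨1, fun u' hu' => mul_self_eq_zero.mp (by fin_cases u' <;> first | exact p0 | exact p2 | exact absurd rfl hu')⟩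
      · exact absurd (by linear_combination h1) h10
      · exact ⟨0, fun u' hu' => mul_self_eq_zero.mp (by fin_cases u' <;> first | exact p1 | exact p2 | exact absurd rfl hu')⟩
      · exact absurd (by linear_combination h1) h10
      · exact absurd (by linear_combination h1) h10
      · exact absurd (by linear_combination h30 - h1) h10
    have hA'T : A' = Aᵀ := by
      calc A' = (Aᵀ * A) * A' := by rw [← hν, one_mul]
        _ = Aᵀ := by rw [mul_assoc, hAA', mul_one]
    rw [hβ, ha', hA'T]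
    refine (hmem _).mpr ⟨fun u => (A * Matrix.diagonal d * Aᵀ) u u, congrArg φ (Matrix.ext fun u v => ?_)⟩
    by_cases huv : u = v
    · subst huv; rw [Matrix.diagonal_apply_eq]
    · rw [Matrix.diagonal_apply_ne _ huv, Matrix.mul_apply]
      refine (Finset.sum_eq_zero fun k _ => ?_).symm
      rw [Matrix.mul_diagonal, Matrix.transpose_apply]
      obtain ⟨u₀, hu₀⟩ := hcol k
      by_cases hu : u = u₀
      · rw [hu₀ v (hu ▸ Ne.symm huv), mul_zero]
      · rw [hu₀ u hu, zero_mul, zero_mul]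
  refine ⟨E, fun x hx y hy => ?_, fun g hg X => ⟨fun h => hfwd g hg X h, fun h => ?_⟩, fun x hx => ?_,
    φ (Matrix.diagonal (Pi.single 0 1)), (hmem _).mpr ⟨_, rfl⟩, fun c hc => ?_⟩
  · obtain ⟨d, rfl⟩ := (hmem x).mp hx
    obtain ⟨d', rfl⟩ := (hmem y).mp hy
    rw [← map_mul, ← map_mul, Matrix.diagonal_mul_diagonal, Matrix.diagonal_mul_diagonal]
    simp only [mul_comm]
  · have := hfwd g⁻¹ (inv_mem hg) _ h
    simpa [conjHom_apply, mul_assoc] using this
  · obtain ⟨d, rfl⟩ := (hmem x).mp hx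
    exact (hmem _).mpr ⟨d, by rw [hst, Matrix.diagonal_transpose]⟩
  · have e : Matrix.diagonal (Pi.single (0 : Fin 3) (1 : F)) = algebraMap F _ c := hinj (by rw [hc, AlgHom.commutes])
    have e0 := congrFun (congrFun e 0) 0
    have e1 := congrFun (congrFun e 1) 1
    simp [Matrix.algebraMap_matrix_apply] at e0 e1
    exact one_ne_zero (e0.trans e1.symm)

/-- A tensor decomposition with factors of sizes three and four. -/
theorem tensor_three (hQ : (QuadraticMap.polarBilin Q).Nondegenerate) (hn : Fintype.card ι = 12)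
    (hno : NoSingular Q 6) {H : Subgroup (GL ι F)} (hH : IsMaximalIn (omegaGL ⇑Q) H)
    (hirr : Irr ((fun u : (Module.End F (ι → F))ˣ => (u : Module.End F (ι → F))) ''
      (gu '' (↑(H ⊔ scalars ι F) : Set _))))
    (φA : Matrix (Fin 3) (Fin 3) F →ₐ[F] Module.End F (ι → F)) (φC : Matrix (Fin 4) (Fin 4) F →ₐ[F] Module.End F (ι → F))
    (hAC : ∀ X Y, Commute (φA X) (φC Y)) (hirr2 : Irr (Set.range φA ∪ Set.range φC))
    (hA : ∀ g ∈ H ⊔ scalars ι F, ∀ X, (gu g : Module.End F (ι → F)) * φA X * ((gu g)⁻¹).val ∈ Set.range φA)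
    (hC : ∀ g ∈ H ⊔ scalars ι F, ∀ X, (gu g : Module.End F (ι → F)) * φC X * ((gu g)⁻¹).val ∈ Set.range φC)
    (hclA : ∀ X, st (RingEquiv.refl F) (polarGram Q) (φA X) ∈ Set.range φA)
    (hclC : ∀ X, st (RingEquiv.refl F) (polarGram Q) (φC X) ∈ Set.range φC) : TwelveCases Q H := by
  classical
  haveI : Nonempty ι := Fintype.card_pos_iff.mp (by omega)
  have hB := formData Q hQ
  have hI : ∀ g ∈ H, ∀ v, Q ((g : Matrix ι ι F) *ᵥ v) = Q v := fun g hg v => omegaGL_preserves Q (hH.1.le hg) v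
  have hsim := sim_of_iso Q hI
  have hinjA : Function.Injective φA := RingHom.injective φA.toRingHom
  have hinjC : Function.Injective φC := RingHom.injective φC.toRingHom
  obtain ⟨GA, νA, -, hGA, hνA⟩ := exists_factor_gram hB (by norm_num) φA hinjA hclA
  obtain ⟨GC, νC, -, hGC, hνC⟩ := exists_factor_gram hB (by norm_num) φC hinjC hclC
  set A := (GA : Matrix (Fin 3) (Fin 3) F)
  set C := (GC : Matrix (Fin 4) (Fin 4) F)
  have hAu : IsUnit A.det := (Matrix.isUnit_iff_isUnit_det _).mp GA.isUnit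
  have hCu : IsUnit C.det := (Matrix.isUnit_iff_isUnit_det _).mp GC.isUnit
  have hAs : Aᵀ = A := gram_symm (by decide) hAu hνA
  obtain ⟨b, c, hc, hf, hcoord⟩ := pair_frame hB (by norm_num) (by norm_num) φA φC hAC hirr2 hA hC GA GC hGA hGC
  obtain ⟨i₀, j₀, hij⟩ : ∃ i j, A i j ≠ 0 := by
    by_contra h
    push Not at h
    exact GA.ne_zero (Matrix.ext h)
  have hCs : ∀ k l, C k l = C l k := fun k l => by
    have h1 := hB.swap (b (j₀, l)) (b (i₀, k))
    rw [one_mul, RingEquiv.refl_apply, hf, hf] at h1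
    have h2 : A j₀ i₀ = A i₀ j₀ := congrFun (congrFun hAs i₀) j₀
    change c * (A i₀ j₀ * C k l) = c * (A j₀ i₀ * C l k) at h1
    rw [h2] at h1
    exact mul_left_cancel₀ hij (mul_left_cancel₀ hc h1)
  by_cases h2 : (2 : F) = 0
  · exfalso
    obtain ⟨b', c', hc', hf', hcoord'⟩ := pair_frame hB (by norm_num) (by norm_num) φC φA (fun X Y => (hAC Y X).symm)
      (by rwa [Set.union_comm]) hC hA GC GA hGC hGA
    refine factor_hyperplane hsim hirr h2 (by norm_num) b' hc' C GA ?_ (fun i j => (congrFun (congrFun hAs i) j).symm) ?_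
      hf' hcoord'
    · by_contra h
      push Not at h
      exact GC.ne_zero (Matrix.ext h)
    · by_contra h
      push Not at h
      refine hAu.ne_zero ?_
      have s10 : A 1 0 = A 0 1 := congrFun (congrFun hAs 0) 1
      have s20 : A 2 0 = A 0 2 := congrFun (congrFun hAs 0) 2
      have s21 : A 2 1 = A 1 2 := congrFun (congrFun hAs 1) 2
      rw [Matrix.det_fin_three, show A 0 0 = 0 from h 0, show A 1 1 = 0 from h 1, show A 2 2 = 0 from h 2, s10, s20, s21]
      linear_combination (A 0 1 * A 1 2 * A 0 2) * h2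
  by_cases h5 : 5 ≤ Fintype.card F
  swap
  · have h3 : Fintype.card F = 3 := by
      have hodd := FiniteField.odd_card_of_char_ne_two (F := F) fun h => h2 (by
        haveI : CharP F 2 := ringChar.of_eq h
        exact CharTwo.two_eq_zero)
      have := Fintype.one_lt_card (α := F)
      omega
    obtain ⟨S, s, hs, hS⟩ := exists_similar h2 (by decide : Odd 3) hAu hAs (G' := 1) (by simp) Matrix.transpose_one
    have hstφ : ∀ X, st (RingEquiv.refl F) (polarGram Q) (φA.comp (innerHom S) X) = φA.comp (innerHom S) Xᵀ := by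
      intro X
      show st _ _ (φA (innerHom S X)) = φA (innerHom S Xᵀ)
      rw [hGA]
      refine (congrArg φA (stG_conj (G' := (1 : Matrix (Fin 3) (Fin 3) F)) hs hAu (by simp) (by simpa using hS) X)).trans (congrArg φA ?_)
      simp [innerHom, stG]
    obtain ⟨E, hcomm, hnorm, hcl, hbig⟩ := three_comm h3 hB hsim (φA.comp (innerHom S))
      (fun g hg X => by rw [range_innerHom]; exact hA g hg _) hstφ
    rcases comm_twelve hQ hn hno hH hirr hcomm hnorm hcl hbig with h | h | h
    · exact Or.inl h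
    · exact Or.inr (Or.inl h)
    · exact Or.inr (Or.inr (Or.inl h))
  refine Or.inr (Or.inr (Or.inr ⟨?_, h5, ?_⟩))
  · by_contra hq
    refine h2 ?_
    haveI : CharP F 2 := ringChar.of_eq (FiniteField.even_card_iff_char_two.mpr (Nat.not_odd_iff.mp hq))
    exact CharTwo.two_eq_zero
  obtain ⟨e⟩ := finEquiv b
  refine ⟨e, frameGL b e, matForm (RingEquiv.refl F) A, matForm (RingEquiv.refl F) C, symmForm_of hAu hAs,
    symmForm_of hCu (Matrix.ext fun k l => (hCs k l).symm), ?_, ⟨c, hc, fun x y => ?_⟩,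
    subgroup_eq_of_le hH (le_conj_reindex b e fun g hg => ?_) (not_le_tensor hQ (by omega) le_rfl (by norm_num) e _)⟩
  · rintro ⟨U, -, hU, hUd⟩
    rw [finrank_top, finrank_fin_fun] at hUd
    let bU := Module.finBasisOfFinrankEq F U (show finrank F U = 2 by omega)
    let w : Fin 3 × Fin 2 → ι → F := fun p => ∑ k, (bU p.2 : Fin 4 → F) k • b (p.1, k)
    have hiso : ∀ u ∈ U, ∀ v ∈ U, ∑ k, ∑ l, u k * v l * C k l = 0 := by
      intro u hu v hv
      have hCf : ∀ u v : Fin 4 → F, matForm (RingEquiv.refl F) C u v = ∑ k, ∑ l, u k * v l * C k l := fun u v => by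
        simp only [matForm, dotProduct, Matrix.mulVec, Finset.mul_sum, RingEquiv.refl_apply]
        exact Finset.sum_congr rfl fun k _ => Finset.sum_congr rfl fun l _ => by ring
      have hsymm : matForm (RingEquiv.refl F) C v u = matForm (RingEquiv.refl F) C u v := by
        rw [hCf, hCf, Finset.sum_comm]
        exact Finset.sum_congr rfl fun k _ => Finset.sum_congr rfl fun l _ => by rw [hCs l k]; ring
      have e1 := hU _ (add_mem hu hv)
      simp only [mf_add_left, mf_add_right, hU u hu, hU v hv, hsymm, zero_add, add_zero, ← two_mul] at e1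
      rw [← hCf]
      exact (mul_eq_zero.mp e1).resolve_left h2
    have hpol : ∀ p q, QuadraticMap.polar (⇑Q) (w p) (w q) = 0 := fun p q => by
      rw [polar_eq_form]
      simp only [w, mf_sum_left, mf_sum_right, mf_smul_left, mf_smul_right, hf, RingEquiv.refl_apply]
      calc _ = c * A p.1 q.1 * ∑ k, ∑ l, (bU p.2 : Fin 4 → F) k * (bU q.2 : Fin 4 → F) l * C k l := by
            simp only [Finset.mul_sum]
            rw [Finset.sum_comm]
            exact Finset.sum_congr rfl fun k _ => Finset.sum_congr rfl fun l _ => by ring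
        _ = 0 := by rw [hiso _ (bU p.2).2 _ (bU q.2).2, mul_zero]
    refine no_singular_family hno (w := w) (by simp) ?_ (fun p => ?_) hpol
    · rw [Fintype.linearIndependent_iff]
      intro cc hcc p
      have hz : ∀ k, ∑ l, cc (p.1, l) * (bU l : Fin 4 → F) k = 0 := fun k => by
        have := congrArg (fun v => b.repr v (p.1, k)) hcc
        simp only [w, map_sum, map_smul, Finset.smul_sum, smul_smul, map_zero, Finsupp.finset_sum_apply,
          Finsupp.smul_apply, Finsupp.zero_apply, Module.Basis.repr_self, Finsupp.single_apply, smul_eq_mul] at this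
        rw [Fintype.sum_prod_type, Finset.sum_eq_single p.1 (fun i _ hi => by simp [Prod.ext_iff, hi]) (by simp)] at this
        refine Eq.trans (Finset.sum_congr rfl fun l _ => ?_) this
        simp
      have h' : (∑ l, cc (p.1, l) • bU l : U) = 0 := Subtype.ext (funext fun k => by simpa using hz k)
      exact Fintype.linearIndependent_iff.mp bU.linearIndependent _ h' p.2
    · have := hpol p p
      rw [Forms.polar_self_two_mul] at this
      exact (mul_eq_zero.mp this).resolve_left h2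
  · rw [polar_eq_form, frame_form, formOfGram, Finset.mul_sum, gramMatrix_matForm, gramMatrix_matForm]
    refine Finset.sum_congr rfl fun u _ => ?_
    rw [Finset.mul_sum]
    refine Finset.sum_congr rfl fun v _ => ?_
    rw [hf, Matrix.kroneckerMap_apply]
    simp only [id]
    show x u * (c * (A u.1 v.1 * C u.2 v.2)) * y v = c * (x u * _ * y v)
    ring
  · obtain ⟨c', a, a', hc', ha⟩ := hcoord g (Subgroup.mem_sup_left hg)
    refine ⟨Units.map (algebraMap F (Matrix (Fin 3) (Fin 3) F)).toMonoidHom (Units.mk0 c' hc') * a, a', ?_⟩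
    rw [ha, ← Matrix.smul_kronecker]
    congr 1
    show _ = algebraMap F (Matrix (Fin 3) (Fin 3) F) c' * (a : Matrix (Fin 3) (Fin 3) F)
    rw [← Algebra.smul_def]

/-- Twelve is no proper power. -/
theorem pow_ne_twelve {d t : ℕ} (hd : 2 ≤ d) (ht : 2 ≤ t) (h : d ^ t = 12) : False := by
  have h1 : d ^ 2 ≤ 12 := h ▸ Nat.pow_le_pow_right (by omega) ht
  have h3 : d ≤ 3 := by nlinarith
  have h4 : t < 4 := by
    by_contra hc
    have : 2 ^ 4 ≤ d ^ t := (Nat.pow_le_pow_right (by norm_num) (by omega : 4 ≤ t)).trans (Nat.pow_le_pow_left hd t)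
    omega
  interval_cases d <;> interval_cases t <;> omega

/-- The list of maximal subgroups. -/
theorem twelve_minus_cases (hQ : (QuadraticMap.polarBilin Q).Nondegenerate) (hn : Fintype.card ι = 12)
    (hminus : ¬ IsPlusTypeOn (⇑Q) ⊤) {H : Subgroup (GL ι F)} (hH : IsMaximalIn (omegaGL ⇑Q) H) :
    (∃ W : Submodule F (ι → F), W ≠ ⊥ ∧ IsTotallySingularQuad (⇑Q) W ∧ H = subspaceStabilizer W ⊓ omegaGL ⇑Q) ∨
    (Odd (Fintype.card F) ∧ ∃ W : Submodule F (ι → F), W ≠ ⊥ ∧ W ≠ ⊤ ∧ Odd (finrank F W) ∧ 2 * finrank F W ≠ 12 ∧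
      IsNondegenerateOn (QuadraticMap.polar ⇑Q) W ∧ H = subspaceStabilizer W ⊓ omegaGL ⇑Q) ∨
    (∃ W : Submodule F (ι → F), finrank F W = 2 ∧ IsNondegenerateOn (QuadraticMap.polar ⇑Q) W ∧
      ¬ IsPlusTypeOn (⇑Q) W ∧ H = subspaceStabilizer W ⊓ omegaGL ⇑Q) ∨
    (4 ≤ Fintype.card F ∧ ∃ W : Submodule F (ι → F), finrank F W = 2 ∧ IsNondegenerateOn (QuadraticMap.polar ⇑Q) W ∧
      IsPlusTypeOn (⇑Q) W ∧ H = subspaceStabilizer W ⊓ omegaGL ⇑Q) ∨
    (∃ W : Submodule F (ι → F), finrank F W = 4 ∧ IsNondegenerateOn (QuadraticMap.polar ⇑Q) W ∧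
      H = subspaceStabilizer W ⊓ omegaGL ⇑Q) ∨
    (∃ W : Submodule F (ι → F), finrank F W = 6 ∧ IsNondegenerateOn (QuadraticMap.polar ⇑Q) W ∧
      H = subspaceStabilizer W ⊓ omegaGL ⇑Q) ∨
    (¬ Odd (Fintype.card F) ∧ ∃ v : ι → F, Q v ≠ 0 ∧
      H = subspaceStabilizer (Submodule.span F {v}) ⊓ omegaGL ⇑Q) ∨
    TwelveCases Q H ∨
    (∃ (F₀ : Subfield F) (r : ℕ) (P : GL ι F) (ζ : F), r.Prime ∧ Odd r ∧ Fintype.card F = Nat.card F₀ ^ r ∧ ζ ≠ 0 ∧
      IsQuadFormRationalStructure (fun v : ι → F => ζ * Q v) F₀ P ∧ H = subfieldSubgroup F₀ P ⊓ omegaGL ⇑Q) ∨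
    InOrthogonalResidualClass H := by
  classical
  haveI : Nontrivial ι := Fintype.one_lt_card_iff_nontrivial.mp (by omega)
  haveI : Nonempty ι := inferInstance
  have hno : NoSingular Q 6 := fun U hU hUd =>
    hminus ⟨U, le_top, hU, by rw [hUd, finrank_top, finrank_pi, hn]⟩
  have hI : ∀ g ∈ H, ∀ v, Q ((g : Matrix ι ι F) *ᵥ v) = Q v := fun g hg v => omegaGL_preserves Q (hH.1.le hg) v
  by_cases hirr : Irr ((fun u : (Module.End F (ι → F))ˣ => (u : Module.End F (ι → F))) ''
      (gu '' (↑(H ⊔ scalars ι F) : Set _)))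
  swap
  · rcases reducible_twelve hQ hn hH hirr with h | h | h | h | h | h | h
    · exact Or.inl h
    · exact Or.inr (Or.inl h)
    · exact Or.inr (Or.inr (Or.inl h))
    · exact Or.inr (Or.inr (Or.inr (Or.inl h)))
    · exact Or.inr (Or.inr (Or.inr (Or.inr (Or.inl h))))
    · exact Or.inr (Or.inr (Or.inr (Or.inr (Or.inr (Or.inl h)))))
    · exact Or.inr (Or.inr (Or.inr (Or.inr (Or.inr (Or.inr (Or.inl h))))))
  by_cases hcase : TwelveCases Q H
  · exact Or.inr (Or.inr (Or.inr (Or.inr (Or.inr (Or.inr (Or.inr (Or.inl hcase)))))))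
  by_cases hsub : ∃ (F₀ : Subfield F) (r : ℕ) (P : GL ι F) (ζ : F), r.Prime ∧ Odd r ∧
      Fintype.card F = Nat.card F₀ ^ r ∧ ζ ≠ 0 ∧
      IsQuadFormRationalStructure (fun v : ι → F => ζ * Q v) F₀ P ∧ H = subfieldSubgroup F₀ P ⊓ omegaGL ⇑Q
  · exact Or.inr (Or.inr (Or.inr (Or.inr (Or.inr (Or.inr (Or.inr (Or.inr (Or.inl hsub))))))))
  iterate 9 right
  have hB := formData Q hQ
  set Z := scalars ι F
  set K := H ⊔ Z
  have hsim := sim_of_iso Q hI
  have hirr' := fun W hW => irred_of_irr hirr (W := W) hW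
  have hKnZ : ¬ K ≤ Z := by
    intro hle
    obtain ⟨i₀⟩ : Nonempty ι := inferInstance
    let W : Submodule F (ι → F) := Submodule.span F {Pi.single i₀ 1}
    have hfr : finrank F W = 1 := finrank_span_singleton (by simp)
    rcases hirr' W (fun g hg w hw => by
      obtain ⟨c, hc⟩ := (mem_scalars_iff g).mp (hle (Subgroup.mem_sup_left hg))
      rw [hc, Matrix.smul_mulVec, Matrix.one_mulVec]
      exact W.smul_mem _ hw) with h | h
    · rw [h, finrank_bot] at hfr; omega
    · rw [h, finrank_top, finrank_pi, hn] at hfr; omega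
  have hfull : ∀ N, N ≤ K → NormalisedBy K N → ¬ N ≤ Z → AschRel.Full N := by
    intro N hNK hN hNZ
    rcases normal_cases hB hsim hNK hirr hN hNZ with ⟨E, hcomm, hnorm, hcl, hbig⟩ | hf |
      ⟨d, e, φA, φC, hd, he, hde, hAC, hirr2, hfA, hfC, hclA, hclC⟩
    · refine absurd ?_ hcase
      rcases comm_twelve hQ hn hno hH hirr hcomm hnorm hcl hbig with h | h | h
      · exact Or.inl h
      · exact Or.inr (Or.inl h)
      · exact Or.inr (Or.inr (Or.inl h))
    · exact hf
    exfalso
    rw [hn] at hde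
    have : d ≤ 6 := by
      have : d * 2 ≤ 12 := hde ▸ Nat.mul_le_mul_left d he
      omega
    have hcases : (d = 2 ∧ e = 6) ∨ (d = 6 ∧ e = 2) ∨ (d = 3 ∧ e = 4) ∨ (d = 4 ∧ e = 3) := by
      interval_cases d <;> omega
    rcases hcases with ⟨rfl, rfl⟩ | ⟨rfl, rfl⟩ | ⟨rfl, rfl⟩ | ⟨rfl, rfl⟩
    · exact tensor_false hQ (m := 6) (by omega) (by decide) (by norm_num) hno hI hirr hd he (by decide) (by decide)
        (by decide) φA φC hAC hirr2 hfA hfC hclA hclC
    · exact tensor_false hQ (m := 6) (by omega) (by decide) (by norm_num) hno hI hirr hd he (by decide) (by decide)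
        (by decide) φA φC hAC hirr2 hfA hfC hclA hclC
    · exact hcase (tensor_three hQ hn hno hH hirr φA φC hAC hirr2 hfA hfC hclA hclC)
    · exact hcase (tensor_three hQ hn hno hH hirr φC φA (fun X Y => (hAC Y X).symm) (by rwa [Set.union_comm]) hfC hfA
        hclC hclA)
  obtain ⟨M, ⟨hMn, hZM, hMK, hMne⟩, hmin⟩ := exists_minimal_of_wellFoundedLT
    (fun M : Subgroup (GL ι F) => NormalisedBy K M ∧ Z ≤ M ∧ M ≤ K ∧ M ≠ Z)
    ⟨K, fun g hg x hx => mul_mem (mul_mem hg hx) (inv_mem hg), le_sup_right, le_rfl, fun h => hKnZ h.le⟩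
  have hmin' : ∀ N, NormalisedBy K N → Z ≤ N → N ≤ M → N = Z ∨ N = M := fun N h1 h2 h3 => by
    by_cases h : N = Z
    · exact Or.inl h
    · exact Or.inr (le_antisymm h3 (hmin ⟨h1, h2, h3.trans hMK, h⟩ h3))
  have hMnZ : ¬ M ≤ Z := fun h => hMne (le_antisymm h hZM)
  have hKH : ⁅K, K⁆ ≤ H := (commutator_sup_scalars H H).trans (Subgroup.commutator_le_self H)
  by_cases hab : ⁅M, M⁆ ≤ Z
  · exact (abelian_false hQ (m := 6) (by omega) (by decide) (by norm_num) hno hI hMK (hfull M hMK hMn hMnZ) hab).elim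
  rcases nonab_split inferInstance le_sup_left hKH hMK hMn hmin' hfull hab hZM with
    ⟨P, hPM, hPH, hPfull, hnormH, hcore⟩ | ⟨t, d, N, φA, g, ht, hd, hNM, hNp, hrange, hgK, hcom, hirr2, hperm⟩
  swap
  · exfalso
    haveI : Nonempty (Fin d) := ⟨⟨0, by omega⟩⟩
    have hinjA : Function.Injective φA := RingHom.injective φA.toRingHom
    have hclA : ∀ X, st (RingEquiv.refl F) (polarGram Q) (φA X) ∈ Set.range φA := fun X => by
      have h1 := env_closed hB (fun x hx => hsim x (hMK (hNM hx))) (φA X) (hrange ▸ ⟨X, rfl⟩)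
      exact hrange.ge h1
    obtain ⟨G, ν, -, hG, hν⟩ := exists_factor_gram hB (by omega) φA hinjA hclA
    obtain ⟨b, -⟩ := Asch.exists_tensor_basis (fun i => (conjHom (gu (g i))).comp φA) hcom (fun _ => by omega) hirr2
    have hcard := (Module.finrank_eq_card_basis b).symm
    rw [Module.finrank_fintype_fun_eq_card, hn, Fintype.card_fun, Fintype.card_fin, Fintype.card_fin] at hcard
    exact pow_ne_twelve hd ht hcard
  have hPI : ∀ x ∈ P, ∀ v, Q ((x : Matrix ι ι F) *ᵥ v) = Q v := fun x hx => hI x (hPH hx)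
  have hnsub : ∀ F₀ : Subfield F, F₀ ≠ ⊤ → ¬ RealisableOver F₀ (matrixSet P) := by
    intro F₀ h1 h3
    obtain ⟨F₁, r, Pc, hr, hcard, hHle, hent⟩ := subfield_of_realisable hPfull hnormH h1 h3
    obtain ⟨ζ, hζ, hrat⟩ := quad_rational Q hQ hPfull hPI Pc hent
    rcases hr.eq_two_or_odd' with rfl | hodd
    · by_cases h2 : (2 : F) = 0
      · haveI : CharP F 2 := CharTwo.of_one_ne_zero_of_two_eq_zero one_ne_zero h2
        obtain ⟨U, hU, hUd⟩ := singular_of_index_two Q hQ (m := 6) (by omega) hcard Pc hζ hrat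
        exact hno U hU hUd
      · -- the discriminant lies in the subfield, so it is a square
        let bP : Basis ι F (ι → F) := (Pi.basisFun F ι).map (Matrix.toLin'OfInv
          (M := (Pc⁻¹ : GL ι F).val) (M' := (Pc : Matrix ι ι F)) (Units.inv_mul Pc) (Units.mul_inv Pc))
        have hbP : ∀ i, bP i = (Pc : Matrix ι ι F) *ᵥ Pi.single i 1 := fun i => by
          rw [Module.Basis.map_apply, Pi.basisFun_apply]
          simp only [Matrix.toLin'OfInv]
          exact Matrix.toLin'_apply (Pc : Matrix ι ι F) (Pi.single i 1)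
        refine det_not_square hQ (m := 6) (by omega) (by decide) (by norm_num) hno h2 bP ?_
        let B' : Matrix ι ι F := Matrix.of fun i j => ζ * fQ (bP i) (bP j)
        have hs : ∀ i k, (Pi.single i (1 : F) : ι → F) k ∈ F₁ := fun i k => by
          rw [Pi.single_apply]; split <;> simp [one_mem, zero_mem]
        have hB'm : ∀ i j, B' i j ∈ F₁ := fun i j => by
          show ζ * fQ (bP i) (bP j) ∈ F₁
          rw [← polar_eq_form, hbP, hbP, QuadraticMap.polar, ← Matrix.mulVec_add, mul_sub, mul_sub]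
          exact sub_mem (sub_mem (hrat _ fun k => add_mem (hs i k) (hs j k)) (hrat _ (hs i))) (hrat _ (hs j))
        have hdet : B'.det ∈ F₁ := by
          let M' : Matrix ι ι F₁ := Matrix.of fun i j => ⟨_, hB'm i j⟩
          have hM : (F₁.subtype).mapMatrix M' = B' := by ext i j; rfl
          rw [← hM, ← RingHom.map_det]; exact M'.det.2
        have hsq : IsSquare B'.det := by
          by_cases h0 : B'.det = 0
          · rw [h0]; exact IsSquare.zero
          have hch : ringChar F ≠ 2 := fun h => h2 (by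
            haveI : CharP F 2 := ringChar.of_eq h
            exact CharTwo.two_eq_zero)
          rw [FiniteField.isSquare_iff hch h0, hcard]
          have hq := (mem_subfield_iff_pow F₁).mp hdet
          have hodd' := FiniteField.odd_card_of_char_ne_two hch
          rw [hcard, pow_two, Nat.mul_mod] at hodd'
          have hqodd : Nat.card F₁ % 2 = 1 := by
            rcases Nat.mod_two_eq_zero_or_one (Nat.card F₁) with h | h
            · rw [h] at hodd'; simp at hodd'
            · exact h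
          obtain ⟨k, hk⟩ : ∃ k, Nat.card F₁ = 2 * k + 1 := ⟨Nat.card F₁ / 2, by omega⟩
          rw [hk] at hq ⊢
          have h1 : B'.det ^ (2 * k) = 1 :=
            mul_right_cancel₀ h0 (by rw [← pow_succ, one_mul]; exact hq)
          rw [show (2 * k + 1) ^ 2 / 2 = 2 * k * (k + 1) by
            rw [show (2 * k + 1) ^ 2 = 2 * (2 * k * (k + 1)) + 1 by ring]; omega, pow_mul, h1, one_pow]
        have hfac : (Matrix.of fun x y => fQ (bP x) (bP y)) = ζ⁻¹ • B' := by
          ext i j
          simp only [B', Matrix.smul_apply, Matrix.of_apply, smul_eq_mul]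
          rw [← mul_assoc, inv_mul_cancel₀ hζ, one_mul]
        rw [hfac, Matrix.det_smul, hn]
        exact IsSquare.mul ⟨ζ⁻¹ ^ 6, by ring⟩ hsq
    · exact hsub ⟨F₁, r, Pc, ζ, hr, hodd, hcard, hζ, hrat,
        subgroup_eq_of_le hH hHle (not_le_subfield hQ (by omega) hr hcard Pc)⟩
  refine ⟨P, hcore hnsub, ?_⟩
  rintro ⟨σ, f, hf, hfix⟩
  have h3 : ∀ v x y, f v (x + y) = f v x + f v y := fun v x y => by
    rw [hf.herm, hf.add_left, map_add, ← hf.herm, ← hf.herm]
  have h4 : ∀ (c : F) v x, f v (c • x) = σ c * f v x := fun c v x => by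
    rw [hf.herm, hf.smul_left, map_mul, ← hf.herm]
  have he := eq_matForm hf.add_left hf.smul_left h3 h4
  have hu : IsUnit (gram f).det := isUnit_of_nondeg (σ := σ) (by
    rw [show matForm σ (gram f) = f from funext fun u => funext fun v => (he u v).symm]; exact hf.nondegenerate)
  refine hnsub _ (fixedBy_ne_top hf.ne_refl) (realisable_of_two_forms hPfull hf.ne_refl hf.involutive hB.unit hu
    (fun x hx => ?_) fun x hx => fix_gram fun u v => by rw [← he, ← he]; exact hfix _ ⟨x, hx, rfl⟩ u v)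
  have e := matrix_eq_of_iso (form_iso Q (hPI x hx))
  rwa [show (x : Matrix ι ι F).map (RingEquiv.refl F) = (x : Matrix ι ι F) by ext u v; rfl] at e

end Cfsg.Agent.GeomClasses.OrthEven
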