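import Cfsg.Agent.GeomClasses.OrthEven.EightMinus
import Cfsg.Agent.GeomClasses.Aschbacher.Rel.OrthOddMain

/-! # Maximal subgroups of the orthogonal group of minus type in dimension twelve -/

set_option autoImplicit false
set_option maxHeartbeats 600000

namespace Cfsg.Agent.GeomClasses.OrthEven

open Matrix Cfsg.Geo Module
open scoped commutatorElement Kronecker
open Cfsg.Agent.GeomClasses.AschRel
open Cfsg.Agent.GeomClasses.Asch (Irr Normalises conjHom conjHom_apply)

variable {F : Type*} [Field F] [Fintype F] {ι : Type} [Fintype ι] [DecidableEq ι] {Q : QuadraticForm F (ι → F)}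

local notation "fQ" => matForm (RingEquiv.refl F) (polarGram Q)

/-- The stabilisers of subspaces. -/
theorem reducible_twelve (hQ : (QuadraticMap.polarBilin Q).Nondegenerate) (hn : Fintype.card ι = 12)
    {H : Subgroup (GL ι F)} (hH : IsMaximalIn (omegaGL ⇑Q) H)
    (hirr : ¬ Irr ((fun u : (Module.End F (ι → F))ˣ => (u : Module.End F (ι → F))) ''
      (gu '' (↑(H ⊔ scalars ι F) : Set _)))) :
    (∃ W : Submodule F (ι → F), W ≠ ⊥ ∧ IsTotallySingularQuad (⇑Q) W ∧ H = subspaceStabilizer W ⊓ omegaGL ⇑Q) ∨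
    (Odd (Fintype.card F) ∧ ∃ W : Submodule F (ι → F), W ≠ ⊥ ∧ W ≠ ⊤ ∧ Odd (finrank F W) ∧ 2 * finrank F W ≠ 12 ∧
      IsNondegenerateOn (QuadraticMap.polar ⇑Q) W ∧ H = subspaceStabilizer W ⊓ omegaGL ⇑Q) ∨
    (∃ W : Submodule F (ι → F), finrank F W = 2 ∧ IsNondegenerateOn (QuadraticMap.polar ⇑Q) W ∧
      ¬ IsPlusTypeOn (⇑Q) W ∧ H = subspaceStabilizer W ⊓ omegaGL ⇑Q) ∨
    (4 ≤ Fintype.card F ∧ ∃ W : Submodule F (ι → F), finrank F W = 2 ∧ IsNondegenerateOn (QuadraticMap.polar ⇑Q) W ∧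
      IsPlusTypeOn (⇑Q) W ∧ H = subspaceStabilizer W ⊓ omegaGL ⇑Q) ∨
    (∃ W : Submodule F (ι → F), finrank F W = 4 ∧ IsNondegenerateOn (QuadraticMap.polar ⇑Q) W ∧
      H = subspaceStabilizer W ⊓ omegaGL ⇑Q) ∨
    (∃ W : Submodule F (ι → F), finrank F W = 6 ∧ IsNondegenerateOn (QuadraticMap.polar ⇑Q) W ∧
      H = subspaceStabilizer W ⊓ omegaGL ⇑Q) ∨
    (¬ Odd (Fintype.card F) ∧ ∃ v : ι → F, Q v ≠ 0 ∧
      H = subspaceStabilizer (Submodule.span F {v}) ⊓ omegaGL ⇑Q) := by
  classical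
  have hn7 : 7 ≤ Fintype.card ι := by omega
  haveI : Nonempty ι := Fintype.card_pos_iff.mp (by omega)
  have hI : ∀ g ∈ H, ∀ v, Q ((g : Matrix ι ι F) *ᵥ v) = Q v := fun g hg v => omegaGL_preserves Q (hH.1.le hg) v
  have hB := formData Q hQ
  have hff : fQ = QuadraticMap.polar ⇑Q := funext fun u => funext fun v => (polar_eq_form Q u v).symm
  have heq : ∀ W : Submodule F (ι → F), W ≠ ⊥ → W ≠ ⊤ → H ≤ subspaceStabilizer W →
      H = subspaceStabilizer W ⊓ omegaGL ⇑Q := fun W h0 h1 hle =>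
    subgroup_eq_of_le hH hle (not_le_subspace hQ hn7 h0 h1)
  rcases reducible_cases hB (sim_of_iso Q hI) hirr with
    ⟨W, hW0, hW, hKW⟩ | ⟨W, W', hW0, hW1, hW'0, hW'1, hW, hW', -, hinf, hsup, hKW, hKW'⟩
  · have hHW : H ≤ subspaceStabilizer W := le_sup_left.trans hKW
    have hWtop : W ≠ ⊤ := by
      rintro rfl
      haveI : Nonempty ι := Fintype.card_pos_iff.mp (by omega)
      obtain ⟨v, hv⟩ := exists_ne (0 : ι → F)
      obtain ⟨⟨x, hx⟩, -⟩ := nondeg_matForm (σ := RingEquiv.refl F) hB.unit v hv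
      exact hx (hW x trivial v trivial)
    have hQadd : ∀ a ∈ W, ∀ c ∈ W, Q (a + c) = Q a + Q c := fun a ha c hc => by
      rw [QuadraticMap.map_add Q a c, polar_eq_form, hW a ha c hc, add_zero]
    let U : Submodule F (ι → F) :=
      { carrier := {w | w ∈ W ∧ Q w = 0}
        add_mem' := fun {a c} ha hc => ⟨add_mem ha.1 hc.1, by rw [hQadd a ha.1 c hc.1, ha.2, hc.2, add_zero]⟩
        zero_mem' := ⟨zero_mem _, QuadraticMap.map_zero Q⟩
        smul_mem' := fun a w hw => ⟨Submodule.smul_mem _ a hw.1, by rw [QuadraticMap.map_smul, hw.2, smul_zero]⟩ }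
    by_cases hU : U = ⊥
    swap
    · refine Or.inl ⟨U, hU, fun w hw => hw.2, heq U hU (fun h => hWtop (eq_top_iff.mpr fun v _ => (h ▸ trivial : v ∈ U).1))
        fun g hg => ?_⟩
      rw [mem_subspaceStabilizer_iff]
      exact fun w hw => ⟨mem_subspaceStabilizer_iff.mp (hHW hg) w hw.1, by rw [hI g hg]; exact hw.2⟩
    obtain ⟨x, hx, hx0⟩ := Submodule.exists_mem_ne_zero_of_ne_bot hW0
    have hbot : ∀ z ∈ W, Q z = 0 → z = 0 := fun z hz hQz => by
      have : z ∈ U := ⟨hz, hQz⟩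
      rwa [hU, Submodule.mem_bot] at this
    have hQx : Q x ≠ 0 := fun h => hx0 (hbot x hx h)
    have h20 : (2 : F) = 0 := by
      have := hW x hx x hx
      rw [← polar_eq_form, Forms.polar_self_two_mul] at this
      exact (mul_eq_zero.mp this).resolve_right hQx
    have hc2 : ringChar F = 2 := by
      haveI : CharP F 2 := (CharP.charP_iff_prime_eq_zero Nat.prime_two).mpr (by exact_mod_cast h20)
      exact ringChar.eq F 2
    have hWx : W = Submodule.span F {x} := by
      refine le_antisymm (fun z hz => ?_) ((Submodule.span_singleton_le_iff_mem _ _).mpr hx)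
      obtain ⟨s, hs⟩ := FiniteField.isSquare_of_char_two hc2 (Q z / Q x)
      have := hbot (z + s • x) (add_mem hz (Submodule.smul_mem _ _ hx)) (by
        rw [hQadd z hz _ (Submodule.smul_mem _ _ hx), QuadraticMap.map_smul, smul_eq_mul, ← hs,
          div_mul_cancel₀ _ hQx, ← two_mul, h20, zero_mul])
      rw [eq_neg_of_add_eq_zero_left this]
      exact neg_mem (Submodule.smul_mem _ _ (Submodule.mem_span_singleton_self x))
    iterate 6 right
    refine ⟨fun ho => two_ne_zero_of_odd_card ho h20, x, hQx, ?_⟩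
    rw [← hWx]
    exact heq W hW0 hWtop hHW
  have hfr : finrank F W + finrank F W' = 12 := by
    have h1 := Submodule.finrank_sup_add_finrank_inf_eq W W'
    rw [hinf, hsup, finrank_top, finrank_bot, finrank_pi] at h1
    omega
  have hpos : finrank F W ≠ 0 := fun h => hW0 (Submodule.finrank_eq_zero.mp h)
  have hpos' : finrank F W' ≠ 0 := fun h => hW'0 (Submodule.finrank_eq_zero.mp h)
  rw [hff] at hW hW'
  rcases Nat.even_or_odd (finrank F W) with he | ho
  swap
  · refine Or.inr (Or.inl ⟨?_, W, hW0, hW1, ho, by obtain ⟨k, hk⟩ := ho; omega, hW, heq W hW0 hW1 (le_sup_left.trans hKW)⟩)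
    by_contra hq
    have h20 : (2 : F) = 0 := by
      have hev : Fintype.card F % 2 = 0 := Nat.not_odd_iff.mp hq
      haveI : CharP F 2 := ringChar.of_eq (FiniteField.even_card_iff_char_two.mpr hev)
      exact CharTwo.two_eq_zero
    exact Nat.not_even_iff_odd.mpr ho (even_finrank_of_nondeg h20 (hff ▸ hW))
  have plane : ∀ X : Submodule F (ι → F), X ≠ ⊥ → X ≠ ⊤ → finrank F X = 2 →
      IsNondegenerateOn (QuadraticMap.polar ⇑Q) X → H ≤ subspaceStabilizer X →
      (∃ W : Submodule F (ι → F), finrank F W = 2 ∧ IsNondegenerateOn (QuadraticMap.polar ⇑Q) W ∧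
        ¬ IsPlusTypeOn (⇑Q) W ∧ H = subspaceStabilizer W ⊓ omegaGL ⇑Q) ∨
      (4 ≤ Fintype.card F ∧ ∃ W : Submodule F (ι → F), finrank F W = 2 ∧ IsNondegenerateOn (QuadraticMap.polar ⇑Q) W ∧
        IsPlusTypeOn (⇑Q) W ∧ H = subspaceStabilizer W ⊓ omegaGL ⇑Q) := by
    intro X h0 h1 h2 hX hle
    by_cases hp : IsPlusTypeOn (⇑Q) X
    swap
    · exact Or.inl ⟨X, h2, hX, hp, heq X h0 h1 hle⟩
    by_cases hq : 4 ≤ Fintype.card F
    · exact Or.inr ⟨hq, X, h2, hX, hp, heq X h0 h1 hle⟩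
    exfalso
    obtain ⟨K, hK1, hK2⟩ := exists_between_plane Q (by omega) h2 hX hp (by omega) hQ
    have hHK : H ≤ K := (le_inf hle hH.1.le).trans hK1.le
    rcases hH.2 K hHK hK2.le with h | h
    · exact hK1.not_ge (h ▸ le_inf hle hH.1.le)
    · exact hK2.ne h
  have h246 : finrank F W = 2 ∨ finrank F W = 4 ∨ finrank F W = 6 ∨ finrank F W' = 4 ∨ finrank F W' = 2 := by
    obtain ⟨k, hk⟩ := he
    omega
  rcases h246 with h | h | h | h | h
  · rcases plane W hW0 hW1 h hW (le_sup_left.trans hKW) with h' | h'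
    · exact Or.inr (Or.inr (Or.inl h'))
    · exact Or.inr (Or.inr (Or.inr (Or.inl h')))
  · exact Or.inr (Or.inr (Or.inr (Or.inr (Or.inl ⟨W, h, hW, heq W hW0 hW1 (le_sup_left.trans hKW)⟩))))
  · exact Or.inr (Or.inr (Or.inr (Or.inr (Or.inr (Or.inl ⟨W, h, hW, heq W hW0 hW1 (le_sup_left.trans hKW)⟩)))))
  · exact Or.inr (Or.inr (Or.inr (Or.inr (Or.inl ⟨W', h, hW', heq W' hW'0 hW'1 (le_sup_left.trans hKW')⟩))))
  · rcases plane W' hW'0 hW'1 h hW' (le_sup_left.trans hKW') with h' | h'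
    · exact Or.inr (Or.inr (Or.inl h'))
    · exact Or.inr (Or.inr (Or.inr (Or.inl h')))

/-- A normalised commutative algebra gives a field or a decomposition. -/
theorem comm_twelve (hQ : (QuadraticMap.polarBilin Q).Nondegenerate) (hn : Fintype.card ι = 12)
    (hno : NoSingular Q 6) {H : Subgroup (GL ι F)} (hH : IsMaximalIn (omegaGL ⇑Q) H)
    (hirr : Irr ((fun u : (Module.End F (ι → F))ˣ => (u : Module.End F (ι → F))) ''
      (gu '' (↑(H ⊔ scalars ι F) : Set _))))
    {E : Subalgebra F (Module.End F (ι → F))} (hcomm : ∀ x ∈ E, ∀ y ∈ E, x * y = y * x)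
    (hnorm : ∀ g ∈ H ⊔ scalars ι F, Normalises E (gu g)) (hcl : ∀ x ∈ E, st (RingEquiv.refl F) (polarGram Q) x ∈ E)
    (hbig : ∃ x ∈ E, ∀ c : F, x ≠ algebraMap F _ c) :
    (∃ D : Fin 3 → Submodule F (ι → F), IsOrthogonalMDecomposition (⇑Q) 4 D ∧
      (∀ i, ¬ IsPlusTypeOn (⇑Q) (D i)) ∧ H = decompositionStabilizer D ⊓ omegaGL ⇑Q) ∨
    (∃ K : Subalgebra F (Matrix ι ι F), IsFieldSubalgebra 2 K ∧ H = subalgebraNormalizer K ⊓ omegaGL ⇑Q) ∨
    (∃ K : Subalgebra F (Matrix ι ι F), IsFieldSubalgebra 3 K ∧ H = subalgebraNormalizer K ⊓ omegaGL ⇑Q) := by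
  classical
  haveI : Nontrivial ι := Fintype.one_lt_card_iff_nontrivial.mp (by omega)
  have hI : ∀ g ∈ H, ∀ v, Q ((g : Matrix ι ι F) *ᵥ v) = Q v := fun g hg v => omegaGL_preserves Q (hH.1.le hg) v
  have hirr' := fun W hW => irred_of_irr hirr (W := W) hW
  rcases blocks_or_field (formData Q hQ) (sim_of_iso Q hI) hirr hcomm hnorm hcl with
    ⟨t, k, D, hD, hKD, htr⟩ | ⟨k, D, hk, hD, hts, hK⟩ | hinv
  · have htk : t * k = 12 := by
      have hd := hD.decomp
      have hint := DirectSum.isInternal_submodule_of_iSupIndep_of_iSup_eq_top hd.indep hd.iSup_eq_top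
      have := Module.finrank_eq_card_basis (hint.collectedBasis fun i => Module.finBasisOfFinrankEq F (D i) (hd.finrank_eq i))
      rw [finrank_pi, hn, Fintype.card_sigma] at this
      simp at this
      omega
    rcases Nat.even_or_odd t with ht | ht
    · exact (blocks_false hQ (m := 6) (by omega) (by decide) (by norm_num) hno hI hD htr ht).elim
    obtain ⟨rfl, rfl⟩ : t = 3 ∧ k = 4 := by
      have h2 := hD.decomp.two_le
      have := Nat.le_of_dvd (by norm_num) (Dvd.intro k htk)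
      obtain ⟨u, rfl⟩ := ht
      have : u ≤ 6 := by omega
      interval_cases u <;> omega
    have hiso : ∀ i j, ∃ g ∈ H, ∀ v ∈ D i, (g : Matrix ι ι F) *ᵥ v ∈ D j := by
      intro i j
      obtain ⟨g, hg, hgij⟩ := htr i j
      rw [← SetLike.mem_coe, Subgroup.mul_normal] at hg
      obtain ⟨a, ha, z, hz, rfl⟩ := hg
      refine ⟨a, ha, fun v hv => ?_⟩
      obtain ⟨c, hc⟩ := (mem_scalars_iff z).mp hz
      have := hgij v hv
      rw [Units.val_mul, ← Matrix.mulVec_mulVec, hc, Matrix.smul_mulVec, Matrix.one_mulVec, Matrix.mulVec_smul] at this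
      have h' := (D j).smul_mem (c : F)⁻¹ this
      rwa [smul_smul, inv_mul_cancel₀ c.ne_zero, one_smul] at h'
    have hd := hD.decomp
    have hff : fQ = QuadraticMap.polar ⇑Q := funext fun u => funext fun v => (polar_eq_form Q u v).symm
    have hortho : IsOrthogonalMDecomposition (⇑Q) 4 D := by
      refine ⟨hff ▸ hD, fun i j => ?_⟩
      obtain ⟨g, hg, hgij⟩ := hiso i j
      let Lg : D i →ₗ[F] D j :=
        { toFun := fun v => ⟨(g : Matrix ι ι F) *ᵥ (v : ι → F), hgij v v.2⟩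
          map_add' := fun a b => Subtype.ext (by simp [Matrix.mulVec_add])
          map_smul' := fun c a => Subtype.ext (by simp [Matrix.mulVec_smul]) }
      have hinj : Function.Injective Lg := fun a b hab => by
        have := congrArg ((g⁻¹ : GL ι F).val *ᵥ ·) (congrArg Subtype.val hab)
        exact Subtype.ext (by simpa [Lg, Matrix.mulVec_mulVec] using this)
      exact ⟨LinearEquiv.ofInjectiveOfFinrankEq Lg hinj (by rw [hd.finrank_eq, hd.finrank_eq]), fun v => hI g hg _⟩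
    refine Or.inl ⟨D, hortho, fun i hp => ?_, subgroup_eq_of_le hH (le_sup_left.trans hKD) (not_le_decomp hQ (by omega) hd (by norm_num))⟩
    obtain ⟨U, hUD, hU, hUd⟩ := hp
    rw [hd.finrank_eq i] at hUd
    let bU := Module.finBasisOfFinrankEq F U (show finrank F U = 2 by omega)
    choose g hgH hgD using fun j => hiso i j
    have hinj : ∀ j, Function.Injective fun v : ι → F => (g j : Matrix ι ι F) *ᵥ v := fun j a c hac => by
      have := congrArg ((g j)⁻¹.val *ᵥ ·) hac
      simpa [Matrix.mulVec_mulVec] using this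
    let w : Fin 3 × Fin 2 → ι → F := fun p => (g p.1 : Matrix ι ι F) *ᵥ (bU p.2 : ι → F)
    have hwD : ∀ p, w p ∈ D p.1 := fun p => hgD p.1 _ (hUD (bU p.2).2)
    refine no_singular_family hno (w := w) (by simp) ?_ (fun p => ?_) (fun p q => ?_)
    · rw [Fintype.linearIndependent_iff]
      intro cc hcc p
      have hsum : ∀ j, ∑ l, cc (j, l) • w (j, l) ∈ D j := fun j =>
        Submodule.sum_mem _ fun l _ => Submodule.smul_mem _ _ (hwD (j, l))
      have hz : ∀ j, ∑ l, cc (j, l) • w (j, l) = 0 := by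
        intro j
        have h0 : ∑ j, ∑ l, cc (j, l) • w (j, l) = 0 := by rw [← Fintype.sum_prod_type']; exact hcc
        rw [← Finset.add_sum_erase _ _ (Finset.mem_univ j)] at h0
        refine Submodule.disjoint_def.mp (hd.indep j) _ (hsum j) ?_
        rw [eq_neg_of_add_eq_zero_left h0]
        refine neg_mem (Submodule.sum_mem _ fun l hl => ?_)
        exact Submodule.mem_iSup_of_mem l (Submodule.mem_iSup_of_mem (Finset.ne_of_mem_erase hl) (hsum l))
      have h1 := hz p.1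
      simp only [w, ← Matrix.mulVec_smul, ← Matrix.mulVec_sum] at h1
      have h2' : (∑ l, cc (p.1, l) • bU l : U) = 0 := Subtype.ext (by
        simpa using hinj p.1 (h1.trans (Matrix.mulVec_zero _).symm))
      exact Fintype.linearIndependent_iff.mp bU.linearIndependent _ h2' p.2
    · show Q _ = 0
      rw [hI _ (hgH p.1)]; exact hU _ (bU p.2).2
    · rw [polar_eq_form]
      by_cases hpq : p.1 = q.1
      · show fQ ((g p.1 : Matrix ι ι F) *ᵥ (bU p.2 : ι → F)) ((g q.1 : Matrix ι ι F) *ᵥ (bU q.2 : ι → F)) = 0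
        rw [hpq, form_iso Q (hI _ (hgH q.1)), ← polar_eq_form, QuadraticMap.polar, hU _ (add_mem (bU p.2).2 (bU q.2).2),
          hU _ (bU p.2).2, hU _ (bU q.2).2]
        simp
      · exact hD.orthogonal _ _ hpq _ (hwD p) _ (hwD q)
  · exact (halves_false (m := 6) (by omega) (by norm_num) hno (by norm_num) hI hirr' hk hD hts hK).elim
  obtain ⟨r, L, hr, hLE, hfin, hLinv, hLN⟩ := Asch.exists_prime_subfield hcomm hinv hbig
  have hr23 : r = 2 ∨ r = 3 := by
    letI : CommRing L := { (inferInstance : Ring L) with mul_comm := fun a b => Subtype.ext (hcomm a (hLE a.2) b (hLE b.2)) }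
    haveI : Nontrivial L := ⟨0, 1, fun h => zero_ne_one (congrArg Subtype.val h)⟩
    have hLF : IsField L := ⟨⟨0, 1, zero_ne_one⟩, mul_comm, fun {a} ha => by
      obtain ⟨y, hy, hxy⟩ := hLinv a a.2 fun h => ha (Subtype.ext h)
      exact ⟨⟨y, hy⟩, Subtype.ext hxy⟩⟩
    letI : Field L := hLF.toField
    haveI : IsScalarTower F L (ι → F) := ⟨fun c a v => rfl⟩
    have hdvd : r ∣ 12 := by
      refine ⟨Module.finrank L (ι → F), ?_⟩
      rw [← hfin, Module.finrank_mul_finrank, Module.finrank_fintype_fun_eq_card, hn]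
    rcases (Nat.Prime.dvd_mul hr).mp (show r ∣ 2 ^ 2 * 3 from hdvd) with h | h
    · exact Or.inl ((Nat.prime_dvd_prime_iff_eq hr Nat.prime_two).mp (hr.dvd_of_dvd_pow h))
    · exact Or.inr ((Nat.prime_dvd_prime_iff_eq hr Nat.prime_three).mp h)
  let Φ : Module.End F (ι → F) ≃ₐ[F] Matrix ι ι F := LinearMap.toMatrixAlgEquiv'
  let L' : Subalgebra F (Matrix ι ι F) := L.map Φ.toAlgHom
  have hmem : ∀ x, x ∈ L' ↔ Φ.symm x ∈ L := fun x =>
    ⟨by rintro ⟨y, hy, rfl⟩; simpa using hy, fun h => ⟨_, h, Φ.apply_symm_apply x⟩⟩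
  have hfield : IsFieldSubalgebra r L' := by
    refine ⟨fun x hx y hy => ?_, fun x hx hx0 => ?_, ?_⟩
    · apply Φ.symm.injective
      rw [map_mul, map_mul]
      exact hcomm _ (hLE ((hmem x).mp hx)) _ (hLE ((hmem y).mp hy))
    · obtain ⟨y, hy, hxy⟩ := hLinv _ ((hmem x).mp hx) (by simpa using hx0)
      refine ⟨Φ y, (hmem _).mpr (by simpa using hy), Φ.symm.injective ?_⟩
      simpa using hxy
    · rw [← hfin]
      exact (L.equivMapOfInjective Φ.toAlgHom Φ.injective).toLinearEquiv.finrank_eq.symm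
  have hHeq : H = subalgebraNormalizer L' ⊓ omegaGL ⇑Q :=
    subgroup_eq_of_le hH (fun g hg k => by
      rw [hmem, hmem, hLN (gu g) (hnorm g (Subgroup.mem_sup_left hg)), map_mul, map_mul, ← map_inv]
      rfl) (not_le_field hQ (by omega) hr.two_le hfield)
  rcases hr23 with rfl | rfl
  · exact Or.inr (Or.inl ⟨L', hfield, hHeq⟩)
  · exact Or.inr (Or.inr ⟨L', hfield, hHeq⟩)

end Cfsg.Agent.GeomClasses.OrthEven
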