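import Cfsg.Agent.GeomClasses.OrthEven.PlusTensor
import Cfsg.Agent.GeomClasses.OrthEven.TwelveMinus

/-! # Maximal subgroups of the orthogonal group of plus type in dimension twelve -/

set_option autoImplicit false
set_option maxHeartbeats 600000

namespace Cfsg.Agent.GeomClasses.OrthEven

open Matrix Cfsg.Geo Module
open scoped commutatorElement Kronecker
open Cfsg.Agent.GeomClasses.AschRel
open Cfsg.Agent.GeomClasses.Asch (Irr Normalises conjHom conjHom_apply exists_inner)

variable {F : Type*} [Field F] [Fintype F] {ι : Type} [Fintype ι] [DecidableEq ι] {Q : QuadraticForm F (ι → F)}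

local notation "fQ" => matForm (RingEquiv.refl F) (polarGram Q)

/-- A spanning group that is commutative modulo scalars needs a dimension that is a power of two. -/
theorem abelian_twelve (hQ : (QuadraticMap.polarBilin Q).Nondegenerate) (hn : Fintype.card ι = 12)
    {H M : Subgroup (GL ι F)} (hI : ∀ g ∈ H, ∀ v, Q ((g : Matrix ι ι F) *ᵥ v) = Q v)
    (hMK : M ≤ H ⊔ scalars ι F) (hM : AschRel.Full M) (hab : ⁅M, M⁆ ≤ scalars ι F) : False := by
  classical
  haveI : Nontrivial ι := Fintype.one_lt_card_iff_nontrivial.mp (by omega)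
  haveI : Nonempty ι := inferInstance
  have hB := formData Q hQ
  have hKH : ⁅H ⊔ scalars ι F, H ⊔ scalars ι F⁆ ≤ H :=
    (commutator_sup_scalars H H).trans (Subgroup.commutator_le_self H)
  have hone : ∀ x ∈ M, ∀ y ∈ M, ∃ ε : F, ε * ε = 1 ∧
      (x : Matrix ι ι F) * (y : Matrix ι ι F) = ε • ((y : Matrix ι ι F) * (x : Matrix ι ι F)) := by
    intro x hx y hy
    obtain ⟨c, hc⟩ := (mem_scalars_iff _).mp (hab (Subgroup.commutator_mem_commutator hx hy))
    refine ⟨c, ?_, ?_⟩
    · obtain ⟨v, hv⟩ := exists_ne (0 : ι → F)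
      obtain ⟨⟨u, hu⟩, -⟩ := nondeg_matForm (σ := RingEquiv.refl F) hB.unit v hv
      have e := form_iso Q (hI _ (hKH (Subgroup.commutator_mem_commutator (hMK hx) (hMK hy)))) u v
      rw [hc, Matrix.smul_mulVec, Matrix.one_mulVec, Matrix.smul_mulVec, Matrix.one_mulVec, mf_smul_left,
        mf_smul_right, ← mul_assoc] at e
      exact mul_right_cancel₀ hu (by rw [one_mul]; exact e)
    · have e : x * y = ⁅x, y⁆ * (y * x) := by rw [commutatorElement_def]; group
      have := congrArg Units.val e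
      rw [Units.val_mul, Units.val_mul, Units.val_mul, hc, Matrix.smul_mul, one_mul] at this
      exact this
  obtain ⟨w, -, hcard, -⟩ := full_basis hM fun a ha b hb => hab (Subgroup.commutator_mem_commutator ha hb)
  have hpg : IsPGroup 2 (M ⧸ Subgroup.center M) := by
    intro q
    refine ⟨1, ?_⟩
    induction q using QuotientGroup.induction_on with
    | _ x =>
      rw [pow_one, ← QuotientGroup.mk_pow, QuotientGroup.eq_one_iff, center_iff hM]
      obtain ⟨α, hα⟩ := hM.comm_scalar (M := ((x : GL ι F) : Matrix ι ι F) * ((x : GL ι F) : Matrix ι ι F)) fun y hy => by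
        obtain ⟨e, he, hxy⟩ := hone x x.2 y hy
        rw [mul_assoc, hxy, Matrix.mul_smul, ← mul_assoc, hxy, Matrix.smul_mul, smul_smul, he, one_smul, mul_assoc]
      have h2 : (((x ^ 2 : M) : GL ι F) : Matrix ι ι F) = α • 1 := by rw [← hα]; simp [pow_two]
      exact (mem_scalars_iff _).mpr ⟨Units.mk0 α fun h0 => ((x ^ 2 : M) : GL ι F).ne_zero (by rw [h2, h0, zero_smul]), h2⟩
  obtain ⟨k, hk⟩ := IsPGroup.iff_card.mp hpg
  rw [hcard, hn] at hk
  have h3 : 3 ∣ 2 ^ k := hk ▸ (by norm_num : 3 ∣ 12 * 12)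
  exact absurd (Nat.prime_three.dvd_of_dvd_pow h3) (by norm_num)

/-- The list of maximal subgroups. -/
theorem twelve_plus_cases (hQ : (QuadraticMap.polarBilin Q).Nondegenerate) (hn : Fintype.card ι = 12)
    (hplus : IsPlusTypeOn (⇑Q) ⊤) {H : Subgroup (GL ι F)} (hH : IsMaximalIn (omegaGL ⇑Q) H) :
    PlusSub Q H ∨ PlusCases Q H ∨ PlusTensor Q H ∨ PlusSubfield Q H ∨ InOrthogonalResidualClass H := by
  classical
  haveI : Nontrivial ι := Fintype.one_lt_card_iff_nontrivial.mp (by omega)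
  haveI : Nonempty ι := inferInstance
  have hI : ∀ g ∈ H, ∀ v, Q ((g : Matrix ι ι F) *ᵥ v) = Q v := fun g hg v => omegaGL_preserves Q (hH.1.le hg) v
  by_cases hirr : Irr ((fun u : (Module.End F (ι → F))ˣ => (u : Module.End F (ι → F))) ''
      (gu '' (↑(H ⊔ scalars ι F) : Set _)))
  swap
  · exact Or.inl (reducible_twelve_plus hQ hn hplus hH hirr)
  by_cases hcase : PlusCases Q H ∨ PlusTensor Q H ∨ PlusSubfield Q H
  · rcases hcase with h | h | h
    · exact Or.inr (Or.inl h)
    · exact Or.inr (Or.inr (Or.inl h))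
    · exact Or.inr (Or.inr (Or.inr (Or.inl h)))
  iterate 4 right
  have hB := formData Q hQ
  set Z := scalars ι F
  set K := H ⊔ Z
  have hsim := sim_of_iso Q hI
  have hirr' := fun W hW => irred_of_irr hirr (W := W) hW
  have hKnZ : ¬ K ≤ Z := by
    intro hle
    obtain ⟨i₀⟩ : Nonempty ι := inferInstance
    let W : Submodule F (ι → F) := Submodule.span F {Pi.single i₀ 1}
    have hfr : finrank F W = 1 := finrank_span_singleton (by simp)
    rcases hirr' W (fun g hg w hw => by
      obtain ⟨c, hc⟩ := (mem_scalars_iff g).mp (hle (Subgroup.mem_sup_left hg))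
      rw [hc, Matrix.smul_mulVec, Matrix.one_mulVec]
      exact W.smul_mem _ hw) with h | h
    · rw [h, finrank_bot] at hfr; omega
    · rw [h, finrank_top, finrank_pi, hn] at hfr; omega
  have hfull : ∀ N, N ≤ K → NormalisedBy K N → ¬ N ≤ Z → AschRel.Full N := by
    intro N hNK hN hNZ
    rcases normal_cases hB hsim hNK hirr hN hNZ with ⟨E, hcomm, hnorm, hcl, hbig⟩ | hf |
      ⟨d, e, φA, φC, hd, he, hde, hAC, hirr2, hfA, hfC, hclA, hclC⟩
    · exfalso
      rcases comm_twelve_plus hQ hn hplus hH hirr hcomm hnorm hcl hbig with h | h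
      · exact hcase (Or.inl h)
      · exact hcase (Or.inr (Or.inr h))
    · exact hf
    exfalso
    rw [hn] at hde
    have : d ≤ 6 := by
      have : d * 2 ≤ 12 := hde ▸ Nat.mul_le_mul_left d he
      omega
    have hcases : (d = 2 ∧ e = 6) ∨ (d = 6 ∧ e = 2) ∨ (d = 3 ∧ e = 4) ∨ (d = 4 ∧ e = 3) := by
      interval_cases d <;> omega
    have out26 : (PlusCases Q H ∨ PlusSubfield Q H) ∨ PlusTensor Q H → False := by
      rintro ((h | h) | h)
      · exact hcase (Or.inl h)
      · exact hcase (Or.inr (Or.inr h))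
      · exact hcase (Or.inr (Or.inl h))
    rcases hcases with ⟨rfl, rfl⟩ | ⟨rfl, rfl⟩ | ⟨rfl, rfl⟩ | ⟨rfl, rfl⟩
    · exact out26 (two_six hQ hn hplus hH hirr φA φC hAC hirr2 hfA hfC hclA hclC)
    · exact out26 (two_six hQ hn hplus hH hirr φC φA (fun X Y => (hAC Y X).symm) (by rwa [Set.union_comm]) hfC hfA
        hclC hclA)
    · exact hcase (Or.inr (Or.inl (three_four hQ hn hplus hH hirr φA φC hAC hirr2 hfA hfC hclA hclC)))
    · exact hcase (Or.inr (Or.inl (three_four hQ hn hplus hH hirr φC φA (fun X Y => (hAC Y X).symm)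
        (by rwa [Set.union_comm]) hfC hfA hclC hclA)))
  obtain ⟨M, ⟨hMn, hZM, hMK, hMne⟩, hmin⟩ := exists_minimal_of_wellFoundedLT
    (fun M : Subgroup (GL ι F) => NormalisedBy K M ∧ Z ≤ M ∧ M ≤ K ∧ M ≠ Z)
    ⟨K, fun g hg x hx => mul_mem (mul_mem hg hx) (inv_mem hg), le_sup_right, le_rfl, fun h => hKnZ h.le⟩
  have hmin' : ∀ N, NormalisedBy K N → Z ≤ N → N ≤ M → N = Z ∨ N = M := fun N h1 h2 h3 => by
    by_cases h : N = Z
    · exact Or.inl h
    · exact Or.inr (le_antisymm h3 (hmin ⟨h1, h2, h3.trans hMK, h⟩ h3))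
  have hMnZ : ¬ M ≤ Z := fun h => hMne (le_antisymm h hZM)
  have hKH : ⁅K, K⁆ ≤ H := (commutator_sup_scalars H H).trans (Subgroup.commutator_le_self H)
  by_cases hab : ⁅M, M⁆ ≤ Z
  · exact (abelian_twelve hQ hn hI hMK (hfull M hMK hMn hMnZ) hab).elim
  rcases nonab_split inferInstance le_sup_left hKH hMK hMn hmin' hfull hab hZM with
    ⟨P, hPM, hPH, hPfull, hnormH, hcore⟩ | ⟨t, d, N, φA, g, ht, hd, hNM, hNp, hrange, hgK, hcom, hirr2, hperm⟩
  swap
  · exfalso
    haveI : Nonempty (Fin d) := ⟨⟨0, by omega⟩⟩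
    have hinjA : Function.Injective φA := RingHom.injective φA.toRingHom
    have hclA : ∀ X, st (RingEquiv.refl F) (polarGram Q) (φA X) ∈ Set.range φA := fun X => by
      have h1 := env_closed hB (fun x hx => hsim x (hMK (hNM hx))) (φA X) (hrange ▸ ⟨X, rfl⟩)
      exact hrange.ge h1
    obtain ⟨G, ν, -, hG, hν⟩ := exists_factor_gram hB (by omega) φA hinjA hclA
    obtain ⟨b, -⟩ := Asch.exists_tensor_basis (fun i => (conjHom (gu (g i))).comp φA) hcom (fun _ => by omega) hirr2
    have hcard := (Module.finrank_eq_card_basis b).symm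
    rw [Module.finrank_fintype_fun_eq_card, hn, Fintype.card_fun, Fintype.card_fin, Fintype.card_fin] at hcard
    exact pow_ne_twelve hd ht hcard
  have hPI : ∀ x ∈ P, ∀ v, Q ((x : Matrix ι ι F) *ᵥ v) = Q v := fun x hx => hI x (hPH hx)
  have hnsub : ∀ F₀ : Subfield F, F₀ ≠ ⊤ → ¬ RealisableOver F₀ (matrixSet P) := by
    intro F₀ h1 h3
    obtain ⟨F₁, r, Pc, hr, hcard, hHle, hent⟩ := subfield_of_realisable hPfull hnormH h1 h3
    obtain ⟨ζ, hζ, hrat⟩ := quad_rational Q hQ hPfull hPI Pc hent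
    exact hcase (Or.inr (Or.inr ⟨F₁, r, Pc, ζ, hr, hcard, hζ, hrat,
      subgroup_eq_of_le hH hHle (not_le_subfield hQ (by omega) hr hcard Pc)⟩))
  refine ⟨P, hcore hnsub, ?_⟩
  rintro ⟨σ, f, hf, hfix⟩
  have h3 : ∀ v x y, f v (x + y) = f v x + f v y := fun v x y => by
    rw [hf.herm, hf.add_left, map_add, ← hf.herm, ← hf.herm]
  have h4 : ∀ (c : F) v x, f v (c • x) = σ c * f v x := fun c v x => by
    rw [hf.herm, hf.smul_left, map_mul, ← hf.herm]
  have he := eq_matForm hf.add_left hf.smul_left h3 h4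
  have hu : IsUnit (gram f).det := isUnit_of_nondeg (σ := σ) (by
    rw [show matForm σ (gram f) = f from funext fun u => funext fun v => (he u v).symm]; exact hf.nondegenerate)
  refine hnsub _ (fixedBy_ne_top hf.ne_refl) (realisable_of_two_forms hPfull hf.ne_refl hf.involutive hB.unit hu
    (fun x hx => ?_) fun x hx => fix_gram fun u v => by rw [← he, ← he]; exact hfix _ ⟨x, hx, rfl⟩ u v)
  have e := matrix_eq_of_iso (form_iso Q (hPI x hx))
  rwa [show (x : Matrix ι ι F).map (RingEquiv.refl F) = (x : Matrix ι ι F) by ext u v; rfl] at e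

end Cfsg.Agent.GeomClasses.OrthEven
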