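import Cfsg.Agent.GeomClasses.OrthEven.PlusTools
import Cfsg.Agent.GeomClasses.OrthEven.TwelveMinusParts
import Cfsg.Agent.GeomClasses.EvenTen.Blocks
import Cfsg.Agent.GeomClasses.OddMax.Refine
import Cfsg.Agent.GeomClasses.TensorTwo

/-! # Subspace and decomposition cases for the orthogonal group of plus type in dimension twelve -/

set_option autoImplicit false
set_option maxHeartbeats 600000

namespace Cfsg.Agent.GeomClasses.OrthEven

open Matrix Cfsg.Geo Module
open scoped commutatorElement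
open Cfsg.Agent.GeomClasses.AschRel
open Cfsg.Agent.GeomClasses.Asch (Irr Normalises conjHom conjHom_apply)

variable {F : Type*} [Field F] [Fintype F] {ι : Type} [Fintype ι] [DecidableEq ι] {Q : QuadraticForm F (ι → F)}

local notation "fQ" => matForm (RingEquiv.refl F) (polarGram Q)

/-- Totally isotropic halves permuted by an irreducible group of isometries are totally singular. -/
theorem halves_singular {H : Subgroup (GL ι F)}
    (hI : ∀ g ∈ H, ∀ v, Q ((g : Matrix ι ι F) *ᵥ v) = Q v)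
    (hirr : ∀ W : Submodule F (ι → F), (∀ g ∈ H, ∀ w ∈ W, (g : Matrix ι ι F) *ᵥ w ∈ W) → W = ⊥ ∨ W = ⊤) {k : ℕ}
    {D : Fin 2 → Submodule F (ι → F)} (hk : 2 * k = Fintype.card ι) (hk2' : 2 ≤ k) (hD : IsMDecomposition k D)
    (hts : ∀ i, IsTotallySingularFor fQ (D i)) (hK : H ⊔ scalars ι F ≤ decompositionStabilizer D) :
    ∀ i, ∀ w ∈ D i, Q w = 0 := by
  classical
  by_cases h2 : (2 : F) = 0
  swap
  · intro i w hw
    have := hts i w hw w hw
    rw [← polar_eq_form, Forms.polar_self_two_mul] at this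
    exact (mul_eq_zero.mp this).resolve_left h2
  let U : Fin 2 → Submodule F (ι → F) := fun i =>
    { carrier := {w | w ∈ D i ∧ Q w = 0}
      add_mem' := fun {a c} ha hc => ⟨add_mem ha.1 hc.1, by
        rw [QuadraticMap.map_add Q a c, ha.2, hc.2, polar_eq_form, hts i a ha.1 c hc.1, add_zero, add_zero]⟩
      zero_mem' := ⟨zero_mem _, QuadraticMap.map_zero Q⟩
      smul_mem' := fun a w hw => ⟨Submodule.smul_mem _ a hw.1, by rw [QuadraticMap.map_smul, hw.2, smul_zero]⟩ }
  rcases hirr (⨆ i, U i) (fun g hg w hw => by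
    obtain ⟨π, hπ⟩ := hK (Subgroup.mem_sup_left hg)
    refine Submodule.iSup_induction U (motive := fun w => (g : Matrix ι ι F) *ᵥ w ∈ ⨆ i, U i) hw
      (fun i x hx => Submodule.mem_iSup_of_mem (π i) ⟨?_, ?_⟩) (by simp) fun a c ha hc => by
        rw [Matrix.mulVec_add]; exact add_mem ha hc
    · rw [← hπ i]; exact ⟨x, hx.1, Matrix.toLin'_apply _ _⟩
    · rw [hI g hg]; exact hx.2) with h | h
  · -- one half already has a singular vector
    exfalso
    have hfr := hD.finrank_eq 0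
    have hk2 : 2 ≤ k := hk2'
    let bb := Module.finBasisOfFinrankEq F (D 0) hfr
    have hc2 : ringChar F = 2 := by
      haveI : CharP F 2 := (CharP.charP_iff_prime_eq_zero Nat.prime_two).mpr (by exact_mod_cast h2)
      exact ringChar.eq F 2
    set u := (bb ⟨0, by omega⟩ : ι → F)
    set w := (bb ⟨1, by omega⟩ : ι → F)
    have hbot : ∀ z, z ∈ D 0 → Q z = 0 → z = 0 := fun z hz hQz => by
      have : z ∈ ⨆ i, U i := Submodule.mem_iSup_of_mem 0 ⟨hz, hQz⟩
      rw [h, Submodule.mem_bot] at this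
      exact this
    have hu : Q u ≠ 0 := fun h0 => bb.ne_zero _ (Subtype.ext (hbot u (bb _).2 h0))
    obtain ⟨s, hs⟩ := FiniteField.isSquare_of_char_two hc2 (Q w / Q u)
    have hz := hbot (s • u + w) (add_mem (Submodule.smul_mem _ _ (bb _).2) (bb _).2) (by
      rw [QuadraticMap.map_add Q, QuadraticMap.map_smul, QuadraticMap.polar_smul_left, polar_eq_form,
        hts 0 u (bb _).2 w (bb _).2, smul_zero, add_zero, smul_eq_mul, ← hs, div_mul_cancel₀ _ hu,
        ← two_mul, h2, zero_mul])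
    have e : s • bb ⟨0, by omega⟩ + bb ⟨1, by omega⟩ = 0 := Subtype.ext hz
    have := congrArg (fun z => bb.repr z ⟨1, by omega⟩) e
    simp [Finsupp.single_apply] at this
  · intro i w hw
    have hle : iSup U ≤ ⨆ i, D i := iSup_mono fun i x hx => hx.1
    have hsum : finrank F (U 0) + finrank F (U 1) ≥ Fintype.card ι := by
      have h1 := Submodule.finrank_add_le_finrank_add_finrank (U 0) (U 1)
      have h3 : U 0 ⊔ U 1 = ⊤ := by
        rw [← h]
        refine le_antisymm (sup_le (le_iSup U 0) (le_iSup U 1)) (iSup_le ?_)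
        rw [Fin.forall_fin_two]
        exact ⟨le_sup_left, le_sup_right⟩
      rw [h3, finrank_top, finrank_pi] at h1
      exact h1
    have h4 := fun j => Submodule.finrank_mono (show U j ≤ D j from fun x hx => hx.1)
    have h40 := h4 0
    have h41 := h4 1
    rw [hD.finrank_eq] at h40 h41
    have h5 : U i = D i := by
      refine Submodule.eq_of_le_of_finrank_le (fun x hx => hx.1) ?_
      rw [hD.finrank_eq]
      rcases i with ⟨_ | _ | i, hi⟩
      · show k ≤ finrank F (U 0); omega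
      · show k ≤ finrank F (U 1); omega
      · omega
    rw [← h5] at hw
    exact hw.2


/-- The decomposition and field cases of the list. -/
def PlusCases (Q : QuadraticForm F (ι → F)) (H : Subgroup (GL ι F)) : Prop :=
  ((∃ p : ℕ, p.Prime ∧ Odd p ∧ Fintype.card F = p) ∧ ∃ D : Fin 12 → Submodule F (ι → F),
    IsOrthogonalMDecomposition (⇑Q) 1 D ∧ H = decompositionStabilizer D ⊓ omegaGL ⇑Q) ∨
  (7 ≤ Fintype.card F ∧ ∃ D : Fin 6 → Submodule F (ι → F), IsOrthogonalMDecomposition (⇑Q) 2 D ∧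
    (∀ i, IsPlusTypeOn (⇑Q) (D i)) ∧ H = decompositionStabilizer D ⊓ omegaGL ⇑Q) ∨
  (Fintype.card F ≠ 3 ∧ ∃ D : Fin 6 → Submodule F (ι → F), IsOrthogonalMDecomposition (⇑Q) 2 D ∧
    (∀ i, ¬ IsPlusTypeOn (⇑Q) (D i)) ∧ H = decompositionStabilizer D ⊓ omegaGL ⇑Q) ∨
  (Odd (Fintype.card F) ∧ 5 ≤ Fintype.card F ∧ ∃ D : Fin 4 → Submodule F (ι → F), IsOrthogonalMDecomposition (⇑Q) 3 D ∧
    H = decompositionStabilizer D ⊓ omegaGL ⇑Q) ∨
  (3 ≤ Fintype.card F ∧ ∃ D : Fin 3 → Submodule F (ι → F), IsOrthogonalMDecomposition (⇑Q) 4 D ∧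
    H = decompositionStabilizer D ⊓ omegaGL ⇑Q) ∨
  (∃ D : Fin 2 → Submodule F (ι → F), IsOrthogonalMDecomposition (⇑Q) 6 D ∧
    H = decompositionStabilizer D ⊓ omegaGL ⇑Q) ∨
  (∃ D : Fin 2 → Submodule F (ι → F), IsMDecomposition 6 D ∧ (∀ i, IsTotallySingularQuad (⇑Q) (D i)) ∧
    H = decompositionStabilizer D ⊓ omegaGL ⇑Q) ∨
  (∃ K : Subalgebra F (Matrix ι ι F), IsFieldSubalgebra 2 K ∧ H = subalgebraNormalizer K ⊓ omegaGL ⇑Q) ∨
  (∃ K : Subalgebra F (Matrix ι ι F), IsFieldSubalgebra 3 K ∧ H = subalgebraNormalizer K ⊓ omegaGL ⇑Q)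

/-- The subfield case of the list. -/
def PlusSubfield (Q : QuadraticForm F (ι → F)) (H : Subgroup (GL ι F)) : Prop :=
  ∃ (F₀ : Subfield F) (r : ℕ) (P : GL ι F) (ζ : F), r.Prime ∧ Fintype.card F = Nat.card F₀ ^ r ∧ ζ ≠ 0 ∧
    IsQuadFormRationalStructure (fun v : ι → F => ζ * Q v) F₀ P ∧ H = subfieldSubgroup F₀ P ⊓ omegaGL ⇑Q

/-- A maximal subgroup has no proper overgroup in `Ω`. -/
theorem no_between {H M K : Subgroup (GL ι F)} (hH : IsMaximalIn (omegaGL ⇑Q) H) (hle : H ≤ M)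
    (h1 : M < K) (h2 : K < omegaGL ⇑Q) : False := by
  rcases hH.2 K (hle.trans h1.le) h2.le with h | h
  · exact h1.not_ge (h ▸ hle)
  · exact h2.ne h

/-- A transitive orthogonal decomposition. -/
theorem decomp_twelve_plus (hQ : (QuadraticMap.polarBilin Q).Nondegenerate) (hn : Fintype.card ι = 12)
    (hplus : IsPlusTypeOn (⇑Q) ⊤) {H : Subgroup (GL ι F)} (hH : IsMaximalIn (omegaGL ⇑Q) H) {t k : ℕ}
    {D : Fin t → Submodule F (ι → F)} (hD : IsOrthogonalMDecomposition (⇑Q) k D)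
    (hKD : H ≤ decompositionStabilizer D)
    (htr : ∀ i j, ∃ g ∈ H, ∀ v ∈ D i, (g : Matrix ι ι F) *ᵥ v ∈ D j) (htk : t * k = 12) :
    PlusCases Q H ∨ PlusSubfield Q H := by
  classical
  have hn7 : 7 ≤ Fintype.card ι := by omega
  have hd := hD.decomp.decomp
  have hle : H ≤ decompositionStabilizer D ⊓ omegaGL ⇑Q := le_inf hKD hH.1.le
  have hchar : (2 : F) = 0 → Fintype.card F % 2 = 0 := fun h2 => by
    haveI : CharP F 2 := CharTwo.of_one_ne_zero_of_two_eq_zero one_ne_zero h2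
    exact FiniteField.even_card_iff_char_two.mp (ringChar.eq F 2)
  have hq2 : 2 ≤ Fintype.card F := Fintype.one_lt_card
  have hoddk : Odd k → (2 : F) ≠ 0 ∧ Odd (Fintype.card F) := fun hk => by
    have h2 : (2 : F) ≠ 0 := fun h => by
      have := even_finrank_of_nondeg h (W := D ⟨0, by have := hd.two_le; omega⟩)
        (by
          have hff : fQ = QuadraticMap.polar ⇑Q := funext fun u => funext fun v => (polar_eq_form Q u v).symm
          rw [hff]; exact hD.decomp.nondegenerate _)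
      rw [hd.finrank_eq] at this
      exact Nat.not_even_iff_odd.mpr hk this
    refine ⟨h2, Nat.odd_iff.mpr (FiniteField.odd_card_of_char_ne_two fun h => h2 ?_)⟩
    haveI : CharP F 2 := ringChar.of_eq h
    exact CharTwo.two_eq_zero
  have lines : ∀ D' : Fin 12 → Submodule F (ι → F), IsOrthogonalMDecomposition (⇑Q) 1 D' →
      H ≤ decompositionStabilizer D' → Odd (Fintype.card F) → (Fintype.card F).Prime → PlusCases Q H :=
    fun D' hD' hle' hodd hp => Or.inl ⟨⟨_, hp, hodd, rfl⟩, D', hD',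
      subgroup_eq_of_le hH hle' (not_le_many hQ hn7 hD' (by norm_num))⟩
  have h2t := hd.two_le
  have ht12 : t ≤ 12 := Nat.le_of_dvd (by norm_num) (Dvd.intro k htk)
  have hcases : (t = 12 ∧ k = 1) ∨ (t = 6 ∧ k = 2) ∨ (t = 4 ∧ k = 3) ∨ (t = 3 ∧ k = 4) ∨ (t = 2 ∧ k = 6) := by
    interval_cases t <;> omega
  rcases hcases with ⟨rfl, rfl⟩ | ⟨rfl, rfl⟩ | ⟨rfl, rfl⟩ | ⟨rfl, rfl⟩ | ⟨rfl, rfl⟩
  · obtain ⟨h2, hodd⟩ := hoddk odd_one
    by_cases hp : (Fintype.card F).Prime
    · exact Or.inl (lines D hD hKD hodd hp)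
    refine Or.inr ?_
    have hbot : (⊥ : Subfield F) ≠ ⊤ := by
      intro e'
      obtain ⟨p, hp'⟩ := CharP.exists F
      haveI := hp'
      haveI : Fact p.Prime := ⟨CharP.char_is_prime F p⟩
      have hbij : Function.Bijective (ZMod.castHom (dvd_refl p) F) := by
        refine ⟨RingHom.injective _, fun x => ?_⟩
        have hx : x ∈ (⊥ : Subfield F) := e' ▸ trivial
        exact (bot_le : (⊥ : Subfield F) ≤ (ZMod.castHom (dvd_refl p) F).fieldRange) hx
      exact hp (by rw [← Fintype.card_of_bijective hbij, ZMod.card]; exact Fact.out)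
    obtain ⟨F₁, r, hr, -, hcard⟩ := exists_prime_index hbot
    have hff : matForm (RingEquiv.refl F) (EvenTen.qgram Q) = QuadraticMap.polar ⇑Q :=
      funext fun u => funext fun v => (EvenTen.polar_eq Q u v).symm
    obtain ⟨P, z, hz, hrat, hPle⟩ := EvenTen.rational_of_lines (hH.1.le.trans (EvenTen.omega_le_isometry Q)) h2
      (D := D) (by rw [hff]; exact hD.decomp) hKD htr F₁
    exact ⟨F₁, r, P, z, hr, hcard, hz, hrat,
      subgroup_eq_of_le hH hPle (not_le_subfield hQ hn7 hr hcard P)⟩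
  · have heq := subgroup_eq_of_le hH hKD (not_le_many hQ hn7 hD (by norm_num))
    by_cases hpl : ∀ i, IsPlusTypeOn (⇑Q) (D i)
    · by_cases h7 : 7 ≤ Fintype.card F
      · exact Or.inl (Or.inr (Or.inl ⟨h7, D, hD, hpl, heq⟩))
      exfalso
      have hq : Fintype.card F = 2 ∨ Fintype.card F = 3 ∨ Fintype.card F = 4 ∨ Fintype.card F = 5 := by
        have h6 : Fintype.card F ≠ 6 := fun h => by
          have := FiniteField.isPrimePow_card F
          rw [h] at this
          exact absurd this (by rw [isPrimePow_nat_iff_bounded_log]; decide)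
        omega
      rcases hq with h | h | h | h
      · obtain ⟨K, hK1, hK2⟩ := FrameRefinePlus.exists_between_plane_char_two Q (Or.inl h) hD hQ hpl hn7 (by norm_num)
        exact no_between hH hle hK1 hK2
      · obtain ⟨K, hK1, hK2⟩ := FrameRefinePlus.exists_between_plane_odd Q (Or.inl h) hD hpl (by norm_num)
        exact no_between hH hle hK1 hK2
      · obtain ⟨K, hK1, hK2⟩ := FrameRefinePlus.exists_between_plane_char_two Q (Or.inr h) hD hQ hpl hn7 (by norm_num)
        exact no_between hH hle hK1 hK2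
      · obtain ⟨K, hK1, hK2⟩ := FrameRefinePlus.exists_between_plane_odd Q (Or.inr h) hD hpl (by norm_num)
        exact no_between hH hle hK1 hK2
    push Not at hpl
    obtain ⟨i₀, hi₀⟩ := hpl
    have hmin : ∀ i, ¬ IsPlusTypeOn (⇑Q) (D i) := by
      rintro i ⟨U, hUD, hU, hUd⟩
      obtain ⟨e, he⟩ := hD.isometric i i₀
      let L : D i →ₗ[F] (ι → F) := (D i₀).subtype ∘ₗ e.toLinearMap
      refine hi₀ ⟨(U.comap (D i).subtype).map L, ?_, ?_, ?_⟩
      · rintro _ ⟨x, -, rfl⟩; exact (e x).2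
      · rintro _ ⟨x, hx, rfl⟩; exact (he x).trans (hU _ hx)
      · rw [← LinearEquiv.finrank_eq (Submodule.equivMapOfInjective L
            ((D i₀).injective_subtype.comp e.injective) _),
          (Submodule.comapSubtypeEquivOfLe hUD).finrank_eq, hUd, hd.finrank_eq, hd.finrank_eq]
    by_cases h3 : Fintype.card F = 3
    · exfalso
      obtain ⟨K, hK1, hK2⟩ := FrameRefine.exists_between_blocks h3 Q hD (by norm_num) (Or.inr ⟨rfl, hmin⟩)
      exact no_between hH hle hK1 hK2
    exact Or.inl (Or.inr (Or.inr (Or.inl ⟨h3, D, hD, hmin, heq⟩)))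
  · obtain ⟨h2, hodd⟩ := hoddk (by decide)
    by_cases h5 : 5 ≤ Fintype.card F
    · exact Or.inl (Or.inr (Or.inr (Or.inr (Or.inl ⟨hodd, h5, D, hD,
        subgroup_eq_of_le hH hKD (not_le_many hQ hn7 hD (by norm_num))⟩))))
    have h3 : Fintype.card F = 3 := by
      obtain ⟨u, hu⟩ := hodd
      omega
    obtain ⟨D', hD', hle'⟩ := OddMax.exists_frame h3 Q hD
    exact Or.inl (lines D' hD' (hle.trans hle') hodd (by rw [h3]; norm_num))
  · by_cases h3 : 3 ≤ Fintype.card F
    · exact Or.inl (Or.inr (Or.inr (Or.inr (Or.inr (Or.inl ⟨h3, D, hD,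
        subgroup_eq_of_le hH hKD (not_le_decomp hQ hn7 hd (by norm_num))⟩)))))
    exfalso
    have hq : Fintype.card F = 2 := by omega
    have h20 : (2 : F) = 0 := GeomClasses.two_eq_zero' hq
    have hI := Forms.isForm_quadratic Q hQ
    have hp2 : ∀ i, IsPlusTypeOn (⇑Q) (D i) := by
      intro i
      obtain ⟨a, b, ha, hb, hab⟩ : ∃ a b : Fin 3, a ≠ i ∧ b ≠ i ∧ a ≠ b := by revert i; decide
      obtain ⟨e, he⟩ := hD.isometric a b
      let φ : D a →ₗ[F] (ι → F) := (D a).subtype + (D b).subtype ∘ₗ e.toLinearMap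
      have hnd : ∀ u ∈ D i, (∀ v ∈ D i, QuadraticMap.polarBilin Q u v = 0) → u = 0 := fun u hu h => by
        by_contra hu0
        obtain ⟨-, x, hx, hne⟩ := hD.decomp.nondegenerate i u hu hu0
        exact hne (h x hx)
      have hperp : IsPlusTypeOn (⇑Q) (Forms.perp (QuadraticMap.polarBilin Q) (D i)) := by
        refine ⟨LinearMap.range φ, ?_, ?_, ?_⟩
        · rintro _ ⟨x, rfl⟩ y hy
          show QuadraticMap.polar (⇑Q) y ((x : ι → F) + (e x : ι → F)) = 0
          rw [QuadraticMap.polar_add_right, hD.decomp.orthogonal i a (Ne.symm ha) y hy _ x.2,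
            hD.decomp.orthogonal i b (Ne.symm hb) y hy _ (e x).2, add_zero]
        · rintro _ ⟨x, rfl⟩
          show Q ((x : ι → F) + (e x : ι → F)) = 0
          rw [QuadraticMap.map_add Q, he, hD.decomp.orthogonal a b hab _ x.2 _ (e x).2, add_zero, ← two_mul, h20, zero_mul]
        · have h1 := hI.finrank_perp (D i)
          rw [hd.finrank_eq, finrank_pi, hn] at h1
          rw [LinearMap.finrank_range_of_inj, hd.finrank_eq]
          · omega
          intro x y hxy
          apply Subtype.ext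
          have h0 : ((x - y : D a) : ι → F) = -((e (x - y) : D b) : ι → F) := by
            have : φ (x - y) = 0 := by rw [map_sub, hxy, sub_self]
            exact eq_neg_of_add_eq_zero_left this
          have := Submodule.disjoint_def.mp (hd.indep.pairwiseDisjoint hab) _ (x - y).2 (by
            rw [h0]; exact neg_mem (e (x - y)).2)
          simpa [sub_eq_zero] using this
      have := plus_perp hQ hplus (hI.perp_nondeg hnd) hperp
      rwa [hI.perp_perp] at this
    obtain ⟨K, hK1, hK2⟩ := FrameRefinePlus.exists_between_four Q hq hD hQ hp2 hn7 le_rfl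
    exact no_between hH hle hK1 hK2
  · exact Or.inl (Or.inr (Or.inr (Or.inr (Or.inr (Or.inr (Or.inl ⟨D, hD,
      subgroup_eq_of_le hH hKD (not_le_decomp hQ hn7 hd (by norm_num))⟩))))))

/-- A normalised commutative algebra gives a field, a decomposition or a subfield group. -/
theorem comm_twelve_plus (hQ : (QuadraticMap.polarBilin Q).Nondegenerate) (hn : Fintype.card ι = 12)
    (hplus : IsPlusTypeOn (⇑Q) ⊤) {H : Subgroup (GL ι F)} (hH : IsMaximalIn (omegaGL ⇑Q) H)
    (hirr : Irr ((fun u : (Module.End F (ι → F))ˣ => (u : Module.End F (ι → F))) ''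
      (gu '' (↑(H ⊔ scalars ι F) : Set _))))
    {E : Subalgebra F (Module.End F (ι → F))} (hcomm : ∀ x ∈ E, ∀ y ∈ E, x * y = y * x)
    (hnorm : ∀ g ∈ H ⊔ scalars ι F, Normalises E (gu g)) (hcl : ∀ x ∈ E, st (RingEquiv.refl F) (polarGram Q) x ∈ E)
    (hbig : ∃ x ∈ E, ∀ c : F, x ≠ algebraMap F _ c) :
    PlusCases Q H ∨ PlusSubfield Q H := by
  classical
  have hn7 : 7 ≤ Fintype.card ι := by omega
  haveI : Nontrivial ι := Fintype.one_lt_card_iff_nontrivial.mp (by omega)
  have hI : ∀ g ∈ H, ∀ v, Q ((g : Matrix ι ι F) *ᵥ v) = Q v := fun g hg v => omegaGL_preserves Q (hH.1.le hg) v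
  have hff : fQ = QuadraticMap.polar ⇑Q := funext fun u => funext fun v => (polar_eq_form Q u v).symm
  rcases blocks_or_field (formData Q hQ) (sim_of_iso Q hI) hirr hcomm hnorm hcl with
    ⟨t, k, D, hD, hKD, htr⟩ | ⟨k, D, hk, hD, hts, hK⟩ | hinv
  · have htk : t * k = 12 := by
      have hd := hD.decomp
      have hint := DirectSum.isInternal_submodule_of_iSupIndep_of_iSup_eq_top hd.indep hd.iSup_eq_top
      have := Module.finrank_eq_card_basis (hint.collectedBasis fun i => Module.finBasisOfFinrankEq F (D i) (hd.finrank_eq i))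
      rw [finrank_pi, hn, Fintype.card_sigma] at this
      simp at this
      omega
    have hiso : ∀ i j, ∃ g ∈ H, ∀ v ∈ D i, (g : Matrix ι ι F) *ᵥ v ∈ D j := by
      intro i j
      obtain ⟨g, hg, hgij⟩ := htr i j
      rw [← SetLike.mem_coe, Subgroup.mul_normal] at hg
      obtain ⟨a, ha, z, hz, rfl⟩ := hg
      refine ⟨a, ha, fun v hv => ?_⟩
      obtain ⟨c, hc⟩ := (mem_scalars_iff z).mp hz
      have := hgij v hv
      rw [Units.val_mul, ← Matrix.mulVec_mulVec, hc, Matrix.smul_mulVec, Matrix.one_mulVec, Matrix.mulVec_smul] at this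
      have h' := (D j).smul_mem (c : F)⁻¹ this
      rwa [smul_smul, inv_mul_cancel₀ c.ne_zero, one_smul] at h'
    have hd := hD.decomp
    refine decomp_twelve_plus hQ hn hplus hH (D := D) ⟨hff ▸ hD, fun i j => ?_⟩ (le_sup_left.trans hKD) hiso htk
    obtain ⟨g, hg, hgij⟩ := hiso i j
    let Lg : D i →ₗ[F] D j :=
      { toFun := fun v => ⟨(g : Matrix ι ι F) *ᵥ (v : ι → F), hgij v v.2⟩
        map_add' := fun a b => Subtype.ext (by simp [Matrix.mulVec_add])
        map_smul' := fun c a => Subtype.ext (by simp [Matrix.mulVec_smul]) }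
    have hinj : Function.Injective Lg := fun a b hab => by
      have := congrArg ((g⁻¹ : GL ι F).val *ᵥ ·) (congrArg Subtype.val hab)
      exact Subtype.ext (by simpa [Lg, Matrix.mulVec_mulVec] using this)
    exact ⟨LinearEquiv.ofInjectiveOfFinrankEq Lg hinj (by rw [hd.finrank_eq, hd.finrank_eq]), fun v => hI g hg _⟩
  · obtain rfl : k = 6 := by omega
    exact Or.inl (Or.inr (Or.inr (Or.inr (Or.inr (Or.inr (Or.inr (Or.inl ⟨D, hD,
      halves_singular hI (fun W hW => irred_of_irr hirr (W := W) hW) hk (by norm_num) hD hts hK,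
      subgroup_eq_of_le hH (le_sup_left.trans hK) (not_le_decomp hQ hn7 hD (by norm_num))⟩)))))))
  obtain ⟨r, L, hr, hLE, hfin, hLinv, hLN⟩ := Asch.exists_prime_subfield hcomm hinv hbig
  have hr23 : r = 2 ∨ r = 3 := by
    letI : CommRing L := { (inferInstance : Ring L) with mul_comm := fun a b => Subtype.ext (hcomm a (hLE a.2) b (hLE b.2)) }
    haveI : Nontrivial L := ⟨0, 1, fun h => zero_ne_one (congrArg Subtype.val h)⟩
    have hLF : IsField L := ⟨⟨0, 1, zero_ne_one⟩, mul_comm, fun {a} ha => by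
      obtain ⟨y, hy, hxy⟩ := hLinv a a.2 fun h => ha (Subtype.ext h)
      exact ⟨⟨y, hy⟩, Subtype.ext hxy⟩⟩
    letI : Field L := hLF.toField
    haveI : IsScalarTower F L (ι → F) := ⟨fun c a v => rfl⟩
    have hdvd : r ∣ 12 := by
      refine ⟨Module.finrank L (ι → F), ?_⟩
      rw [← hfin, Module.finrank_mul_finrank, Module.finrank_fintype_fun_eq_card, hn]
    rcases (Nat.Prime.dvd_mul hr).mp (show r ∣ 2 ^ 2 * 3 from hdvd) with h | h
    · exact Or.inl ((Nat.prime_dvd_prime_iff_eq hr Nat.prime_two).mp (hr.dvd_of_dvd_pow h))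
    · exact Or.inr ((Nat.prime_dvd_prime_iff_eq hr Nat.prime_three).mp h)
  let Φ : Module.End F (ι → F) ≃ₐ[F] Matrix ι ι F := LinearMap.toMatrixAlgEquiv'
  let L' : Subalgebra F (Matrix ι ι F) := L.map Φ.toAlgHom
  have hmem : ∀ x, x ∈ L' ↔ Φ.symm x ∈ L := fun x =>
    ⟨by rintro ⟨y, hy, rfl⟩; simpa using hy, fun h => ⟨_, h, Φ.apply_symm_apply x⟩⟩
  have hfield : IsFieldSubalgebra r L' := by
    refine ⟨fun x hx y hy => ?_, fun x hx hx0 => ?_, ?_⟩
    · apply Φ.symm.injective
      rw [map_mul, map_mul]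
      exact hcomm _ (hLE ((hmem x).mp hx)) _ (hLE ((hmem y).mp hy))
    · obtain ⟨y, hy, hxy⟩ := hLinv _ ((hmem x).mp hx) (by simpa using hx0)
      refine ⟨Φ y, (hmem _).mpr (by simpa using hy), Φ.symm.injective ?_⟩
      simpa using hxy
    · rw [← hfin]
      exact (L.equivMapOfInjective Φ.toAlgHom Φ.injective).toLinearEquiv.finrank_eq.symm
  have hHeq : H = subalgebraNormalizer L' ⊓ omegaGL ⇑Q :=
    subgroup_eq_of_le hH (fun g hg k => by
      rw [hmem, hmem, hLN (gu g) (hnorm g (Subgroup.mem_sup_left hg)), map_mul, map_mul, ← map_inv]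
      rfl) (not_le_field hQ (by omega) hr.two_le hfield)
  rcases hr23 with rfl | rfl
  · exact Or.inl (Or.inr (Or.inr (Or.inr (Or.inr (Or.inr (Or.inr (Or.inr (Or.inl ⟨L', hfield, hHeq⟩))))))))
  · exact Or.inl (Or.inr (Or.inr (Or.inr (Or.inr (Or.inr (Or.inr (Or.inr (Or.inr ⟨L', hfield, hHeq⟩))))))))

/-- The subspace stabilisers of the list. -/
def PlusSub (Q : QuadraticForm F (ι → F)) (H : Subgroup (GL ι F)) : Prop :=
  (∃ W : Submodule F (ι → F), W ≠ ⊥ ∧ IsTotallySingularQuad (⇑Q) W ∧ finrank F W ≠ 5 ∧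
    H = subspaceStabilizer W ⊓ omegaGL ⇑Q) ∨
  (Odd (Fintype.card F) ∧ ∃ W : Submodule F (ι → F), W ≠ ⊥ ∧ W ≠ ⊤ ∧ Odd (finrank F W) ∧ 2 * finrank F W ≠ 12 ∧
    IsNondegenerateOn (QuadraticMap.polar ⇑Q) W ∧ H = subspaceStabilizer W ⊓ omegaGL ⇑Q) ∨
  (∃ W : Submodule F (ι → F), finrank F W = 2 ∧ IsNondegenerateOn (QuadraticMap.polar ⇑Q) W ∧
    ¬ IsPlusTypeOn (⇑Q) W ∧ H = subspaceStabilizer W ⊓ omegaGL ⇑Q) ∨
  (4 ≤ Fintype.card F ∧ ∃ W : Submodule F (ι → F), finrank F W = 2 ∧ IsNondegenerateOn (QuadraticMap.polar ⇑Q) W ∧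
    IsPlusTypeOn (⇑Q) W ∧ H = subspaceStabilizer W ⊓ omegaGL ⇑Q) ∨
  (∃ W : Submodule F (ι → F), finrank F W = 4 ∧ IsNondegenerateOn (QuadraticMap.polar ⇑Q) W ∧
    H = subspaceStabilizer W ⊓ omegaGL ⇑Q) ∨
  (¬ Odd (Fintype.card F) ∧ ∃ v : ι → F, Q v ≠ 0 ∧
    H = subspaceStabilizer (Submodule.span F {v}) ⊓ omegaGL ⇑Q) ∨
  (∃ D : Fin 2 → Submodule F (ι → F), IsOrthogonalMDecomposition (⇑Q) 6 D ∧
    H = decompositionStabilizer D ⊓ omegaGL ⇑Q)

/-- The stabilisers of subspaces. -/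
theorem reducible_twelve_plus (hQ : (QuadraticMap.polarBilin Q).Nondegenerate) (hn : Fintype.card ι = 12)
    (hplus : IsPlusTypeOn (⇑Q) ⊤) {H : Subgroup (GL ι F)} (hH : IsMaximalIn (omegaGL ⇑Q) H)
    (hirr : ¬ Irr ((fun u : (Module.End F (ι → F))ˣ => (u : Module.End F (ι → F))) ''
      (gu '' (↑(H ⊔ scalars ι F) : Set _)))) : PlusSub Q H := by
  have hn7 : 7 ≤ Fintype.card ι := by omega
  rcases reducible_twelve hQ hn hH hirr with ⟨W, hW0, hW, heq⟩ | h | h | h | h | ⟨W, hWd, hW, heq⟩ | h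
  · by_cases h5 : finrank F W = 5
    · obtain ⟨U, -, hU, hUd⟩ := hplus
      rw [finrank_top, finrank_pi] at hUd
      obtain ⟨R, hWR, hR, hRd⟩ := exists_half_containing hQ hU hUd hW
      have hR0 : R ≠ ⊥ := fun e => by rw [e, finrank_bot] at hRd; omega
      have hR1 : R ≠ ⊤ := fun e => by rw [e, finrank_top, finrank_pi] at hRd; omega
      refine Or.inl ⟨R, hR0, hR, by omega, subgroup_eq_of_le hH (fun g hg => ?_) (not_le_subspace hQ hn7 hR0 hR1)⟩
      rw [mem_subspaceStabilizer_iff]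
      refine half_stable hQ (by omega) hR (by omega) hWR (by omega) (hH.1.le hg) ?_
      rw [heq] at hg
      exact mem_subspaceStabilizer_iff.mp hg.1
    · exact Or.inl ⟨W, hW0, hW, h5, heq⟩
  · exact Or.inr (Or.inl h)
  · exact Or.inr (Or.inr (Or.inl h))
  · exact Or.inr (Or.inr (Or.inr (Or.inl h)))
  · exact Or.inr (Or.inr (Or.inr (Or.inr (Or.inl h))))
  swap
  · exact Or.inr (Or.inr (Or.inr (Or.inr (Or.inr (Or.inl h)))))
  iterate 6 right
  have hI := Forms.isForm_quadratic Q hQ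
  have hnd : ∀ u ∈ W, (∀ v ∈ W, QuadraticMap.polarBilin Q u v = 0) → u = 0 := fun u hu h => by
    by_contra hu0
    obtain ⟨-, x, hx, hne⟩ := hW u hu hu0
    exact hne (h x hx)
  set W' := Forms.perp (QuadraticMap.polarBilin Q) W
  obtain ⟨e, he⟩ := halves_isometric hQ hplus (w := 3) (by omega) (by omega) hnd
  have hW'd : finrank F W' = 6 := by rw [← e.finrank_eq, hWd]
  have hc := hI.isCompl_perp hnd
  let D : Fin 2 → Submodule F (ι → F) := ![W, W']
  have hmd : IsMDecomposition 6 D := by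
    refine ⟨le_rfl, by norm_num, ?_, ?_, ?_⟩ <;> first
      | (intro i; fin_cases i <;> assumption)
      | (rw [iSupIndep_pair (i := (0 : Fin 2)) (j := 1) (by decide) (fun k => by fin_cases k <;> simp)]; exact hc.disjoint)
      | (rw [eq_top_iff, ← hc.sup_eq_top]; exact sup_le (le_iSup D 0) (le_iSup D 1))
  have hW'nd : IsNondegenerateOn (QuadraticMap.polar ⇑Q) W' := by
    intro u hu hu0
    obtain ⟨x, hx, hne⟩ : ∃ x ∈ W', QuadraticMap.polar (⇑Q) u x ≠ 0 := by
      by_contra h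
      push Not at h
      exact hu0 (hI.perp_nondeg hnd u hu h)
    exact ⟨⟨x, hx, by rwa [QuadraticMap.polar_comm]⟩, x, hx, hne⟩
  have hor : IsOrthogonalMDecomposition (⇑Q) 6 D := by
    refine ⟨⟨hmd, ?_, ?_⟩, fun i j => ?_⟩
    · intro i; fin_cases i
      · exact hW
      · exact hW'nd
    · intro i j hij; fin_cases i <;> fin_cases j
      · exact absurd rfl hij
      · exact fun a ha b hb => hb a ha
      · exact fun a ha b hb => (QuadraticMap.polar_comm _ _ _).trans (ha b hb)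
      · exact absurd rfl hij
    · fin_cases i <;> fin_cases j
      · exact ⟨LinearEquiv.refl F W, fun _ => rfl⟩
      · exact ⟨e, he⟩
      · exact ⟨e.symm, fun w => (he (e.symm w)).symm.trans (congrArg (fun z : W' => Q (z : ι → F)) (e.apply_symm_apply w))⟩
      · exact ⟨LinearEquiv.refl F W', fun _ => rfl⟩
  refine ⟨D, hor, subgroup_eq_of_le hH (fun g hg => ?_) (not_le_decomp hQ hn7 hmd (by norm_num))⟩
  refine mem_decomp_two hmd fun i => ⟨i, ?_⟩
  have hgW := mem_subspaceStabilizer_iff.mp ((heq.le hg).1)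
  fin_cases i
  · exact hgW
  · intro x hx y hy
    -- the image of the complement is orthogonal to the image of `W`, which is `W`
    obtain ⟨y', hy', rfl⟩ : ∃ y' ∈ W, (g : Matrix ι ι F) *ᵥ y' = y := by
      refine ⟨(g⁻¹ : GL ι F).val *ᵥ y, mem_subspaceStabilizer_iff.mp ((heq.le (inv_mem hg)).1) y hy, ?_⟩
      rw [Matrix.mulVec_mulVec, Units.mul_inv, Matrix.one_mulVec]
    show QuadraticMap.polar (⇑Q) _ _ = 0
    rw [polar_eq_form, form_iso Q (omegaGL_preserves Q (hH.1.le hg)), ← polar_eq_form]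
    exact hx y' hy'

end Cfsg.Agent.GeomClasses.OrthEven
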